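import Cfsg.Agent.Lib.Golay.Simple
import Cfsg.Agent.Lib.Golay.Orbit

/-! # The permutation module and the cosets of the code -/

set_option autoImplicit false
set_option maxRecDepth 100000

namespace Cfsg.Agent.Lib.Golay

open Cfsg
open scoped Pointwise

/-- Generators fixing the points `0` and `1`. -/
def m22Two : List ℕ := [
    668147386143814577648044664044296224,
    196547492039141664522451553284604960]

/-- Generators preserving the standard octad. -/
def octTwo : List ℕ := [
    605570897992061659285007913998877763,
    551212888788874984618038518814453764]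

/-- Generators preserving the standard dodecad. -/
def dodTwo : List ℕ := [
    731737804489041197756264533817763084,
    808017807308536532068420301768536070]

theorem perm_word (σ : Equiv.Perm GolayPt) (m : ℕ) :
    (fun p => word m (σ.symm p)) = word (mask (σ • toSet m)) := by
  funext p
  have h : p ∈ σ • toSet m ↔ σ.symm p ∈ toSet m := by
    rw [← Finset.inv_smul_mem_iff]; rfl
  simp only [word, testBit_mask, h, mem_toSet]
  cases m.testBit (ix (σ.symm p)) <;> simp

theorem perm_word_eq {g : ℕ} (hg : valid g = true) (m : ℕ) :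
    (fun p => word m ((toPerm g).symm p)) = word (act g m) := by
  rw [perm_word, act_eq hg]

theorem exists_word (w : GolayPt → ZMod 2) : ∃ m < 16777216, word m = w :=
  ⟨_, mask_lt _, word_mask w⟩

theorem neg_eq_self (w : GolayPt → ZMod 2) : -w = w := by
  funext p; exact CharTwo.neg_eq (w p)

/-- The syndrome of a mask: its coset's representative on the last twelve points. -/
def nf (m : ℕ) : ℕ := (m ^^^ enc (m &&& 4095)) >>> 12

theorem nf_spec {m : ℕ} (hm : m < 16777216) :
    nf m < 4096 ∧ isCode (m ^^^ nf m <<< 12) = true := by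
  have hlt : m ^^^ enc (m &&& 4095) < 16777216 := Nat.xor_lt_two_pow (n := 24) hm (enc_lt _)
  have hlow : (m ^^^ enc (m &&& 4095)) &&& 4095 = 0 := by
    rw [Nat.and_xor_distrib_right, enc_mod _ (lt_of_le_of_lt Nat.and_le_right (by norm_num)),
      Nat.xor_self]
  have h0 : (m ^^^ enc (m &&& 4095)) % 4096 = 0 := by
    rw [show (4095 : ℕ) = 2 ^ 12 - 1 by norm_num, Nat.and_two_pow_sub_one_eq_mod] at hlow
    exact hlow
  have hk : nf m <<< 12 = m ^^^ enc (m &&& 4095) := by
    rw [nf, Nat.shiftRight_eq_div_pow, Nat.shiftLeft_eq]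
    norm_num
    omega
  refine ⟨by rw [nf, Nat.shiftRight_eq_div_pow]; norm_num; omega, ?_⟩
  rw [hk, ← Nat.xor_assoc, Nat.xor_self, Nat.zero_xor]
  exact isCode_iff.2 ⟨_, lt_of_le_of_lt Nat.and_le_right (by norm_num), rfl⟩

theorem isCode_zero : isCode 0 = true := by decide

/-- Masks of weight at most four. -/
def lightList : List ℕ := combs 24 0 ++ combs 24 1 ++ combs 24 2 ++ combs 24 3 ++ combs 24 4

theorem light_cover : keySet nf lightList = 2 ^ 4096 - 1 := by decide +kernel

theorem light_ok : lightList.all (fun m => Nat.blt m 16777216 && Nat.ble (pc m) 4) = true := by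
  decide +kernel

/-- Every word is a code word plus one of weight at most four. -/
theorem exists_light {m : ℕ} (hm : m < 16777216) :
    ∃ u < 16777216, pc u ≤ 4 ∧ isCode (m ^^^ u) = true := by
  obtain ⟨hn, hcode⟩ := nf_spec hm
  have hbit : (keySet nf lightList).testBit (nf m) = true := by
    rw [light_cover, Nat.testBit_two_pow_sub_one]; simpa using hn
  obtain ⟨u, hu, he⟩ := (testBit_keySet nf lightList (nf m)).1 hbit
  have hu2 := List.all_eq_true.1 light_ok u hu
  simp only [Bool.and_eq_true, Nat.blt_eq, Nat.ble_eq] at hu2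
  refine ⟨u, hu2.1, hu2.2, ?_⟩
  have h2 := isCode_xor hcode (he ▸ (nf_spec hu2.1).2)
  rwa [Nat.xor_assoc, Nat.xor_comm u, ← Nat.xor_assoc (nf m <<< 12), Nat.xor_self,
    Nat.zero_xor] at h2

theorem m22Two_ok : m22Two.all (fun g => inM24 g && fixesMask 3 g) = true ∧
    ((List.range 4096).all fun k => (enc k == 0) || (enc k == FULL) ||
      m22Two.any fun g => (act g (enc k) != enc k) && (act g (enc k) != FULL ^^^ enc k)) = true := by
  constructor <;> decide +kernel

end Cfsg.Agent.Lib.Golay
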