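import Cfsg.Agent.Lib.Golay.FamOrbits

/-! # Sextet and trio stabilisers are maximal -/

set_option autoImplicit false
set_option maxRecDepth 100000

namespace Cfsg.Agent.Lib.Golay

open Cfsg
open scoped Pointwise

theorem self_kind {B : List ℕ} (hB : canon B = true) {k : ℕ} (hk : kindL B B = k)
    {B' : Finset (Finset GolayPt)} (hmove : ∃ σ ∈ M24, σ • fam B = B') : kindF B' B' = k := by
  obtain ⟨σ, -, rfl⟩ := hmove
  rw [kindF_smul, kindF_fam hB hB, hk]

theorem self_kind_sS {S : Finset (Finset GolayPt)} (hS : S ∈ sextets) : kindF S S = 96 :=
  self_kind (by decide +kernel) (by decide +kernel) (sBase_move hS)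

theorem self_kind_tT {T : Finset (Finset GolayPt)} (hT : T ∈ trios) : kindF T T = 192 :=
  self_kind (by decide +kernel) (by decide +kernel) (tBase_move hT)

theorem fam_stab_same {X : Set (Finset (Finset GolayPt))} {U : List (List ℕ)}
    {isU : List ℕ → Bool} {key : List ℕ → ℕ} (h : IsModel X U isU key) {B : List ℕ}
    {gs : List ℕ} {T : List (ℕ × ℕ)} {start : List ℕ} {k n : ℕ}
    (hc : kindCover B gs T start U isU key k n = true) {B' b c : Finset (Finset GolayPt)}
    (hmove : ∃ σ ∈ M24, σ • fam B = B') (hb : b ∈ X) (hc' : c ∈ X)
    (hkb : kindF B' b = k) (he : kindF B' b = kindF B' c) :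
    ∃ g : M24, g • B' = B' ∧ g • b = c := by
  obtain ⟨-, htr, -⟩ := class_transfer h hc hmove
  obtain ⟨σ, hσ, h1, h2⟩ := htr b hb hkb c hc' (he ▸ hkb)
  exact ⟨⟨σ, hσ⟩, h1, h2⟩

theorem sextet_stab_maximal {S : Finset (Finset GolayPt)} (hS : S ∈ sextets) :
    IsCoatom (MulAction.stabilizer M24 S) := by
  have mv := sBase_move hS
  refine isCoatom_stabilizer S sextets
    (orbit_M24_eq (fun σ hσ => smul_mem_sextets hσ hS) fun b hb => M24_trans_sextets hS hb)
    (fun b => kindF S b) {96, 48, 36, 32}
    (fun k => if k = 96 then 1 else if k = 48 then 90 else if k = 36 then 240 else 1440)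
    ?_ ?_ ?_ ?_ ?_ ?_
  · intro b hb
    have := kinds_cover' sextet_model (B := sBase) (by decide +kernel) sS_all mv hb
    simpa using this
  · intro k hk
    simp only [Finset.mem_insert, Finset.mem_singleton] at hk
    rcases hk with rfl | rfl | rfl | rfl
    · exact (class_transfer sextet_model sS1_cover mv).1
    · exact (class_transfer sextet_model sS90_cover mv).1
    · exact (class_transfer sextet_model sS240_cover mv).1
    · exact (class_transfer sextet_model sS1440_cover mv).1
  · intro b hb c hc he
    have := kinds_cover' sextet_model (B := sBase) (by decide +kernel) sS_all mv hb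
    simp only [List.mem_cons, List.not_mem_nil, or_false] at this
    rcases this with h | h | h | h
    · exact fam_stab_same sextet_model sS1_cover mv hb hc h he
    · exact fam_stab_same sextet_model sS90_cover mv hb hc h he
    · exact fam_stab_same sextet_model sS240_cover mv hb hc h he
    · exact fam_stab_same sextet_model sS1440_cover mv hb hc h he
  · intro b hb he
    simp only [self_kind_sS hS] at he
    have : b ∈ ({S} : Set _) :=
      self_class sextet_model sS1_cover mv hS (self_kind_sS hS) ▸ ⟨hb, he⟩
    exact this
  · by_contra hne
    have : sextets = {S} := Set.ext fun b => ⟨fun hb => of_not_not fun h => hne ⟨b, hb, h⟩,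
      fun hb => (Set.mem_singleton_iff.1 hb) ▸ hS⟩
    have h := sextets_ncard
    rw [this, Set.ncard_singleton] at h
    omega
  · simp only [self_kind_sS hS]
    decide

theorem trio_stab_maximal {T : Finset (Finset GolayPt)} (hT : T ∈ trios) :
    IsCoatom (MulAction.stabilizer M24 T) := by
  have mv := tBase_move hT
  refine isCoatom_stabilizer T trios
    (orbit_M24_eq (fun σ hσ => smul_mem_trios hσ hT) fun b hb => M24_trans_trios hT hb)
    (fun b => kindF T b) {192, 128, 96, 80, 72}
    (fun k => if k = 192 then 1 else if k = 128 then 42 else if k = 96 then 56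
      else if k = 80 then 1008 else 2688)
    ?_ ?_ ?_ ?_ ?_ ?_
  · intro b hb
    have := kinds_cover' trio_model (B := tBase) (by decide +kernel) tT_all mv hb
    simpa using this
  · intro k hk
    simp only [Finset.mem_insert, Finset.mem_singleton] at hk
    rcases hk with rfl | rfl | rfl | rfl | rfl
    · exact (class_transfer trio_model tT1_cover mv).1
    · exact (class_transfer trio_model tT42_cover mv).1
    · exact (class_transfer trio_model tT56_cover mv).1
    · exact (class_transfer trio_model tT1008_cover mv).1
    · exact (class_transfer trio_model tT2688_cover mv).1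
  · intro b hb c hc he
    have := kinds_cover' trio_model (B := tBase) (by decide +kernel) tT_all mv hb
    simp only [List.mem_cons, List.not_mem_nil, or_false] at this
    rcases this with h | h | h | h | h
    · exact fam_stab_same trio_model tT1_cover mv hb hc h he
    · exact fam_stab_same trio_model tT42_cover mv hb hc h he
    · exact fam_stab_same trio_model tT56_cover mv hb hc h he
    · exact fam_stab_same trio_model tT1008_cover mv hb hc h he
    · exact fam_stab_same trio_model tT2688_cover mv hb hc h he
  · intro b hb he
    simp only [self_kind_tT hT] at he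
    have : b ∈ ({T} : Set _) :=
      self_class trio_model tT1_cover mv hT (self_kind_tT hT) ▸ ⟨hb, he⟩
    exact this
  · by_contra hne
    have : trios = {T} := Set.ext fun b => ⟨fun hb => of_not_not fun h => hne ⟨b, hb, h⟩,
      fun hb => (Set.mem_singleton_iff.1 hb) ▸ hT⟩
    have h := trios_ncard
    rw [this, Set.ncard_singleton] at h
    omega
  · simp only [self_kind_tT hT]
    decide

end Cfsg.Agent.Lib.Golay
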