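import Cfsg.Agent.Lib.Golay.Kinds
import Cfsg.Agent.Lib.Golay.FamData

/-! # Certificates for the orbits on families -/

set_option autoImplicit false
set_option maxRecDepth 100000

namespace Cfsg.Agent.Lib.Golay

theorem sO15_cover :
    kindCover sBase sO15Gens sO15Tree sO15Start
      octSingles isOctList octKey 32 15 = true := by
  decide +kernel

theorem sO360_cover :
    kindCover sBase sO360Gens sO360Tree sO360Start
      octSingles isOctList octKey 16 360 = true := by
  decide +kernel

theorem sO384_cover :
    kindCover sBase sO384Gens sO384Tree sO384Start
      octSingles isOctList octKey 14 384 = true := by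
  decide +kernel

theorem sO_all :
    octSingles.all (fun a => [32, 16, 14].elem (kindL sBase a)) = true := by
  decide +kernel

theorem sS1_cover :
    kindCover sBase sS1Gens sS1Tree sS1Start
      sextetList isSextetList sextetKey 96 1 = true := by
  decide +kernel

theorem sS90_cover :
    kindCover sBase sS90Gens sS90Tree sS90Start
      sextetList isSextetList sextetKey 48 90 = true := by
  decide +kernel

theorem sS240_cover :
    kindCover sBase sS240Gens sS240Tree sS240Start
      sextetList isSextetList sextetKey 36 240 = true := by
  decide +kernel

theorem sS1440_cover :
    kindCover sBase sS1440Gens sS1440Tree sS1440Start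
      sextetList isSextetList sextetKey 32 1440 = true := by
  decide +kernel

theorem sS_all :
    sextetList.all (fun a => [96, 48, 36, 32].elem (kindL sBase a)) = true := by
  decide +kernel

theorem sT15_cover :
    kindCover sBase sT15Gens sT15Tree sT15Start
      trioList isTrioList trioKey 96 15 = true := by
  decide +kernel

theorem sT180_cover :
    kindCover sBase sT180Gens sT180Tree sT180Start
      trioList isTrioList trioKey 64 180 = true := by
  decide +kernel

theorem sT720_cover :
    kindCover sBase sT720Gens sT720Tree sT720Start
      trioList isTrioList trioKey 48 720 = true := by
  decide +kernel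

theorem sT2880_cover :
    kindCover sBase sT2880Gens sT2880Tree sT2880Start
      trioList isTrioList trioKey 44 2880 = true := by
  decide +kernel

theorem sT_all :
    trioList.all (fun a => [96, 64, 48, 44].elem (kindL sBase a)) = true := by
  decide +kernel

end Cfsg.Agent.Lib.Golay
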