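import Cfsg.Agent.Lib.Golay.Kinds
import Cfsg.Agent.Lib.Golay.FamData

/-! # Certificates for the orbits on families -/

set_option autoImplicit false
set_option maxRecDepth 100000

namespace Cfsg.Agent.Lib.Golay

theorem tO3_cover :
    kindCover tBase tO3Gens tO3Tree tO3Start
      octSingles isOctList octKey 64 3 = true := by
  decide +kernel

theorem tO84_cover :
    kindCover tBase tO84Gens tO84Tree tO84Start
      octSingles isOctList octKey 32 84 = true := by
  decide +kernel

theorem tO672_cover :
    kindCover tBase tO672Gens tO672Tree tO672Start
      octSingles isOctList octKey 24 672 = true := by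
  decide +kernel

theorem tO_all :
    octSingles.all (fun a => [64, 32, 24].elem (kindL tBase a)) = true := by
  decide +kernel

theorem tS7_cover :
    kindCover tBase tS7Gens tS7Tree tS7Start
      sextetList isSextetList sextetKey 96 7 = true := by
  decide +kernel

theorem tS84_cover :
    kindCover tBase tS84Gens tS84Tree tS84Start
      sextetList isSextetList sextetKey 64 84 = true := by
  decide +kernel

theorem tS336_cover :
    kindCover tBase tS336Gens tS336Tree tS336Start
      sextetList isSextetList sextetKey 48 336 = true := by
  decide +kernel

theorem tS1344_cover :
    kindCover tBase tS1344Gens tS1344Tree tS1344Start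
      sextetList isSextetList sextetKey 44 1344 = true := by
  decide +kernel

theorem tS_all :
    sextetList.all (fun a => [96, 64, 48, 44].elem (kindL tBase a)) = true := by
  decide +kernel

theorem tT1_cover :
    kindCover tBase tT1Gens tT1Tree tT1Start
      trioList isTrioList trioKey 192 1 = true := by
  decide +kernel

theorem tT42_cover :
    kindCover tBase tT42Gens tT42Tree tT42Start
      trioList isTrioList trioKey 128 42 = true := by
  decide +kernel

theorem tT56_cover :
    kindCover tBase tT56Gens tT56Tree tT56Start
      trioList isTrioList trioKey 96 56 = true := by
  decide +kernel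

theorem tT1008_cover :
    kindCover tBase tT1008Gens tT1008Tree tT1008Start
      trioList isTrioList trioKey 80 1008 = true := by
  decide +kernel

theorem tT2688_cover :
    kindCover tBase tT2688Gens tT2688Tree tT2688Start
      trioList isTrioList trioKey 72 2688 = true := by
  decide +kernel

theorem tT_all :
    trioList.all (fun a => [192, 128, 96, 80, 72].elem (kindL tBase a)) = true := by
  decide +kernel

end Cfsg.Agent.Lib.Golay
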