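import Cfsg.Agent.Lib.Golay.Maximal

/-! # Maximality: stabilisers of triples and of complementary dodecads -/

set_option autoImplicit false

namespace Cfsg.Agent.Lib.Golay

open Cfsg
open scoped Pointwise

/-- The class of a triple relative to another one: the intersection, refined when empty. -/
noncomputable def triKind (s b : Finset GolayPt) : ℕ := by
  classical exact
    if (b ∩ s).card = 0 then (if ∃ o ∈ octads, s ∪ b ⊆ o then 0 else 10) else (b ∩ s).card

theorem triKind_zero {s b : Finset GolayPt} :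
    triKind s b = 0 ↔ Disjoint s b ∧ ∃ o ∈ octads, s ∪ b ⊆ o := by
  rw [disjoint_comm, Finset.disjoint_iff_inter_eq_empty, ← Finset.card_eq_zero, triKind]
  split_ifs with h1 h2
  · exact iff_of_true rfl ⟨h1, h2⟩
  · exact iff_of_false (by norm_num) fun hh => h2 hh.2
  · exact iff_of_false h1 fun hh => h1 hh.1

theorem triKind_ten {s b : Finset GolayPt} (hs : s.card = 3) :
    triKind s b = 10 ↔ Disjoint s b ∧ ¬ ∃ o ∈ octads, s ∪ b ⊆ o := by
  rw [disjoint_comm, Finset.disjoint_iff_inter_eq_empty, ← Finset.card_eq_zero, triKind]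
  split_ifs with h1 h2
  · exact iff_of_false (by norm_num) fun hh => hh.2 h2
  · exact iff_of_true rfl ⟨h1, h2⟩
  · have : (b ∩ s).card ≤ 3 := (Finset.card_le_card Finset.inter_subset_right).trans hs.le
    exact iff_of_false (by omega) fun hh => h1 hh.1

theorem triKind_pos {s b : Finset GolayPt} (hs : s.card = 3) {k : ℕ} (hk : 1 ≤ k) (hk' : k ≤ 3) :
    triKind s b = k ↔ (b ∩ s).card = k := by
  rw [triKind]
  have : (b ∩ s).card ≤ 3 := (Finset.card_le_card Finset.inter_subset_right).trans hs.le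
  split_ifs <;> omega

theorem exists_enum {β : Finset GolayPt} {k : ℕ} (h : β.card = k) :
    ∃ x : Fin k → GolayPt, Function.Injective x ∧ (∀ i, x i ∈ β) ∧ ∀ p ∈ β, ∃ i, x i = p := by
  refine ⟨fun i => β.equivFin.symm (i.cast h.symm), fun i j hij => ?_, fun i => Finset.coe_mem _,
    fun p hp => ⟨(β.equivFin ⟨p, hp⟩).cast h, by simp⟩⟩
  exact Fin.ext (by simpa using congrArg Fin.val (β.equivFin.symm.injective (Subtype.ext hij)))

/-- Five-fold transitivity moves a triple and a second one meeting it. -/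
theorem meeting_triples {s b c : Finset GolayPt} (hs : s.card = 3) (hb : b.card = 3)
    (hc : c.card = 3) (hk : (b ∩ s).card = (c ∩ s).card) (hpos : 1 ≤ (b ∩ s).card) :
    ∃ σ ∈ M24, σ • s = s ∧ σ • b = c := by
  set k := (b ∩ s).card with hkd
  have hk3 : k ≤ 3 := (Finset.card_le_card Finset.inter_subset_right).trans hs.le
  obtain ⟨x₁, hx₁, hm₁, hs₁⟩ := exists_enum (hkd.symm : (b ∩ s).card = k)
  obtain ⟨y₁, hy₁, hn₁, ht₁⟩ := exists_enum (hk.symm : (c ∩ s).card = k)
  obtain ⟨x₂, hx₂, hm₂, hs₂⟩ := exists_enum (show (s \ b).card = 3 - k by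
    rw [Finset.card_sdiff, hs])
  obtain ⟨y₂, hy₂, hn₂, ht₂⟩ := exists_enum (show (s \ c).card = 3 - k by
    rw [Finset.card_sdiff, hs, ← hk])
  obtain ⟨x₃, hx₃, hm₃, hs₃⟩ := exists_enum (show (b \ s).card = 3 - k by
    rw [Finset.card_sdiff, hb, Finset.inter_comm])
  obtain ⟨y₃, hy₃, hn₃, ht₃⟩ := exists_enum (show (c \ s).card = 3 - k by
    rw [Finset.card_sdiff, hc, Finset.inter_comm, ← hk])
  have inj : ∀ (b : Finset GolayPt) (u₁ : Fin k → GolayPt) (u₂ u₃ : Fin (3 - k) → GolayPt),
      Function.Injective u₁ → Function.Injective u₂ → Function.Injective u₃ →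
      (∀ i, u₁ i ∈ b ∩ s) → (∀ i, u₂ i ∈ s \ b) → (∀ i, u₃ i ∈ b \ s) →
      Function.Injective (Fin.append (Fin.append u₁ u₂) u₃) := by
    intro b u₁ u₂ u₃ h1 h2 h3 m1 m2 m3
    rw [Fin.append_injective_iff, Fin.append_injective_iff]
    refine ⟨⟨h1, h2, ?_⟩, h3, ?_⟩
    · intro i j he
      exact (Finset.mem_sdiff.1 (m2 j)).2 (he ▸ (Finset.mem_inter.1 (m1 i)).1)
    · intro i j
      induction i using Fin.addCases with
      | left i =>
        intro he
        rw [Fin.append_left] at he
        exact (Finset.mem_sdiff.1 (m3 j)).2 (he ▸ (Finset.mem_inter.1 (m1 i)).2)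
      | right i =>
        intro he
        rw [Fin.append_right] at he
        exact (Finset.mem_sdiff.1 (m3 j)).2 (he ▸ (Finset.mem_sdiff.1 (m2 i)).1)
  obtain ⟨σ, hσ, e⟩ := exists_M24_map (show k + (3 - k) + (3 - k) ≤ 5 by omega)
    (Fin.append (Fin.append x₁ x₂) x₃) (Fin.append (Fin.append y₁ y₂) y₃)
    (inj b x₁ x₂ x₃ hx₁ hx₂ hx₃ hm₁ hm₂ hm₃) (inj c y₁ y₂ y₃ hy₁ hy₂ hy₃ hn₁ hn₂ hn₃)
  have e1 : ∀ i, σ (x₁ i) = y₁ i := fun i => by
    simpa using e (Fin.castAdd _ (Fin.castAdd _ i))
  have e2 : ∀ i, σ (x₂ i) = y₂ i := fun i => by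
    simpa using e (Fin.castAdd _ (Fin.natAdd _ i))
  have e3 : ∀ i, σ (x₃ i) = y₃ i := fun i => by simpa using e (Fin.natAdd _ i)
  refine ⟨σ, hσ, Finset.eq_of_subset_of_card_le ?_ (by rw [Finset.card_smul_finset]),
    Finset.eq_of_subset_of_card_le ?_ (by rw [Finset.card_smul_finset, hb, hc])⟩
  · intro p hp
    obtain ⟨q, hq, rfl⟩ := Finset.mem_smul_finset.1 hp
    by_cases hqb : q ∈ b
    · obtain ⟨i, rfl⟩ := hs₁ q (Finset.mem_inter.2 ⟨hqb, hq⟩)
      rw [Equiv.Perm.smul_def, e1]; exact (Finset.mem_inter.1 (hn₁ i)).2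
    · obtain ⟨i, rfl⟩ := hs₂ q (Finset.mem_sdiff.2 ⟨hq, hqb⟩)
      rw [Equiv.Perm.smul_def, e2]; exact (Finset.mem_sdiff.1 (hn₂ i)).1
  · intro p hp
    obtain ⟨q, hq, rfl⟩ := Finset.mem_smul_finset.1 hp
    by_cases hqs : q ∈ s
    · obtain ⟨i, rfl⟩ := hs₁ q (Finset.mem_inter.2 ⟨hq, hqs⟩)
      rw [Equiv.Perm.smul_def, e1]; exact (Finset.mem_inter.1 (hn₁ i)).1
    · obtain ⟨i, rfl⟩ := hs₃ q (Finset.mem_sdiff.2 ⟨hq, hqs⟩)
      rw [Equiv.Perm.smul_def, e3]; exact (Finset.mem_sdiff.1 (hn₃ i)).1

theorem meet_count {s : Finset GolayPt} (hs : s.card = 3) (k : ℕ) :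
    {b : Finset GolayPt | b.card = 3 ∧ (b ∩ s).card = k}.ncard =
      ((combs 24 3).filter fun m => pc (m &&& 7) == k).length := by
  rw [ncard_transfer (M24_trans_sets (s := toSet 7) (t := s) (by decide) (by rw [hs]; decide))
    (P := fun s b => b.card = 3 ∧ (b ∩ s).card = k)]
  · rw [ncard_combs 3 combs_nodup.1 (fun m => pc m == 3 && pc (m &&& 7) == k)
      (fun b => (b ∩ toSet 7).card = k) (fun m _ => by simp [inter_eq])]
    refine congrArg List.length (List.filter_congr ?_)
    intro m hm
    have h2 : ∀ m ∈ combs 24 3, (pc m == 3) = true := by decide +kernel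
    rw [h2 m hm, Bool.true_and]
  · rintro σ hσ a b ⟨h1, h2⟩
    exact ⟨by simpa using h1, by rw [smul_inter_card, h2]⟩

theorem triple_stab_maximal {s : Finset GolayPt} (hs : s.card = 3) :
    IsCoatom (MulAction.stabilizer M24 s) := by
  refine isCoatom_stabilizer s {b : Finset GolayPt | b.card = 3}
    (orbit_M24_eq (fun σ _ => by simpa using hs)
      fun b hb => M24_trans_sets (by omega) (hs.trans (Eq.symm hb)))
    (triKind s) {0, 1, 2, 3, 10}
    (fun k => if k = 0 then 210 else if k = 1 then 630 else if k = 2 then 63 else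
      if k = 3 then 1 else 1120) ?_ ?_ ?_ ?_ ?_ ?_
  · intro b _
    have : (b ∩ s).card ≤ 3 := (Finset.card_le_card Finset.inter_subset_right).trans hs.le
    simp only [Finset.mem_insert, Finset.mem_singleton, triKind]
    split_ifs <;> omega
  · intro k hk
    obtain ⟨c1, c2⟩ := triple_counts hs
    simp only [Set.mem_ofPred_eq]
    simp only [Finset.mem_insert, Finset.mem_singleton] at hk
    rcases hk with rfl | rfl | rfl | rfl | rfl
    · simp only [triKind_zero]; exact c1
    · simp only [triKind_pos hs (k := 1) le_rfl (by norm_num), meet_count hs]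
      decide +kernel
    · simp only [triKind_pos hs (k := 2) (by norm_num) (by norm_num), meet_count hs]
      decide +kernel
    · simp only [triKind_pos hs (k := 3) (by norm_num) le_rfl, meet_count hs]
      decide +kernel
    · simp only [triKind_ten hs]; exact c2
  · intro b hb c hc he
    have key : ∃ σ ∈ M24, σ • s = s ∧ σ • b = c := by
      rcases Nat.eq_zero_or_pos (b ∩ s).card with h0 | h0
      · have hdb : Disjoint s b := by
          rw [disjoint_comm, Finset.disjoint_iff_inter_eq_empty, ← Finset.card_eq_zero]; exact h0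
        by_cases hv : ∃ o ∈ octads, s ∪ b ⊆ o
        · have := triKind_zero.1 (he ▸ triKind_zero.2 ⟨hdb, hv⟩ : triKind s c = 0)
          exact triple_orbits hs hb hc hdb this.1 (iff_of_true hv this.2)
        · have := (triKind_ten hs).1 (he ▸ (triKind_ten hs).2 ⟨hdb, hv⟩ : triKind s c = 10)
          exact triple_orbits hs hb hc hdb this.1 (iff_of_false hv this.2)
      · have hle : (b ∩ s).card ≤ 3 :=
          (Finset.card_le_card Finset.inter_subset_right).trans hs.le
        have h2 := (triKind_pos (b := b) hs h0 hle).2 rfl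
        rw [he] at h2
        exact meeting_triples hs hb hc ((triKind_pos hs h0 hle).1 h2).symm h0
    obtain ⟨σ, hσ, e1, e2⟩ := key
    exact ⟨⟨σ, hσ⟩, e1, e2⟩
  · intro b hb he
    rw [(triKind_pos (b := s) hs (by norm_num) le_rfl).2 (by rw [Finset.inter_self, hs]),
      triKind_pos hs (by norm_num) le_rfl] at he
    exact (Finset.eq_of_subset_of_card_le Finset.inter_subset_left
      (by rw [he]; exact le_of_eq hb)).symm.trans
        (Finset.eq_of_subset_of_card_le Finset.inter_subset_right (by rw [he, hs]))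
  · obtain ⟨σ, hσ, h⟩ := M24_trans_sets (s := toSet 7) (t := s) (by decide) (by rw [hs]; decide)
    refine ⟨σ • toSet 56, by simp only [Set.mem_ofPred_eq, Finset.card_smul_finset]; decide, ?_⟩
    rw [← h]
    intro he
    exact absurd (MulAction.injective σ he) (by decide)
  · rw [(triKind_pos (b := s) hs (by norm_num) le_rfl).2 (by rw [Finset.inter_self, hs])]
    decide

/-- The largest intersection of a member with `d`. -/
def duumKind (d : Finset GolayPt) (b : Finset (Finset GolayPt)) : ℕ :=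
  b.sup fun e => (e ∩ d).card

theorem inter_compl_card {d e : Finset GolayPt} (hd : d ∈ dodecads) :
    (eᶜ ∩ d).card = 12 - (e ∩ d).card := by
  rw [Finset.inter_comm eᶜ, ← Finset.sdiff_eq_inter_compl, Finset.card_sdiff, dodecads_card hd]

theorem duum_cases {d e : Finset GolayPt} (hd : d ∈ dodecads) (he : e ∈ dodecads) :
    (duumKind d {e, eᶜ} = 12 ∧ (e = d ∨ eᶜ = d)) ∨
      (duumKind d {e, eᶜ} = 8 ∧ ((e ∩ d).card = 8 ∨ (e ∩ d).card = 4)) ∨
        (duumKind d {e, eᶜ} = 6 ∧ (e ∩ d).card = 6) := by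
  have hv : duumKind d {e, eᶜ} = max (e ∩ d).card (12 - (e ∩ d).card) := by
    simp [duumKind, inter_compl_card hd]
  rcases dodecad_inter_cases hd he with ⟨h, h'⟩ | ⟨h, h'⟩ | h | h | h <;> rw [hv, h]
  · exact Or.inl ⟨rfl, Or.inl h'⟩
  · exact Or.inl ⟨rfl, Or.inr (by rw [h', compl_compl])⟩
  · exact Or.inr (Or.inl ⟨rfl, Or.inr rfl⟩)
  · exact Or.inr (Or.inr ⟨rfl, rfl⟩)
  · exact Or.inr (Or.inl ⟨rfl, Or.inl rfl⟩)

theorem smul_compl_finset (σ : Equiv.Perm GolayPt) (s : Finset GolayPt) : σ • sᶜ = (σ • s)ᶜ := by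
  ext p
  simp only [Finset.mem_compl, ← Finset.inv_smul_mem_iff]

theorem duum_smul (σ : Equiv.Perm GolayPt) (e : Finset GolayPt) :
    σ • ({e, eᶜ} : Finset (Finset GolayPt)) = {σ • e, (σ • e)ᶜ} := by
  rw [Finset.smul_finset_insert, Finset.smul_finset_singleton, smul_compl_finset]

theorem pair_compl_comm (e : Finset GolayPt) :
    ({e, eᶜ} : Finset (Finset GolayPt)) = {eᶜ, eᶜᶜ} := by
  rw [compl_compl, Finset.pair_comm]

theorem duum_stab_maximal {d : Finset GolayPt} (hd : d ∈ dodecads) :
    IsCoatom (MulAction.stabilizer M24 ({d, dᶜ} : Finset (Finset GolayPt))) := by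
  classical
  set g : Finset GolayPt → Finset (Finset GolayPt) := fun e => {e, eᶜ} with hg
  have hfib : ∀ e e', g e' = g e → e' = e ∨ e' = eᶜ := by
    intro e e' h
    have : e' ∈ g e := h ▸ Finset.mem_insert_self e' _
    simpa [g] using this
  refine isCoatom_stabilizer _ (g '' dodecads)
    (orbit_M24_eq (fun σ hσ => ⟨σ • d, smul_mem_dodecads hσ hd, (duum_smul σ d).symm⟩) ?_)
    (duumKind d) {6, 8, 12} (fun k => if k = 6 then 792 else if k = 8 then 495 else 1)
    ?_ ?_ ?_ ?_ ?_ ?_
  · rintro _ ⟨e, he, rfl⟩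
    obtain ⟨σ, hσ, h⟩ := M24_trans_dodecads hd he
    exact ⟨σ, hσ, by rw [duum_smul, h]⟩
  · rintro _ ⟨e, he, rfl⟩
    rcases duum_cases hd he with ⟨h, -⟩ | ⟨h, -⟩ | ⟨h, -⟩ <;> simp [g, h]
  · intro k hk
    simp only [Finset.mem_insert, Finset.mem_singleton] at hk
    have hfin : ∀ j, {e : Finset GolayPt | e ∈ dodecads ∧ (d ∩ e).card = j}.Finite :=
      fun _ => Set.toFinite _
    rcases hk with rfl | rfl | rfl
    · have himg : {b | b ∈ g '' dodecads ∧ duumKind d b = 6} =
          ↑((hfin 6).toFinset.image g) := by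
        ext b
        simp only [Set.mem_ofPred_eq, Finset.coe_image, Set.Finite.coe_toFinset, Set.mem_image]
        constructor
        · rintro ⟨⟨e, he, rfl⟩, h6⟩
          rcases duum_cases hd he with ⟨h, -⟩ | ⟨h, -⟩ | ⟨-, h⟩
          · change duumKind d {e, eᶜ} = 6 at h6; omega
          · change duumKind d {e, eᶜ} = 6 at h6; omega
          · exact ⟨e, ⟨he, by rw [Finset.inter_comm]; exact h⟩, rfl⟩
        · rintro ⟨e, ⟨he, h⟩, rfl⟩
          rw [Finset.inter_comm] at h
          refine ⟨⟨e, he, rfl⟩, ?_⟩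
          rcases duum_cases hd he with ⟨-, h' | h'⟩ | ⟨-, h' | h'⟩ | ⟨h', -⟩
          · subst h'; simp [dodecads_card hd] at h
          · subst h'
            simp [show e ∩ eᶜ = ∅ from Finset.disjoint_iff_inter_eq_empty.1 disjoint_compl_right] at h
          · omega
          · omega
          · exact h'
      rw [himg, Set.ncard_coe_finset]
      have hcount : (hfin 6).toFinset.card = 1584 := by
        rw [← Set.ncard_eq_toFinset_card _ (hfin 6), dod_dod_count hd 6]; exact dod_dod_counts.2.1
      have htwo : ∀ b ∈ (hfin 6).toFinset.image g,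
          ((hfin 6).toFinset.filter fun e => g e = b).card = 2 := by
        intro b hb
        obtain ⟨e, he, rfl⟩ := Finset.mem_image.1 hb
        rw [Set.Finite.mem_toFinset] at he
        have heq : ((hfin 6).toFinset.filter fun e' => g e' = g e) = {e, eᶜ} := by
          ext e'
          simp only [Finset.mem_filter, Set.Finite.mem_toFinset, Finset.mem_insert,
            Finset.mem_singleton]
          constructor
          · exact fun h => hfib e e' h.2
          · rintro (rfl | rfl)
            · exact ⟨he, rfl⟩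
            · refine ⟨⟨compl_mem_dodecads he.1, ?_⟩, (pair_compl_comm e).symm⟩
              rw [Finset.inter_comm, inter_compl_card hd, Finset.inter_comm, he.2]
        rw [heq, Finset.card_pair]
        intro hh
        have := Finset.disjoint_iff_inter_eq_empty.1 (disjoint_compl_right (a := e))
        rw [← hh, Finset.inter_self] at this
        subst this
        have := dodecads_card he.1
        simp at this
      have := Finset.card_eq_sum_card_image g (hfin 6).toFinset
      rw [Finset.sum_congr rfl htwo, Finset.sum_const, hcount, smul_eq_mul] at this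
      show _ = 792
      omega
    · have himg : {b | b ∈ g '' dodecads ∧ duumKind d b = 8} =
          g '' {e | e ∈ dodecads ∧ (d ∩ e).card = 8} := by
        ext b
        simp only [Set.mem_ofPred_eq, Set.mem_image]
        constructor
        · rintro ⟨⟨e, he, rfl⟩, h8⟩
          rcases duum_cases hd he with ⟨h, -⟩ | ⟨-, h | h⟩ | ⟨h, -⟩
          · change duumKind d {e, eᶜ} = 8 at h8; omega
          · exact ⟨e, ⟨he, by rw [Finset.inter_comm]; exact h⟩, rfl⟩
          · exact ⟨eᶜ, ⟨compl_mem_dodecads he, by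
              rw [Finset.inter_comm, inter_compl_card hd, h]⟩, (pair_compl_comm e).symm⟩
          · change duumKind d {e, eᶜ} = 8 at h8; omega
        · rintro ⟨e, ⟨he, h⟩, rfl⟩
          rw [Finset.inter_comm] at h
          refine ⟨⟨e, he, rfl⟩, ?_⟩
          rcases duum_cases hd he with ⟨-, h' | h'⟩ | ⟨h', -⟩ | ⟨-, h'⟩
          · subst h'; simp [dodecads_card hd] at h
          · subst h'
            simp [show e ∩ eᶜ = ∅ from Finset.disjoint_iff_inter_eq_empty.1 disjoint_compl_right] at h
          · exact h'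
          · omega
      rw [himg, Set.InjOn.ncard_image]
      · rw [dod_dod_count hd 8]; exact dod_dod_counts.2.2.1
      · rintro e ⟨he, h⟩ e' ⟨he', h'⟩ heq
        rcases hfib e' e heq with r | r
        · exact r
        · subst r
          rw [Finset.inter_comm, inter_compl_card hd, Finset.inter_comm, h'] at h
          omega
    · have himg : {b | b ∈ g '' dodecads ∧ duumKind d b = 12} = {g d} := by
        ext b
        simp only [Set.mem_ofPred_eq, Set.mem_singleton_iff, Set.mem_image]
        constructor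
        · rintro ⟨⟨e, he, rfl⟩, h12⟩
          change duumKind d {e, eᶜ} = 12 at h12
          rcases duum_cases hd he with ⟨-, h' | h'⟩ | ⟨h', -⟩ | ⟨h', -⟩
          · rw [h']
          · subst h'; exact pair_compl_comm e
          · omega
          · omega
        · rintro rfl
          exact ⟨⟨d, hd, rfl⟩, by simp [g, duumKind, inter_compl_card hd, dodecads_card hd]⟩
      rw [himg, Set.ncard_singleton]; rfl
  · rintro _ ⟨e, he, rfl⟩ _ ⟨e', he', rfl⟩ h
    have rep : ∀ e ∈ dodecads, ∃ x ∈ dodecads, g x = g e ∧ (x ∩ d).card = duumKind d (g e) := by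
      intro e he
      rcases duum_cases hd he with ⟨h, h'⟩ | ⟨h, h'⟩ | ⟨h, h'⟩
      · rcases h' with r | r
        · exact ⟨e, he, rfl, by rw [show g e = {e, eᶜ} from rfl, h, r, Finset.inter_self, dodecads_card hd]⟩
        · exact ⟨eᶜ, compl_mem_dodecads he, (pair_compl_comm e).symm, by
            rw [show g e = {e, eᶜ} from rfl, h, r, Finset.inter_self, dodecads_card hd]⟩
      · rcases h' with r | r
        · exact ⟨e, he, rfl, r.trans h.symm⟩
        · exact ⟨eᶜ, compl_mem_dodecads he, (pair_compl_comm e).symm, by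
            rw [show g e = {e, eᶜ} from rfl, h, inter_compl_card hd, r]⟩
      · exact ⟨e, he, rfl, h'.trans h.symm⟩
    obtain ⟨x, hx, hxe, hxk⟩ := rep e he
    obtain ⟨y, hy, hye, hyk⟩ := rep e' he'
    obtain ⟨σ, hσ, h1, h2⟩ := dodecad_pairs hd hx hy
      (by rw [Finset.inter_comm d, Finset.inter_comm d, hxk, hyk]; exact h)
    refine ⟨⟨σ, hσ⟩, ?_, ?_⟩
    · show σ • ({d, dᶜ} : Finset (Finset GolayPt)) = _
      rw [duum_smul, h1]
    · show σ • g e = g e'
      rw [← hxe, ← hye]
      show σ • ({x, xᶜ} : Finset (Finset GolayPt)) = _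
      rw [duum_smul, h2]
  · rintro _ ⟨e, he, rfl⟩ h
    have h12 : duumKind d {d, dᶜ} = 12 := by
      simp [duumKind, inter_compl_card hd, dodecads_card hd]
    rw [h12] at h
    change duumKind d {e, eᶜ} = 12 at h
    rcases duum_cases hd he with ⟨-, h' | h'⟩ | ⟨h', -⟩ | ⟨h', -⟩
    · rw [h']
    · subst h'; exact pair_compl_comm e
    · omega
    · omega
  · obtain ⟨σ, hσ, h⟩ := M24_trans_dodecads d0_dodecad hd
    refine ⟨g (σ • toSet d6Start),
      ⟨_, smul_mem_dodecads hσ (mem_dodecads.2 ⟨_, mem_dodList.2 (by decide +kernel), rfl⟩), rfl⟩, ?_⟩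
    intro hh
    rcases hfib d _ hh with r | r
    · rw [← h] at r; exact absurd (MulAction.injective σ r) (by decide +kernel)
    · rw [← h, ← smul_compl_finset] at r; exact absurd (MulAction.injective σ r) (by decide +kernel)
  · rw [show duumKind d {d, dᶜ} = 12 by simp [duumKind, inter_compl_card hd, dodecads_card hd]]
    decide

end Cfsg.Agent.Lib.Golay
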