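import Cfsg.Agent.Lib.Golay.KindsO
import Cfsg.Agent.Lib.Golay.KindsS
import Cfsg.Agent.Lib.Golay.KindsT
import Cfsg.Agent.Lib.Golay.Maximal2

/-! # Orbits of the stabilisers of octads, sextets, trios and dodecad pairs on families -/

set_option autoImplicit false
set_option maxRecDepth 100000

namespace Cfsg.Agent.Lib.Golay

open Cfsg
open scoped Pointwise

theorem class_orbit {X : Set (Finset (Finset GolayPt))} {U : List (List ℕ)}
    {isU : List ℕ → Bool} {key : List ℕ → ℕ} (h : IsModel X U isU key) {B : List ℕ}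
    {gs : List ℕ} {T : List (ℕ × ℕ)} {start : List ℕ} {k n : ℕ}
    (hc : kindCover B gs T start U isU key k n = true) {B' : Finset (Finset GolayPt)}
    (hmove : ∃ σ ∈ M24, σ • fam B = B') :
    ∃ A ∈ X, MulAction.orbit (MulAction.stabilizer M24 B') A = {A | A ∈ X ∧ kindF B' A = k} ∧
      (MulAction.orbit (MulAction.stabilizer M24 B') A).ncard = n := by
  obtain ⟨hn, -, A, hA, horb⟩ := class_transfer h hc hmove
  exact ⟨A, hA, horb, by rw [horb, hn]⟩

theorem kinds_cover' {X : Set (Finset (Finset GolayPt))} {U : List (List ℕ)}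
    {isU : List ℕ → Bool} {key : List ℕ → ℕ} (h : IsModel X U isU key) {B : List ℕ}
    (hB : canon B = true) {ks : List ℕ} (hks : U.all (fun a => ks.elem (kindL B a)) = true)
    {B' : Finset (Finset GolayPt)} (hmove : ∃ σ ∈ M24, σ • fam B = B')
    {A : Finset (Finset GolayPt)} (hA : A ∈ X) : kindF B' A ∈ ks := by
  obtain ⟨σ, hσ, rfl⟩ := hmove
  rw [← smul_inv_smul σ A, kindF_smul]
  exact kinds_cover h hB hks (h.inv _ (inv_mem hσ) A hA)

theorem stabilizer_singleton_family (o : Finset GolayPt) :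
    MulAction.stabilizer M24 ({o} : Finset (Finset GolayPt)) = MulAction.stabilizer M24 o := by
  ext g
  rw [MulAction.mem_stabilizer_iff, MulAction.mem_stabilizer_iff, Subgroup.smul_def,
    Subgroup.smul_def, Finset.smul_finset_singleton, Finset.singleton_inj]

/-- An orbit on one-element families, read on the sets. -/
theorem octFams_orbit {H : Subgroup M24} {A : Finset (Finset GolayPt)} (hA : A ∈ octFams)
    {k : ℕ} {B : Finset (Finset GolayPt)}
    (h : MulAction.orbit H A = {A | A ∈ octFams ∧ kindF B A = k}) :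
    ∃ x ∈ octads, MulAction.orbit H x = {x | x ∈ octads ∧ kindF B {x} = k} ∧
      (MulAction.orbit H x).ncard = (MulAction.orbit H A).ncard := by
  obtain ⟨x, hx, rfl⟩ := hA
  have himg : MulAction.orbit H ({x} : Finset (Finset GolayPt)) =
      (fun y => {y}) '' MulAction.orbit H x := by
    have hs : ∀ g : H, g • ({x} : Finset (Finset GolayPt)) = {g • x} := fun g =>
      Finset.smul_finset_singleton (a := ((g : M24) : Equiv.Perm GolayPt)) (b := x)
    ext A
    simp only [MulAction.orbit, Set.mem_range, Set.mem_image]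
    constructor
    · rintro ⟨g, rfl⟩; exact ⟨g • x, ⟨g, rfl⟩, (hs g).symm⟩
    · rintro ⟨_, ⟨g, rfl⟩, rfl⟩; exact ⟨g, hs g⟩
  refine ⟨x, hx, ?_, by
    rw [himg, Set.ncard_image_of_injective _ Finset.singleton_injective]⟩
  rw [himg] at h
  ext y
  have hy := Set.ext_iff.1 h {y}
  rw [Set.mem_image] at hy
  constructor
  · intro hy'
    obtain ⟨⟨z, hz, he⟩, hk⟩ := hy.1 ⟨y, hy', rfl⟩
    exact ⟨Finset.singleton_injective he ▸ hz, hk⟩
  · rintro ⟨hy', hk⟩
    obtain ⟨z, hz, he⟩ := hy.2 ⟨⟨y, hy', rfl⟩, hk⟩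
    exact Finset.singleton_injective he ▸ hz

theorem fam_singleton (m : ℕ) : fam [m] = {toSet m} := rfl

theorem oBase_move {o : Finset GolayPt} (ho : o ∈ octads) :
    ∃ σ ∈ M24, σ • fam oBase = {o} := by
  obtain ⟨σ, hσ, he⟩ := M24_trans_octads o0_octad ho
  exact ⟨σ, hσ, by
    rw [show fam oBase = {toSet o0} from rfl, Finset.smul_finset_singleton, he]⟩

theorem sBase_sextet : fam sBase ∈ sextets :=
  (sextet_model.mem sBase (by decide +kernel)).2

theorem tBase_trio : fam tBase ∈ trios :=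
  (trio_model.mem tBase (by decide +kernel)).2

theorem sBase_move {S : Finset (Finset GolayPt)} (hS : S ∈ sextets) :
    ∃ σ ∈ M24, σ • fam sBase = S := M24_trans_sextets sBase_sextet hS

theorem tBase_move {T : Finset (Finset GolayPt)} (hT : T ∈ trios) :
    ∃ σ ∈ M24, σ • fam tBase = T := M24_trans_trios tBase_trio hT

theorem dBase_move {d : Finset GolayPt} (hd : d ∈ dodecads) :
    ∃ σ ∈ M24, σ • fam dBase = ({d, Finset.univ \ d} : Finset (Finset GolayPt)) := by
  have hd0 : toSet 340831 ∈ dodecads :=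
    mem_dodecads.2 ⟨340831, mem_dodList.2 (by decide +kernel), rfl⟩
  obtain ⟨σ, hσ, he⟩ := M24_trans_dodecads hd0 hd
  have hc : toSet 16436384 = (toSet 340831)ᶜ := by decide +kernel
  refine ⟨σ, hσ, ?_⟩
  rw [show fam dBase = {toSet 340831, toSet 16436384} from rfl, hc, Finset.smul_finset_insert,
    Finset.smul_finset_singleton, smul_compl_finset, he, ← Finset.compl_eq_univ_sdiff]

theorem yBase_move {Y : Finset GolayPt} (hY : Y.card = 3) :
    ∃ σ ∈ M24, σ • fam yBase = {Y} := by
  have h0 : (toSet 7).card = 3 := by rw [card_toSet]; rfl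
  obtain ⟨σ, hσ, he⟩ := M24_trans_sets (s := toSet 7) (t := Y) (by omega) (by omega)
  exact ⟨σ, hσ, by rw [show fam yBase = {toSet 7} from rfl, Finset.smul_finset_singleton, he]⟩

/-- Every family is at a kind that heads one of the orbits: used to split into orbits. -/
theorem self_class {X : Set (Finset (Finset GolayPt))} {U : List (List ℕ)}
    {isU : List ℕ → Bool} {key : List ℕ → ℕ} (h : IsModel X U isU key) {B : List ℕ}
    {gs : List ℕ} {T : List (ℕ × ℕ)} {start : List ℕ} {k : ℕ}
    (hc : kindCover B gs T start U isU key k 1 = true) {B' : Finset (Finset GolayPt)}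
    (hmove : ∃ σ ∈ M24, σ • fam B = B') (hB' : B' ∈ X) (hk : kindF B' B' = k) :
    {A | A ∈ X ∧ kindF B' A = k} = {B'} := by
  obtain ⟨hn, -, -⟩ := class_transfer h hc hmove
  obtain ⟨A, hA⟩ := Set.ncard_eq_one.1 hn
  have : B' ∈ {A | A ∈ X ∧ kindF B' A = k} := ⟨hB', hk⟩
  rw [hA, Set.mem_singleton_iff] at this
  rw [hA, this]

end Cfsg.Agent.Lib.Golay
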