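import Cfsg.Agent.Lib.Golay.Pairs
import Cfsg.Agent.Lib.Golay.TupleData

/-! # Triples, and pairs relative to two points -/

set_option autoImplicit false

namespace Cfsg.Agent.Lib.Golay

open Cfsg
open scoped Pointwise

/-- Some octad of the list contains the set. -/
def inSome (L : List ℕ) (u : ℕ) : Bool := L.any fun o => u &&& o == u

/-- The octads through `{0, 1, 2}`. -/
def octT : List ℕ :=
  [5279, 45159, 140167, 459847, 551943, 622863, 786999, 1065303, 1116327, 2183687, 2263063,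
    3416079, 4196943, 4505735, 5902343, 6292775, 8536111, 8657159, 9471495, 11010247, 12656663]

theorem octT_keys :
    keySet codeKey octT = keySet codeKey (octList.filter fun o => 7 &&& o == 7) ∧
      octT.all (fun o => isCode o && pc o == 8 && 7 &&& o == 7) = true := by
  constructor <;> decide +kernel

/-- The octads through `{0, 1, 2, 3}`. -/
def octP : List ℕ := [5279, 622863, 3416079, 4196943, 8536111]

theorem octP_keys :
    keySet codeKey octP = keySet codeKey (octList.filter fun o => 15 &&& o == 15) ∧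
      octP.all (fun o => isCode o && pc o == 8 && 15 &&& o == 15) = true := by
  constructor <;> decide +kernel

theorem inSome_iff {L : List ℕ} {b : ℕ} (hb : b < 16777216)
    (h : keySet codeKey L = keySet codeKey (octList.filter fun o => b &&& o == b) ∧
      L.all (fun o => isCode o && pc o == 8 && b &&& o == b) = true) {u : ℕ} (hu : u < 16777216) :
    inSome L (b ||| u) = true ↔ ∃ o ∈ octads, toSet b ∪ toSet u ⊆ o := by
  obtain ⟨hk, hall⟩ := h
  simp only [List.all_eq_true, Bool.and_eq_true, beq_iff_eq] at hall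
  simp only [inSome, List.any_eq_true, beq_iff_eq]
  have hlt : b ||| u < 16777216 := Nat.or_lt_two_pow (n := 24) hb hu
  constructor
  · rintro ⟨o, ho, he⟩
    refine ⟨toSet o, mem_octads.2 ⟨o, mem_octList.2 (hall o ho).1, rfl⟩, ?_⟩
    rw [← toSet_or, toSet_subset hlt]; exact he
  · rintro ⟨o, ho, hsub⟩
    obtain ⟨m, hm, rfl⟩ := mem_octads.1 ho
    have hb' : b &&& m = b := (toSet_subset hb).1 (Finset.union_subset_iff.1 hsub).1
    obtain ⟨a, ha, hka⟩ := exists_key_of_keySet_eq hk (m := m)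
      (List.mem_filter.2 ⟨hm, by simpa using hb'⟩)
    have : a = m := codeKey_inj (hall a ha).1.1 (isCode_octList hm) hka
    subst this
    refine ⟨a, ha, ?_⟩
    rw [← toSet_subset hlt, toSet_or]; exact hsub

/-- The class of triples away from `{0, 1, 2}`. -/
def triClass (v : Bool) (u : ℕ) : Bool :=
  pc u == 3 && Nat.blt u 16777216 && u &&& 7 == 0 && inSome octT (7 ||| u) == v

/-- The class of pairs away from `{0, 1}` and distinct from `{2, 3}`. -/
def pairClass (k : ℕ) (v : Bool) (u : ℕ) : Bool :=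
  pc u == 2 && Nat.blt u 16777216 && u &&& 3 == 0 && pc (u &&& 12) == k &&
    (inSome octP (15 ||| u) == v || k == 1)

theorem triClass_mem {v : Bool} {u : ℕ} (h : triClass v u = true) : u ∈ combs 24 3 := by
  simp only [triClass, Bool.and_eq_true, beq_iff_eq, Nat.blt_eq] at h
  exact mem_combs24 h.1.1.2 h.1.1.1

theorem pairClass_mem {k : ℕ} {v : Bool} {u : ℕ} (h : pairClass k v u = true) :
    u ∈ combs 24 2 := by
  simp only [pairClass, Bool.and_eq_true, beq_iff_eq, Nat.blt_eq] at h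
  exact mem_combs24 h.1.1.1.2 h.1.1.1.1

theorem tri_cover :
    coverOK [7] 0 act triInGens triInTree triInStart (combs 24 3) (triClass true)
        (fun m => m % 43399) = true ∧
      coverOK [7] 0 act triOutGens triOutTree triOutStart (combs 24 3) (triClass false)
        (fun m => m % 43399) = true := by
  constructor <;> decide +kernel

theorem pair_cover :
    coverOK [12] 3 act pairInGens pairInTree pairInStart (combs 24 2) (pairClass 0 true)
        (fun m => m % 8011) = true ∧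
      coverOK [12] 3 act pairOutGens pairOutTree pairOutStart (combs 24 2) (pairClass 0 false)
        (fun m => m % 8011) = true ∧
      coverOK [12] 3 act pairOneGens pairOneTree pairOneStart (combs 24 2) (pairClass 1 true)
        (fun m => m % 8011) = true := by
  refine ⟨?_, ?_, ?_⟩ <;> decide +kernel

theorem combs_lt {n k : ℕ} {m : ℕ} (h : m ∈ combs n k) : m < 2 ^ n := by
  induction n generalizing k m with
  | zero => cases k <;> simp_all [combs]
  | succ n ih =>
    cases k with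
    | zero => simp_all [combs]
    | succ k =>
      rw [combs, List.mem_append] at h
      rcases h with h | h
      · exact lt_trans (ih h) (Nat.pow_lt_pow_right (by norm_num) (Nat.lt_succ_self n))
      · obtain ⟨a, ha, rfl⟩ := List.mem_map.1 h
        exact Nat.or_lt_two_pow (lt_trans (ih ha) (Nat.pow_lt_pow_right (by norm_num) (Nat.lt_succ_self n)))
          (by rw [Nat.one_shiftLeft]; exact Nat.pow_lt_pow_right (by norm_num) (Nat.lt_succ_self n))

theorem ncard_combs (k : ℕ) (hn : (combs 24 k).Nodup) (q : ℕ → Bool) (P : Finset GolayPt → Prop)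
    (hq : ∀ m < 16777216, (q m = true ↔ pc m = k ∧ P (toSet m))) :
    {s : Finset GolayPt | s.card = k ∧ P s}.ncard = ((combs 24 k).filter q).length := by
  refine ncard_filter hn (fun m hm => by simpa using combs_lt hm) q _ fun s => ?_
  simp only [Set.mem_ofPred_eq]
  constructor
  · rintro ⟨hs, hP⟩
    obtain ⟨m, hm, rfl⟩ := exists_mask s
    rw [card_toSet] at hs
    exact ⟨m, mem_combs24 hm hs, (hq m hm).2 ⟨hs, hP⟩, rfl⟩
  · rintro ⟨m, hm, hqm, rfl⟩
    obtain ⟨h1, h2⟩ := (hq m (by simpa using combs_lt hm)).1 hqm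
    exact ⟨by rw [card_toSet]; exact h1, h2⟩

theorem combs_nodup : (combs 24 3).Nodup ∧ (combs 24 2).Nodup := by
  have h : keyInj (fun m => m % 43399) (combs 24 3) 0 = true ∧
      keyInj (fun m => m % 8011) (combs 24 2) 0 = true := by
    constructor <;> decide +kernel
  exact ⟨(keyInj_spec h.1).1, (keyInj_spec h.2).1⟩

theorem toSet_seven : toSet 7 = {pt 0, pt 1, pt 2} := by decide

theorem toSet_twelve : toSet 12 = {pt 2, pt 3} := by decide

theorem toSet_three : toSet 3 = {pt 0, pt 1} := by decide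

theorem toSet_fifteen : toSet 15 = toSet 3 ∪ toSet 12 := by decide

theorem and_eq_zero_iff {a b : ℕ} (ha : a < 16777216) :
    a &&& b = 0 ↔ Disjoint (toSet a) (toSet b) := (toSet_disjoint ha).symm

theorem triClass_iff {v : Bool} {u : ℕ} (hu : u < 16777216) :
    triClass v u = true ↔ pc u = 3 ∧ (Disjoint (toSet 7) (toSet u) ∧
      ((∃ o ∈ octads, toSet 7 ∪ toSet u ⊆ o) ↔ v = true)) := by
  rw [← inSome_iff (by norm_num) octT_keys hu, disjoint_comm, ← and_eq_zero_iff hu]
  cases v <;> simp [triClass, hu, and_assoc]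

theorem pairClass_iff {k : ℕ} {v : Bool} {u : ℕ} (hu : u < 16777216) :
    pairClass k v u = true ↔ pc u = 2 ∧ (Disjoint (toSet 3) (toSet u) ∧
      (toSet u ∩ toSet 12).card = k ∧
        (k = 1 ∨ ((∃ o ∈ octads, toSet 15 ∪ toSet u ⊆ o) ↔ v = true))) := by
  rw [← inSome_iff (by norm_num) octP_keys hu, disjoint_comm, ← and_eq_zero_iff hu, ← toSet_and,
    card_toSet]
  cases v <;> simp [pairClass, hu, and_assoc, or_comm]

theorem triple_orbits {T U U' : Finset GolayPt} (hT : T.card = 3) (hU : U.card = 3)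
    (hU' : U'.card = 3) (hd : Disjoint T U) (hd' : Disjoint T U')
    (h : (∃ o ∈ octads, T ∪ U ⊆ o) ↔ ∃ o ∈ octads, T ∪ U' ⊆ o) :
    ∃ σ ∈ M24, σ • T = T ∧ σ • U = U' := by
  refine trans_transfer (M24_trans_sets (s := toSet 7) (by decide) (by rw [hT]; decide))
    (Rel := fun T U U' => U.card = 3 ∧ U'.card = 3 ∧ Disjoint T U ∧ Disjoint T U' ∧
      ((∃ o ∈ octads, T ∪ U ⊆ o) ↔ ∃ o ∈ octads, T ∪ U' ⊆ o)) ?_ ?_ ⟨hU, hU', hd, hd', h⟩
  · rintro σ hσ a b c ⟨h1, h2, h3, h4, h5⟩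
    have hiff : ∀ x y : Finset GolayPt,
        (∃ o ∈ octads, σ • x ∪ σ • y ⊆ o) ↔ ∃ o ∈ octads, x ∪ y ⊆ o := by
      intro x y
      constructor
      · rintro ⟨o, ho, hs⟩
        refine ⟨σ⁻¹ • o, smul_mem_octads (inv_mem hσ) ho, ?_⟩
        rw [← Finset.smul_finset_union] at hs
        simpa using Finset.smul_finset_subset_smul_finset (a := σ⁻¹) hs
      · rintro ⟨o, ho, hs⟩
        exact ⟨σ • o, smul_mem_octads hσ ho, by
          rw [← Finset.smul_finset_union]; exact Finset.smul_finset_subset_smul_finset hs⟩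
    refine ⟨by simpa using h1, by simpa using h2, ?_, ?_, by rw [hiff, hiff]; exact h5⟩
    · rwa [Finset.disjoint_iff_inter_eq_empty, ← Finset.smul_finset_inter,
        Finset.smul_finset_eq_empty, ← Finset.disjoint_iff_inter_eq_empty]
    · rwa [Finset.disjoint_iff_inter_eq_empty, ← Finset.smul_finset_inter,
        Finset.smul_finset_eq_empty, ← Finset.disjoint_iff_inter_eq_empty]
  · rintro b c ⟨h1, h2, h3, h4, h5⟩
    obtain ⟨a, ha, rfl⟩ := exists_mask b
    obtain ⟨a', ha', rfl⟩ := exists_mask c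
    rw [card_toSet] at h1 h2
    have key : ∃ σ ∈ stabM [7] 0, σ • toSet a = toSet a' := by
      by_cases hv : ∃ o ∈ octads, toSet 7 ∪ toSet a ⊆ o
      · exact same_orbit
          (cover_mask (fun _ => triClass_mem) tri_cover.1
            ((triClass_iff ha).2 ⟨h1, h3, by simpa using hv⟩))
          (cover_mask (fun _ => triClass_mem) tri_cover.1
            ((triClass_iff ha').2 ⟨h2, h4, by simpa using h5.1 hv⟩))
      · exact same_orbit
          (cover_mask (fun _ => triClass_mem) tri_cover.2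
            ((triClass_iff ha).2 ⟨h1, h3, by simpa using hv⟩))
          (cover_mask (fun _ => triClass_mem) tri_cover.2
            ((triClass_iff ha').2 ⟨h2, h4, by simpa using fun hh => hv (h5.2 hh)⟩))
    obtain ⟨σ, hσ, he⟩ := key
    exact ⟨σ, (mem_stabM.1 hσ).1, stabM_smul hσ (by simp), he⟩

theorem disjoint_smul_iff (σ : Equiv.Perm GolayPt) (a b : Finset GolayPt) :
    Disjoint (σ • a) (σ • b) ↔ Disjoint a b := by
  rw [Finset.disjoint_iff_inter_eq_empty, ← Finset.smul_finset_inter,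
    Finset.smul_finset_eq_empty, ← Finset.disjoint_iff_inter_eq_empty]

theorem exists_sub_smul {σ : Equiv.Perm GolayPt} (hσ : σ ∈ M24) (x : Finset GolayPt) :
    (∃ o ∈ octads, σ • x ⊆ o) ↔ ∃ o ∈ octads, x ⊆ o := by
  constructor
  · rintro ⟨o, ho, hs⟩
    refine ⟨σ⁻¹ • o, smul_mem_octads (inv_mem hσ) ho, ?_⟩
    simpa using Finset.smul_finset_subset_smul_finset (a := σ⁻¹) hs
  · rintro ⟨o, ho, hs⟩
    exact ⟨σ • o, smul_mem_octads hσ ho, Finset.smul_finset_subset_smul_finset hs⟩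

theorem triple_counts {T : Finset GolayPt} (hT : T.card = 3) :
    {U : Finset GolayPt | U.card = 3 ∧ Disjoint T U ∧ ∃ o ∈ octads, T ∪ U ⊆ o}.ncard = 210 ∧
      {U : Finset GolayPt | U.card = 3 ∧ Disjoint T U ∧ ¬ ∃ o ∈ octads, T ∪ U ⊆ o}.ncard
        = 1120 := by
  have hmove := M24_trans_sets (s := toSet 7) (t := T) (by decide) (by rw [hT]; decide)
  constructor
  · rw [ncard_transfer hmove
      (P := fun T U => U.card = 3 ∧ Disjoint T U ∧ ∃ o ∈ octads, T ∪ U ⊆ o)]
    · rw [ncard_combs 3 combs_nodup.1 (triClass true)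
        (fun U => Disjoint (toSet 7) U ∧ ∃ o ∈ octads, toSet 7 ∪ U ⊆ o)
        (fun m hm => by rw [triClass_iff hm]; simp)]
      decide +kernel
    · rintro σ hσ a b ⟨h1, h2, h3⟩
      exact ⟨by simpa using h1, (disjoint_smul_iff σ a b).2 h2, by
        rw [← Finset.smul_finset_union]; exact (exists_sub_smul hσ _).2 h3⟩
  · rw [ncard_transfer hmove
      (P := fun T U => U.card = 3 ∧ Disjoint T U ∧ ¬ ∃ o ∈ octads, T ∪ U ⊆ o)]
    · rw [ncard_combs 3 combs_nodup.1 (triClass false)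
        (fun U => Disjoint (toSet 7) U ∧ ¬ ∃ o ∈ octads, toSet 7 ∪ U ⊆ o)
        (fun m hm => by rw [triClass_iff hm]; simp)]
      decide +kernel
    · rintro σ hσ a b ⟨h1, h2, h3⟩
      exact ⟨by simpa using h1, (disjoint_smul_iff σ a b).2 h2, by
        rw [← Finset.smul_finset_union, exists_sub_smul hσ]; exact h3⟩

/-- The relation of a pair to two points and a pair, as an octad statement. -/
theorem oct_pq_iff (p q : GolayPt) (s t : Finset GolayPt) :
    (∃ o ∈ octads, p ∈ o ∧ q ∈ o ∧ s ∪ t ⊆ o) ↔ ∃ o ∈ octads, ({p, q} ∪ s) ∪ t ⊆ o := by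
  simp only [Finset.union_subset_iff, Finset.insert_subset_iff, Finset.singleton_subset_iff,
    and_assoc]

theorem move_pqs {p q : GolayPt} (hpq : p ≠ q) {s : Finset GolayPt} (hs : s.card = 2)
    (hp : p ∉ s) (hq : q ∉ s) : ∃ σ ∈ M24, σ • (pt 0, pt 1, toSet 12) = (p, q, s) := by
  obtain ⟨a, b, hab, rfl⟩ := Finset.card_eq_two.1 hs
  simp only [Finset.mem_insert, Finset.mem_singleton, not_or] at hp hq
  obtain ⟨σ, hσ, e⟩ := exists_M24_map (k := 4) (by norm_num) ![pt 0, pt 1, pt 2, pt 3]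
    ![p, q, a, b] (by decide) (by
      intro i j
      fin_cases i <;> fin_cases j <;>
        simp [hpq, hpq.symm, hab, hab.symm, hp.1, hp.2, hq.1, hq.2, Ne.symm hp.1, Ne.symm hp.2,
          Ne.symm hq.1, Ne.symm hq.2])
  refine ⟨σ, hσ, Prod.ext (e 0) (Prod.ext (e 1) ?_)⟩
  show σ • toSet 12 = _
  rw [toSet_twelve, Finset.smul_finset_insert, Finset.smul_finset_singleton, Equiv.Perm.smul_def,
    Equiv.Perm.smul_def]
  have e2 := e 2; have e3 := e 3
  simp at e2 e3
  rw [e2, e3]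

theorem pair_counts {p q : GolayPt} (hpq : p ≠ q) {s : Finset GolayPt} (hs : s.card = 2)
    (hp : p ∉ s) (hq : q ∉ s) :
    {t : Finset GolayPt | (t.card = 2 ∧ p ∉ t ∧ q ∉ t) ∧ Disjoint s t ∧
        (∃ o ∈ octads, p ∈ o ∧ q ∈ o ∧ s ∪ t ⊆ o)}.ncard = 30 ∧
      {t : Finset GolayPt | (t.card = 2 ∧ p ∉ t ∧ q ∉ t) ∧ Disjoint s t ∧
        ¬ (∃ o ∈ octads, p ∈ o ∧ q ∈ o ∧ s ∪ t ⊆ o)}.ncard = 160 := by
  have hmove := move_pqs hpq hs hp hq
  have hbase : ∀ (v : Bool) (m : ℕ), m < 16777216 →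
      (pairClass 0 v m = true ↔ pc m = 2 ∧ ((pt 0 ∉ toSet m ∧ pt 1 ∉ toSet m) ∧
        Disjoint (toSet 12) (toSet m) ∧
          ((∃ o ∈ octads, pt 0 ∈ o ∧ pt 1 ∈ o ∧ toSet 12 ∪ toSet m ⊆ o) ↔ v = true))) := by
    intro v m hm
    rw [pairClass_iff hm, toSet_three, Finset.disjoint_insert_left, Finset.disjoint_singleton_left,
      Finset.card_eq_zero, ← Finset.disjoint_iff_inter_eq_empty, disjoint_comm, oct_pq_iff,
      toSet_fifteen, toSet_three]
    simp
  constructor
  · rw [ncard_transfer hmove (P := fun c t => (t.card = 2 ∧ c.1 ∉ t ∧ c.2.1 ∉ t) ∧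
        Disjoint c.2.2 t ∧ ∃ o ∈ octads, c.1 ∈ o ∧ c.2.1 ∈ o ∧ c.2.2 ∪ t ⊆ o)]
    · simp only [and_assoc]
      rw [ncard_combs 2 combs_nodup.2 (pairClass 0 true)
        (fun t => pt 0 ∉ t ∧ pt 1 ∉ t ∧ Disjoint (toSet 12) t ∧
          ∃ o ∈ octads, pt 0 ∈ o ∧ pt 1 ∈ o ∧ toSet 12 ∪ t ⊆ o)
        (fun m hm => by rw [hbase true m hm]; simp [and_assoc])]
      decide +kernel
    · rintro σ hσ ⟨a, b, c⟩ t ⟨⟨h1, h2, h3⟩, h4, o, ho, g1, g2, g3⟩
      exact ⟨⟨by simpa using h1, fun hm => h2 ((Finset.smul_mem_smul_finset_iff σ).1 hm),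
        fun hm => h3 ((Finset.smul_mem_smul_finset_iff σ).1 hm)⟩, (disjoint_smul_iff σ c t).2 h4,
        σ • o, smul_mem_octads hσ ho, Finset.smul_mem_smul_finset g1,
        Finset.smul_mem_smul_finset g2, by
          simp only [Prod.smul_mk]; rw [← Finset.smul_finset_union]
          exact Finset.smul_finset_subset_smul_finset g3⟩
  · rw [ncard_transfer hmove (P := fun c t => (t.card = 2 ∧ c.1 ∉ t ∧ c.2.1 ∉ t) ∧
        Disjoint c.2.2 t ∧ ¬ ∃ o ∈ octads, c.1 ∈ o ∧ c.2.1 ∈ o ∧ c.2.2 ∪ t ⊆ o)]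
    · simp only [and_assoc]
      rw [ncard_combs 2 combs_nodup.2 (pairClass 0 false)
        (fun t => pt 0 ∉ t ∧ pt 1 ∉ t ∧ Disjoint (toSet 12) t ∧
          ¬ ∃ o ∈ octads, pt 0 ∈ o ∧ pt 1 ∈ o ∧ toSet 12 ∪ t ⊆ o)
        (fun m hm => by rw [hbase false m hm]; simp [and_assoc])]
      decide +kernel
    · rintro σ hσ ⟨a, b, c⟩ t ⟨⟨h1, h2, h3⟩, h4, h5⟩
      refine ⟨⟨by simpa using h1, fun hm => h2 ((Finset.smul_mem_smul_finset_iff σ).1 hm),
        fun hm => h3 ((Finset.smul_mem_smul_finset_iff σ).1 hm)⟩, (disjoint_smul_iff σ c t).2 h4, ?_⟩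
      rintro ⟨o, ho, g1, g2, g3⟩
      simp only [Prod.smul_mk] at g1 g2 g3
      refine h5 ⟨σ⁻¹ • o, smul_mem_octads (inv_mem hσ) ho, ?_, ?_, ?_⟩
      · simpa using Finset.smul_mem_smul_finset (a := σ⁻¹) g1
      · simpa using Finset.smul_mem_smul_finset (a := σ⁻¹) g2
      · simpa [Finset.smul_finset_union] using
          Finset.smul_finset_subset_smul_finset (a := σ⁻¹) g3

theorem pair_orbits {p q : GolayPt} (hpq : p ≠ q) {s t t' : Finset GolayPt} (hs : s.card = 2)
    (hp : p ∉ s) (hq : q ∉ s) (ht : t.card = 2 ∧ p ∉ t ∧ q ∉ t) (ht' : t'.card = 2 ∧ p ∉ t' ∧ q ∉ t')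
    (hne : t ≠ s) (hne' : t' ≠ s) (hk : (s ∩ t).card = (s ∩ t').card)
    (h : (∃ o ∈ octads, p ∈ o ∧ q ∈ o ∧ s ∪ t ⊆ o) ↔ ∃ o ∈ octads, p ∈ o ∧ q ∈ o ∧ s ∪ t' ⊆ o) :
    ∃ σ ∈ M24, σ • (p, q, s) = (p, q, s) ∧ σ • t = t' := by
  refine trans_transfer (move_pqs hpq hs hp hq)
    (Rel := fun c t t' => (t.card = 2 ∧ c.1 ∉ t ∧ c.2.1 ∉ t) ∧ (t'.card = 2 ∧ c.1 ∉ t' ∧ c.2.1 ∉ t')
      ∧ (t ≠ c.2.2 ∧ t' ≠ c.2.2) ∧ (c.2.2 ∩ t).card = (c.2.2 ∩ t').card ∧
      ((∃ o ∈ octads, ({c.1, c.2.1} ∪ c.2.2) ∪ t ⊆ o) ↔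
        ∃ o ∈ octads, ({c.1, c.2.1} ∪ c.2.2) ∪ t' ⊆ o)) ?_ ?_
    ⟨ht, ht', ⟨hne, hne'⟩, hk, by rwa [← oct_pq_iff, ← oct_pq_iff]⟩
  · rintro σ hσ ⟨a, b, c⟩ u v ⟨⟨h1, h2, h3⟩, ⟨h4, h5, h6⟩, ⟨h7, h8⟩, h9, h10⟩
    have hset : ∀ w : Finset GolayPt,
        (({σ • a, σ • b} : Finset GolayPt) ∪ σ • c) ∪ σ • w = σ • (({a, b} ∪ c) ∪ w) := by
      intro w
      simp only [Finset.smul_finset_union, Finset.smul_finset_insert, Finset.smul_finset_singleton]
    refine ⟨⟨by simpa using h1, fun hm => h2 ((Finset.smul_mem_smul_finset_iff σ).1 hm),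
        fun hm => h3 ((Finset.smul_mem_smul_finset_iff σ).1 hm)⟩,
      ⟨by simpa using h4, fun hm => h5 ((Finset.smul_mem_smul_finset_iff σ).1 hm),
        fun hm => h6 ((Finset.smul_mem_smul_finset_iff σ).1 hm)⟩,
      ⟨fun he => h7 (MulAction.injective σ he), fun he => h8 (MulAction.injective σ he)⟩, ?_, ?_⟩
    · simp only [Prod.smul_mk]; rw [smul_inter_card, smul_inter_card, h9]
    · simp only [Prod.smul_mk]; rw [hset, hset, exists_sub_smul hσ, exists_sub_smul hσ]; exact h10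
  · rintro b c ⟨⟨h1, h2, h3⟩, ⟨h4, h5, h6⟩, ⟨h7, h8⟩, h9, h10⟩
    obtain ⟨a, ha, rfl⟩ := exists_mask b
    obtain ⟨a', ha', rfl⟩ := exists_mask c
    have hd : ∀ m, pt 0 ∉ toSet m → pt 1 ∉ toSet m → Disjoint (toSet 3) (toSet m) := by
      intro m g1 g2
      rw [toSet_three, Finset.disjoint_insert_left, Finset.disjoint_singleton_left]
      exact ⟨g1, g2⟩
    have hle : (toSet a ∩ toSet 12).card < 2 := by
      by_contra hc
      push Not at hc
      have e1 := Finset.eq_of_subset_of_card_le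
        (Finset.inter_subset_left : toSet a ∩ toSet 12 ⊆ toSet a) (by rw [h1]; exact hc)
      have e2 := Finset.eq_of_subset_of_card_le
        (Finset.inter_subset_right : toSet a ∩ toSet 12 ⊆ toSet 12)
        (by rw [show (toSet 12).card = 2 by decide]; exact hc)
      exact h7 (e1.symm.trans e2)
    rw [Finset.inter_comm (toSet 12), Finset.inter_comm (toSet 12)] at h9
    simp only [← toSet_three, ← toSet_fifteen] at h10
    rw [card_toSet] at h1 h4
    have key : ∃ σ ∈ stabM [12] 3, σ • toSet a = toSet a' := by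
      rcases Nat.lt_or_ge (toSet a ∩ toSet 12).card 1 with h0 | h1'
      · have h0 : (toSet a ∩ toSet 12).card = 0 := by omega
        by_cases hv : ∃ o ∈ octads, toSet 15 ∪ toSet a ⊆ o
        · exact same_orbit
            (cover_mask (fun _ => pairClass_mem) pair_cover.1 ((pairClass_iff ha).2
              ⟨h1, hd a h2 h3, h0, Or.inr (by simpa using hv)⟩))
            (cover_mask (fun _ => pairClass_mem) pair_cover.1 ((pairClass_iff ha').2
              ⟨h4, hd a' h5 h6, h9 ▸ h0, Or.inr (by simpa using h10.1 hv)⟩))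
        · exact same_orbit
            (cover_mask (fun _ => pairClass_mem) pair_cover.2.1 ((pairClass_iff ha).2
              ⟨h1, hd a h2 h3, h0, Or.inr (by simpa using hv)⟩))
            (cover_mask (fun _ => pairClass_mem) pair_cover.2.1 ((pairClass_iff ha').2
              ⟨h4, hd a' h5 h6, h9 ▸ h0, Or.inr (by simpa using fun hh => hv (h10.2 hh))⟩))
      · have h1'' : (toSet a ∩ toSet 12).card = 1 := by omega
        exact same_orbit
          (cover_mask (fun _ => pairClass_mem) pair_cover.2.2 ((pairClass_iff ha).2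
            ⟨h1, hd a h2 h3, h1'', Or.inl rfl⟩))
          (cover_mask (fun _ => pairClass_mem) pair_cover.2.2 ((pairClass_iff ha').2
            ⟨h4, hd a' h5 h6, h9 ▸ h1'', Or.inl rfl⟩))
    obtain ⟨σ, hσ, he⟩ := key
    exact ⟨σ, (mem_stabM.1 hσ).1, Prod.ext (stabM_fix (i := 0) hσ (by norm_num) (by decide))
      (Prod.ext (stabM_fix (i := 1) hσ (by norm_num) (by decide)) (stabM_smul hσ (by simp))), he⟩

end Cfsg.Agent.Lib.Golay
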