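import Cfsg.Agent.Lib.Golay.Counts
import Cfsg.Agent.Lib.Golay.Tuples

/-! # Maximality of stabilisers from suborbit lengths -/

set_option autoImplicit false

namespace Cfsg.Agent.Lib.Golay

open Cfsg
open scoped Pointwise

/-- A point stabiliser is maximal when no union of suborbits containing the point has a size
dividing the degree, apart from the two trivial ones. -/
theorem isCoatom_stabilizer {G α : Type*} [Group G] [Finite G] [MulAction G α] (a : α)
    (X : Set α) (hX : MulAction.orbit G a = X) (f : α → ℕ) (vals : Finset ℕ) (n : ℕ → ℕ)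
    (hf : ∀ b ∈ X, f b ∈ vals) (hn : ∀ k ∈ vals, {b | b ∈ X ∧ f b = k}.ncard = n k)
    (hsame : ∀ b ∈ X, ∀ c ∈ X, f b = f c → ∃ g : G, g • a = a ∧ g • b = c)
    (hself : ∀ b ∈ X, f b = f a → b = a) (hne : ∃ b ∈ X, b ≠ a)
    (hdvd : ∀ V ∈ vals.powerset, f a ∈ V → (∑ k ∈ V, n k) ∣ (∑ k ∈ vals, n k) →
      V = vals ∨ V = {f a}) :
    IsCoatom (MulAction.stabilizer G a) := by
  classical
  refine ⟨fun htop => ?_, fun H hH => ?_⟩
  · obtain ⟨b, hb, hba⟩ := hne
    rw [← hX] at hb
    obtain ⟨g, rfl⟩ := hb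
    exact hba (MulAction.mem_stabilizer_iff.1 (htop ▸ Subgroup.mem_top g))
  set O := MulAction.orbit H a with hO
  have hfin : X.Finite := hX ▸ Set.finite_range _
  have hOX : O ⊆ X := by
    rintro _ ⟨g, rfl⟩
    rw [← hX]; exact ⟨(g : G), rfl⟩
  have hclosed : ∀ b ∈ O, ∀ c ∈ X, f b = f c → c ∈ O := by
    rintro _ ⟨g, rfl⟩ c hc he
    obtain ⟨s, hs, rfl⟩ := hsame _ (hOX ⟨g, rfl⟩) c hc he
    exact ⟨⟨s, hH.le hs⟩ * g, by simp [mul_smul, Subgroup.smul_def]⟩
  set V := vals.filter fun k => ∃ b ∈ O, f b = k with hV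
  have hOV : O = {b | b ∈ X ∧ f b ∈ V} := by
    ext b
    refine ⟨fun hb => ⟨hOX hb, Finset.mem_filter.2 ⟨hf b (hOX hb), b, hb, rfl⟩⟩, ?_⟩
    rintro ⟨hb, hV'⟩
    obtain ⟨-, c, hc, he⟩ := Finset.mem_filter.1 hV'
    exact hclosed c hc b hb he
  have hsum : ∀ W ⊆ vals, {b | b ∈ X ∧ f b ∈ W}.ncard = ∑ k ∈ W, n k := by
    intro W hW
    have hfinW : {b | b ∈ X ∧ f b ∈ W}.Finite := hfin.subset fun b hb => hb.1
    rw [Set.ncard_eq_toFinset_card _ hfinW,
      Finset.card_eq_sum_card_fiberwise (f := f) (t := W) (fun b hb =>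
        (hfinW.mem_toFinset.1 hb).2)]
    refine Finset.sum_congr rfl fun k hk => ?_
    rw [← hn k (hW hk), ← Set.ncard_coe_finset]
    congr 1
    ext b
    simp only [Finset.coe_filter, Set.Finite.mem_toFinset, Set.mem_ofPred_eq]
    exact ⟨fun h => ⟨h.1.1, h.2⟩, fun h => ⟨⟨h.1, h.2 ▸ hk⟩, h.2⟩⟩
  have hXn : X.ncard = ∑ k ∈ vals, n k := by
    rw [← hsum vals subset_rfl]
    exact congrArg Set.ncard (Set.ext fun b => ⟨fun h => ⟨h, hf b h⟩, fun h => h.1⟩)
  have hcardO : O.ncard * Nat.card (MulAction.stabilizer G a) = Nat.card H := by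
    have h1 : Nat.card (MulAction.stabilizer H a) = Nat.card (MulAction.stabilizer G a) :=
      Nat.card_congr
        { toFun := fun g => ⟨((g : H) : G), g.2⟩
          invFun := fun g => ⟨⟨(g : G), hH.le g.2⟩, g.2⟩
          left_inv := fun _ => rfl
          right_inv := fun _ => rfl }
    rw [← h1, ← Nat.card_congr (MulAction.orbitProdStabilizerEquivGroup H a), Nat.card_prod,
      Nat.card_coe_set_eq]
  have hcardX : X.ncard * Nat.card (MulAction.stabilizer G a) = Nat.card G := by
    rw [← hX, ← Nat.card_congr (MulAction.orbitProdStabilizerEquivGroup G a), Nat.card_prod,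
      Nat.card_coe_set_eq]
  have hdiv : O.ncard ∣ X.ncard := by
    have := Subgroup.card_subgroup_dvd_card H
    rw [← hcardO, ← hcardX] at this
    exact Nat.dvd_of_mul_dvd_mul_right Nat.card_pos this
  have hOn : O.ncard = ∑ k ∈ V, n k := by
    rw [hOV]; exact hsum V (Finset.filter_subset _ _)
  have haV : f a ∈ V := Finset.mem_filter.2
    ⟨hf a (hX ▸ MulAction.mem_orbit_self a), a, MulAction.mem_orbit_self a, rfl⟩
  rw [hOn, hXn] at hdiv
  rcases hdvd V (Finset.mem_powerset.2 (Finset.filter_subset _ _)) haV hdiv with hV' | hV'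
  · refine Subgroup.eq_top_of_card_eq _ ?_
    rw [← hcardO, ← hcardX, hOn, hV', ← hXn]
  · exfalso
    refine hH.not_ge fun g hg => ?_
    have hmem : g • a ∈ O := ⟨⟨g, hg⟩, rfl⟩
    have : f (g • a) ∈ V := (hOV ▸ hmem : g • a ∈ {b | b ∈ X ∧ f b ∈ V}).2
    rw [hV', Finset.mem_singleton] at this
    exact hself _ (hOX hmem) this

theorem orbit_M24_eq {α : Type*} [MulAction (Equiv.Perm GolayPt) α] {a : α} {X : Set α}
    (h1 : ∀ σ ∈ M24, σ • a ∈ X) (h2 : ∀ b ∈ X, ∃ σ ∈ M24, σ • a = b) :
    MulAction.orbit M24 a = X := by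
  ext b
  constructor
  · rintro ⟨g, rfl⟩; exact h1 g g.2
  · intro hb
    obtain ⟨σ, hσ, rfl⟩ := h2 b hb
    exact ⟨⟨σ, hσ⟩, rfl⟩

theorem octad_stab_maximal {o : Finset GolayPt} (ho : o ∈ octads) :
    IsCoatom (MulAction.stabilizer M24 o) := by
  refine isCoatom_stabilizer o octads
    (orbit_M24_eq (fun σ hσ => smul_mem_octads hσ ho) fun b hb => M24_trans_octads ho hb)
    (fun b => (b ∩ o).card) {0, 2, 4, 8}
    (fun k => if k = 0 then 30 else if k = 2 then 448 else if k = 4 then 280 else 1) ?_ ?_ ?_ ?_ ?_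
    ?_
  · intro b hb
    rcases octad_inter_cases ho hb with h | h | h | ⟨h, -⟩ <;> simp [h]
  · intro k hk
    have h : {b : Finset GolayPt | b ∈ octads ∧ (b ∩ o).card = k}.ncard =
        (octList.filter (octClass o0 k 0 0)).length := by
      rw [ncard_transfer (M24_trans_octads o0_octad ho)
        (P := fun o b => b ∈ octads ∧ (b ∩ o).card = k)]
      · exact ncard_octClass o0 k 0 0 _ fun m _ => by simp [Finset.inter_comm (toSet m)]
      · rintro σ hσ a b ⟨h1, h2⟩
        exact ⟨smul_mem_octads hσ h1, by rw [smul_inter_card, h2]⟩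
    rw [h]
    simp only [Finset.mem_insert, Finset.mem_singleton] at hk
    rcases hk with rfl | rfl | rfl | rfl <;> decide +kernel
  · intro b hb c hc he
    obtain ⟨σ, hσ, h1, h2⟩ := octad_pairs ho hb hc
      (by rw [Finset.inter_comm o b, Finset.inter_comm o c]; exact he)
    exact ⟨⟨σ, hσ⟩, h1, h2⟩
  · intro b hb he
    simp only [Finset.inter_self, octads_card ho] at he
    rcases octad_inter_cases ho hb with h | h | h | ⟨-, h⟩
    iterate 3 omega
    exact h
  · obtain ⟨σ, hσ, h⟩ := M24_trans_octads o0_octad ho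
    refine ⟨σ • toSet o2Start, smul_mem_octads hσ (mem_octads.2 ⟨_, mem_octList.2 (by decide +kernel), rfl⟩), ?_⟩
    rw [← h]
    intro he
    exact absurd (MulAction.injective σ he) (by decide +kernel)
  · simp only [Finset.inter_self, octads_card ho]
    decide

theorem pair_stab_maximal {s : Finset GolayPt} (hs : s.card = 2) :
    IsCoatom (MulAction.stabilizer M24 s) := by
  refine isCoatom_stabilizer s {b : Finset GolayPt | b.card = 2}
    (orbit_M24_eq (fun σ _ => by simpa using hs)
      fun b hb => M24_trans_sets (by omega) (hs.trans (Eq.symm hb)))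
    (fun b => (b ∩ s).card) {0, 1, 2}
    (fun k => if k = 0 then 231 else if k = 1 then 44 else 1) ?_ ?_ ?_ ?_ ?_ ?_
  · intro b hb
    have : (b ∩ s).card ≤ 2 := (Finset.card_le_card Finset.inter_subset_right).trans hs.le
    simp only [Finset.mem_insert, Finset.mem_singleton]; omega
  · intro k hk
    have h : {b : Finset GolayPt | b.card = 2 ∧ (b ∩ s).card = k}.ncard =
        ((combs 24 2).filter fun m => pc (m &&& 3) == k).length := by
      rw [ncard_transfer (M24_trans_sets (s := toSet 3) (t := s) (by decide) (by rw [hs]; decide))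
        (P := fun s b => b.card = 2 ∧ (b ∩ s).card = k)]
      · rw [ncard_combs 2 combs_nodup.2 (fun m => pc m == 2 && pc (m &&& 3) == k)
          (fun b => (b ∩ toSet 3).card = k) (fun m _ => by simp [inter_eq])]
        refine congrArg List.length (List.filter_congr ?_)
        intro m hm
        have h2 : ∀ m ∈ combs 24 2, (pc m == 2) = true := by decide +kernel
        rw [h2 m hm, Bool.true_and]
      · rintro σ hσ a b ⟨h1, h2⟩
        exact ⟨by simpa using h1, by rw [smul_inter_card, h2]⟩
    simp only [Set.mem_ofPred_eq]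
    rw [h]
    simp only [Finset.mem_insert, Finset.mem_singleton] at hk
    rcases hk with rfl | rfl | rfl <;> decide +kernel
  · intro b hb c hc he
    obtain ⟨u, v, huv, rfl⟩ := Finset.card_eq_two.1 hs
    -- normal forms of the two pairs relative to the fixed one
    have cases2 : ∀ w : Finset GolayPt, w.card = 2 → (w ∩ {u, v}).card = 1 →
        ∃ x y : GolayPt, x ∈ ({u, v} : Finset GolayPt) ∧ y ∉ ({u, v} : Finset GolayPt) ∧ w = {x, y} := by
      intro w hw h1
      obtain ⟨x, hx⟩ := Finset.card_eq_one.1 h1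
      have hxw : x ∈ w ∧ x ∈ ({u, v} : Finset GolayPt) := Finset.mem_inter.1 (hx ▸ Finset.mem_singleton_self x)
      obtain ⟨y, hy⟩ := Finset.card_eq_one.1 (show (w.erase x).card = 1 by
        rw [Finset.card_erase_of_mem hxw.1, hw])
      have hyw : y ∈ w.erase x := hy ▸ Finset.mem_singleton_self y
      refine ⟨x, y, hxw.2, fun hm => ?_, ?_⟩
      · have : y ∈ w ∩ {u, v} := Finset.mem_inter.2 ⟨Finset.mem_of_mem_erase hyw, hm⟩
        rw [hx, Finset.mem_singleton] at this
        exact Finset.ne_of_mem_erase hyw this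
      · rw [← Finset.insert_erase hxw.1, hy]
    have hle : (b ∩ {u, v}).card ≤ 2 := (Finset.card_le_card Finset.inter_subset_right).trans hs.le
    rcases Nat.lt_or_ge (b ∩ {u, v}).card 1 with h0 | h1
    · have hb0 : Disjoint b {u, v} := Finset.disjoint_iff_inter_eq_empty.2 (Finset.card_eq_zero.1 (by omega))
      have hc0 : Disjoint c {u, v} := Finset.disjoint_iff_inter_eq_empty.2 (Finset.card_eq_zero.1 (by omega))
      obtain ⟨b1, b2, hb12, rfl⟩ := Finset.card_eq_two.1 hb
      obtain ⟨c1, c2, hc12, rfl⟩ := Finset.card_eq_two.1 hc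
      simp only [Finset.disjoint_insert_left, Finset.disjoint_singleton_left, Finset.mem_insert,
        Finset.mem_singleton, not_or] at hb0 hc0
      obtain ⟨σ, hσ, e⟩ := exists_M24_map (k := 4) (by norm_num) ![u, v, b1, b2] ![u, v, c1, c2]
        (by intro i j; fin_cases i <;> fin_cases j <;>
          simp [huv, huv.symm, hb12, hb12.symm, hb0.1.1, hb0.1.2, hb0.2.1, hb0.2.2,
            Ne.symm hb0.1.1, Ne.symm hb0.1.2, Ne.symm hb0.2.1, Ne.symm hb0.2.2])
        (by intro i j; fin_cases i <;> fin_cases j <;>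
          simp [huv, huv.symm, hc12, hc12.symm, hc0.1.1, hc0.1.2, hc0.2.1, hc0.2.2,
            Ne.symm hc0.1.1, Ne.symm hc0.1.2, Ne.symm hc0.2.1, Ne.symm hc0.2.2])
      have e0 := e 0; have e1 := e 1; have e2 := e 2; have e3 := e 3
      simp at e0 e1 e2 e3
      exact ⟨⟨σ, hσ⟩, by simp [Subgroup.smul_def, Finset.smul_finset_insert, e0, e1],
        by simp [Subgroup.smul_def, Finset.smul_finset_insert, e2, e3]⟩
    · rcases Nat.lt_or_ge (b ∩ {u, v}).card 2 with h2 | h2
      · obtain ⟨x, y, hx, hy, rfl⟩ := cases2 b hb (by omega)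
        obtain ⟨x', y', hx', hy', rfl⟩ := cases2 c hc (by omega)
        simp only [Finset.mem_insert, Finset.mem_singleton, not_or] at hx hy hx' hy'
        have other : ∀ x : GolayPt, x = u ∨ x = v →
            ∃ w : GolayPt, w ≠ x ∧ ({x, w} : Finset GolayPt) = {u, v} := by
          rintro x (rfl | rfl)
          · exact ⟨v, huv.symm, rfl⟩
          · exact ⟨u, huv, Finset.pair_comm _ _⟩
        obtain ⟨w, hw, hwp⟩ := other x hx
        obtain ⟨w', hw', hwp'⟩ := other x' hx'
        have hwm : w = u ∨ w = v := by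
          have : w ∈ ({u, v} : Finset GolayPt) := hwp ▸ by simp
          simpa using this
        have hwm' : w' = u ∨ w' = v := by
          have : w' ∈ ({u, v} : Finset GolayPt) := hwp' ▸ by simp
          simpa using this
        have hyx : y ≠ x := fun e => by rcases hx with r | r <;> simp_all
        have hyw : y ≠ w := fun e => by rcases hwm with r | r <;> simp_all
        have hyx' : y' ≠ x' := fun e => by rcases hx' with r | r <;> simp_all
        have hyw' : y' ≠ w' := fun e => by rcases hwm' with r | r <;> simp_all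
        obtain ⟨σ, hσ, e⟩ := exists_M24_map (k := 3) (by norm_num) ![x, w, y] ![x', w', y']
          (by intro i j; fin_cases i <;> fin_cases j <;>
            simp [hw, hw.symm, hyx, hyx.symm, hyw, hyw.symm])
          (by intro i j; fin_cases i <;> fin_cases j <;>
            simp [hw', hw'.symm, hyx', hyx'.symm, hyw', hyw'.symm])
        have e0 := e 0; have e1 := e 1; have e2 := e 2
        simp at e0 e1 e2
        refine ⟨⟨σ, hσ⟩, ?_, by simp [Subgroup.smul_def, Finset.smul_finset_insert, e0, e2]⟩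
        conv_lhs => rw [← hwp]
        rw [← hwp']
        simp [Subgroup.smul_def, Finset.smul_finset_insert, e0, e1]
      · have full : ∀ w : Finset GolayPt, w.card = 2 → 2 ≤ (w ∩ {u, v}).card → w = {u, v} :=
          fun w hw h2 =>
            (Finset.eq_of_subset_of_card_le Finset.inter_subset_left (by omega)).symm.trans
              (Finset.eq_of_subset_of_card_le Finset.inter_subset_right (by omega))
        exact ⟨1, one_smul _ _, by rw [one_smul, full b hb h2, full c hc (by omega)]⟩
  · intro b hb he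
    simp only [Finset.inter_self, hs] at he
    exact (Finset.eq_of_subset_of_card_le Finset.inter_subset_left
      (by rw [he]; exact le_of_eq hb)).symm.trans
        (Finset.eq_of_subset_of_card_le Finset.inter_subset_right (by rw [he, hs]))
  · obtain ⟨σ, hσ, h⟩ := M24_trans_sets (s := toSet 3) (t := s) (by decide) (by rw [hs]; decide)
    refine ⟨σ • toSet 12, by simp only [Set.mem_ofPred_eq, Finset.card_smul_finset]; decide, ?_⟩
    rw [← h]
    intro he
    exact absurd (MulAction.injective σ he) (by decide)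
  · simp only [Finset.inter_self, hs]
    decide

end Cfsg.Agent.Lib.Golay
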