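import Cfsg.Agent.Lib.Golay.Families
import Cfsg.Agent.Lib.Golay.SextetData
import Cfsg.Agent.Lib.Golay.TrioData
import Cfsg.Agent.Lib.Golay.Maximal

/-! # Orbits of stabilisers of families on families, sorted by a numerical invariant -/

set_option autoImplicit false

namespace Cfsg.Agent.Lib.Golay

open Cfsg
open scoped Pointwise

/-- The invariant of a family relative to another one. -/
def kindF (B A : Finset (Finset GolayPt)) : ℕ := ∑ t ∈ A, ∑ u ∈ B, (t ∩ u).card ^ 2

/-- The invariant, read on codes. -/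
def kindL (B A : List ℕ) : ℕ :=
  (A.map fun t => (B.map fun u => pc (t &&& u) * pc (t &&& u)).sum).sum

theorem kindF_smul (σ : Equiv.Perm GolayPt) (B A : Finset (Finset GolayPt)) :
    kindF (σ • B) (σ • A) = kindF B A := by
  have key : ∀ (C : Finset (Finset GolayPt)) (f : Finset GolayPt → ℕ),
      ∑ t ∈ σ • C, f t = ∑ t ∈ C, f (σ • t) :=
    fun C f => Finset.sum_image (MulAction.injective σ).injOn
  simp only [kindF, key, smul_inter_card]

theorem sum_fam {L : List ℕ} (hL : canon L = true) (f : Finset GolayPt → ℕ) :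
    ∑ t ∈ fam L, f t = (L.map fun m => f (toSet m)).sum := by
  simp only [canon, Bool.and_eq_true, List.all_eq_true, Nat.blt_eq] at hL
  rw [fam, List.sum_toFinset f, List.map_map]
  · rfl
  · exact (nodup_of_incr hL.1).map_on fun a ha b hb e => eq_of_toSet_eq (hL.2 a ha) (hL.2 b hb) e

theorem kindF_fam {B A : List ℕ} (hB : canon B = true) (hA : canon A = true) :
    kindF (fam B) (fam A) = kindL B A := by
  rw [kindF, sum_fam hA, kindL]
  refine congrArg List.sum (List.map_congr_left fun t _ => ?_)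
  rw [sum_fam hB]
  refine congrArg List.sum (List.map_congr_left fun u _ => ?_)
  rw [inter_eq, pow_two]

/-- A family of codes standing for an invariant set of families. -/
structure IsModel (X : Set (Finset (Finset GolayPt))) (U : List (List ℕ)) (isU : List ℕ → Bool)
    (key : List ℕ → ℕ) : Prop where
  inv : ∀ σ ∈ M24, ∀ A ∈ X, σ • A ∈ X
  mem : ∀ a, isU a = true → canon a = true ∧ fam a ∈ X
  all : U.all isU = true
  inj : keyInj key U 0 = true
  len : U.length = X.ncard

theorem IsModel.canon_of {X : Set (Finset (Finset GolayPt))} {U : List (List ℕ)}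
    {isU : List ℕ → Bool} {key : List ℕ → ℕ} (h : IsModel X U isU key) {a : List ℕ} (ha : a ∈ U) :
    canon a = true :=
  (h.mem a (List.all_eq_true.1 h.all a ha)).1

theorem IsModel.injOn {X : Set (Finset (Finset GolayPt))} {U : List (List ℕ)}
    {isU : List ℕ → Bool} {key : List ℕ → ℕ} (h : IsModel X U isU key) :
    Set.InjOn fam {a | a ∈ U} := fun _ ha _ hb e => fam_inj (h.canon_of ha) (h.canon_of hb) e

theorem IsModel.surj {X : Set (Finset (Finset GolayPt))} {U : List (List ℕ)}
    {isU : List ℕ → Bool} {key : List ℕ → ℕ} (h : IsModel X U isU key)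
    {A : Finset (Finset GolayPt)} (hA : A ∈ X) : ∃ a ∈ U, fam a = A := by
  classical
  have hsub : ↑(U.toFinset.image fam) ⊆ X := by
    intro B hB
    simp only [Finset.coe_image, Set.mem_image, List.coe_toFinset, Set.mem_ofPred_eq] at hB
    obtain ⟨a, ha, rfl⟩ := hB
    exact (h.mem a (List.all_eq_true.1 h.all a ha)).2
  have heq := Set.eq_of_subset_of_ncard_le hsub (by
    rw [Set.ncard_coe_finset, Finset.card_image_of_injOn,
      List.toFinset_card_of_nodup (keyInj_spec h.inj).1, h.len]
    simpa using h.injOn) (Set.toFinite _)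
  rw [← heq] at hA
  simpa using hA

theorem IsModel.mem_of {X : Set (Finset (Finset GolayPt))} {U : List (List ℕ)}
    {isU : List ℕ → Bool} {key : List ℕ → ℕ} (h : IsModel X U isU key) {a : List ℕ}
    (ha : isU a = true) : a ∈ U := by
  obtain ⟨b, hb, e⟩ := h.surj (h.mem a ha).2
  rwa [← fam_inj (h.canon_of hb) (h.mem a ha).1 e]

theorem IsModel.ncard_sep {X : Set (Finset (Finset GolayPt))} {U : List (List ℕ)}
    {isU : List ℕ → Bool} {key : List ℕ → ℕ} (h : IsModel X U isU key) (q : List ℕ → Bool)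
    (P : Finset (Finset GolayPt) → Prop) (hq : ∀ a ∈ U, q a = true ↔ P (fam a)) :
    {A | A ∈ X ∧ P A}.ncard = (U.filter q).length := by
  classical
  have : {A | A ∈ X ∧ P A} = ↑((U.filter q).toFinset.image fam) := by
    ext A
    simp only [Finset.coe_image, Set.mem_image, List.coe_toFinset, List.mem_filter,
      Set.mem_ofPred_eq]
    constructor
    · rintro ⟨hA, hP⟩
      obtain ⟨a, ha, rfl⟩ := h.surj hA
      exact ⟨a, ⟨ha, (hq a ha).2 hP⟩, rfl⟩
    · rintro ⟨a, ⟨ha, hqa⟩, rfl⟩
      exact ⟨(h.mem a (List.all_eq_true.1 h.all a ha)).2, (hq a ha).1 hqa⟩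
  rw [this, Set.ncard_coe_finset, Finset.card_image_of_injOn,
    List.toFinset_card_of_nodup ((keyInj_spec h.inj).1.filter q)]
  exact fun a ha b hb e => h.injOn (by simp at ha; exact ha.1) (by simp at hb; exact hb.1) e

/-- Certificate: the stabiliser of the family `B` is transitive on the objects of kind `k`. -/
def kindCover (B : List ℕ) (gs : List ℕ) (T : List (ℕ × ℕ)) (start : List ℕ)
    (U : List (List ℕ)) (isU : List ℕ → Bool) (key : List ℕ → ℕ) (k n : ℕ) : Bool :=
  canon B && gs.all (fun g => inM24 g && actFam g B == B) &&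
    T.all (fun e => Nat.blt e.1 gs.length) &&
    (orbitList actFam gs T start).all canon && isU start &&
    (keys key (orbitList actFam gs T start) == keys key (U.filter fun a => kindL B a == k)) &&
    ((U.filter fun a => kindL B a == k).length == n) && kindL B start == k

/-- The orbit is exactly the class of the invariant. -/
theorem kind_orbit {X : Set (Finset (Finset GolayPt))} {U : List (List ℕ)}
    {isU : List ℕ → Bool} {key : List ℕ → ℕ} (h : IsModel X U isU key) {B : List ℕ}
    {gs : List ℕ} {T : List (ℕ × ℕ)} {start : List ℕ} {k n : ℕ}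
    (hc : kindCover B gs T start U isU key k n = true) :
    fam start ∈ X ∧ kindF (fam B) (fam start) = k ∧
      MulAction.orbit (MulAction.stabilizer M24 (fam B)) (fam start) =
        {A | A ∈ X ∧ kindF (fam B) A = k} ∧
      {A | A ∈ X ∧ kindF (fam B) A = k}.ncard = n ∧
      ∀ A ∈ X, kindF (fam B) A = k → ∀ A' ∈ X, kindF (fam B) A' = k →
        ∃ σ ∈ M24, σ • fam B = fam B ∧ σ • A = A' := by
  simp only [kindCover, Bool.and_eq_true, List.all_eq_true, Nat.blt_eq, beq_iff_eq] at hc
  obtain ⟨⟨⟨⟨⟨⟨⟨hB, hgs⟩, hT⟩, hall⟩, hsU⟩, hkeys⟩, hn⟩, hstart⟩ := hc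
  set H : Subgroup (Equiv.Perm GolayPt) :=
    M24 ⊓ MulAction.stabilizer (Equiv.Perm GolayPt) (fam B) with hH
  have hH' : ∀ g ∈ gs, valid g = true ∧ toPerm g ∈ H := fun g hg => by
    have hv := valid_of_inM24 (hgs g hg).1
    exact ⟨hv, Subgroup.mem_inf.2 ⟨toPerm_mem_M24 (hgs g hg).1,
      by rw [MulAction.mem_stabilizer_iff, ← fam_actFam hv, (hgs g hg).2]⟩⟩
  have hsX := (h.mem start hsU).2
  have hks : kindF (fam B) (fam start) = k := by
    rw [kindF_fam hB (h.mem start hsU).1, hstart]
  have hreach : ∀ A ∈ X, kindF (fam B) A = k → ∃ σ ∈ H, σ • fam start = A := by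
    intro A hA hk
    obtain ⟨a, ha, rfl⟩ := h.surj hA
    rw [kindF_fam hB (h.canon_of ha)] at hk
    obtain ⟨b, hb, he⟩ := (testBit_keys key _ (key a)).1 (by
      rw [hkeys, testBit_keys]
      exact ⟨a, List.mem_filter.2 ⟨ha, by simpa using hk⟩, rfl⟩)
    have hmv : ∃ σ ∈ H, σ • fam start = fam b := by
      rcases List.mem_cons.1 hb with rfl | hb
      · exact ⟨1, one_mem _, one_smul _ _⟩
      · exact orbitList_spec (R := fam) (fun g a hg => fam_actFam hg a) H hH' T [start] hT
          (by simpa using ⟨1, one_mem _, one_smul _ _⟩) b hb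
    obtain ⟨σ, hσ, hσb⟩ := hmv
    have hbX : fam b ∈ X := hσb ▸ h.inv σ (Subgroup.mem_inf.1 hσ).1 _ hsX
    obtain ⟨b', hb', e⟩ := h.surj hbX
    have hbU : b ∈ U := fam_inj (h.canon_of hb') (hall b hb) e ▸ hb'
    obtain rfl := (keyInj_spec h.inj).2.2 b hbU a ha he
    exact ⟨σ, hσ, hσb⟩
  refine ⟨hsX, hks, ?_, ?_, ?_⟩
  · ext A
    constructor
    · rintro ⟨⟨⟨σ, hσ⟩, hfix⟩, rfl⟩
      refine ⟨h.inv σ hσ _ hsX, ?_⟩
      have hfix' : σ • fam B = fam B := hfix
      show kindF (fam B) (σ • fam start) = k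
      rw [← hks]
      conv_lhs => rw [← hfix']
      exact kindF_smul σ _ _
    · rintro ⟨hA, hk⟩
      obtain ⟨σ, hσ, he⟩ := hreach A hA hk
      exact ⟨⟨⟨σ, (Subgroup.mem_inf.1 hσ).1⟩, (Subgroup.mem_inf.1 hσ).2⟩, he⟩
  · rw [h.ncard_sep (fun a => kindL B a == k) (fun A => kindF (fam B) A = k)
      (fun a ha => by rw [kindF_fam hB (h.canon_of ha)]; simp), hn]
  · intro A hA hk A' hA' hk'
    obtain ⟨σ, hσ, he⟩ := hreach A hA hk
    obtain ⟨τ, hτ, he'⟩ := hreach A' hA' hk'
    refine ⟨τ * σ⁻¹, mul_mem (Subgroup.mem_inf.1 hτ).1 (inv_mem (Subgroup.mem_inf.1 hσ).1), ?_,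
      by rw [← he, mul_smul, inv_smul_smul, he']⟩
    exact (Subgroup.mem_inf.1 (mul_mem hτ (inv_mem hσ))).2

theorem kinds_cover {X : Set (Finset (Finset GolayPt))} {U : List (List ℕ)}
    {isU : List ℕ → Bool} {key : List ℕ → ℕ} (h : IsModel X U isU key) {B : List ℕ}
    (hB : canon B = true) {ks : List ℕ} (hks : U.all (fun a => ks.elem (kindL B a)) = true)
    {A : Finset (Finset GolayPt)} (hA : A ∈ X) : kindF (fam B) A ∈ ks := by
  obtain ⟨a, ha, rfl⟩ := h.surj hA
  rw [kindF_fam hB (h.canon_of ha)]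
  simpa using List.all_eq_true.1 hks a ha

/-- Moving an orbit with the configuration. -/
theorem orbit_stab_smul {G α β : Type*} [Group G] [MulAction G α] [MulAction G β]
    (g : G) (a : α) (b : β) :
    MulAction.orbit (MulAction.stabilizer G (g • a)) (g • b) =
      (fun x => g • x) '' MulAction.orbit (MulAction.stabilizer G a) b := by
  ext x
  simp only [Set.mem_image, MulAction.orbit, Set.mem_range]
  constructor
  · rintro ⟨⟨h, hh⟩, rfl⟩
    rw [MulAction.mem_stabilizer_iff] at hh
    refine ⟨_, ⟨⟨g⁻¹ * h * g, ?_⟩, rfl⟩, ?_⟩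
    · rw [MulAction.mem_stabilizer_iff, mul_smul, mul_smul, hh, inv_smul_smul]
    · simp [Subgroup.smul_def, mul_smul]
  · rintro ⟨_, ⟨⟨h, hh⟩, rfl⟩, rfl⟩
    rw [MulAction.mem_stabilizer_iff] at hh
    refine ⟨⟨g * h * g⁻¹, ?_⟩, ?_⟩
    · rw [MulAction.mem_stabilizer_iff, mul_smul, mul_smul, inv_smul_smul, hh]
    · simp [Subgroup.smul_def, mul_smul]

/-- The class of kind `k` relative to an arbitrary family in the orbit of a standard one. -/
theorem class_transfer {X : Set (Finset (Finset GolayPt))} {U : List (List ℕ)}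
    {isU : List ℕ → Bool} {key : List ℕ → ℕ} (h : IsModel X U isU key) {B : List ℕ}
    {gs : List ℕ} {T : List (ℕ × ℕ)} {start : List ℕ} {k n : ℕ}
    (hc : kindCover B gs T start U isU key k n = true) {B' : Finset (Finset GolayPt)}
    (hmove : ∃ σ ∈ M24, σ • fam B = B') :
    {A | A ∈ X ∧ kindF B' A = k}.ncard = n ∧
      (∀ A ∈ X, kindF B' A = k → ∀ A' ∈ X, kindF B' A' = k →
        ∃ σ ∈ M24, σ • B' = B' ∧ σ • A = A') ∧
      ∃ A, A ∈ X ∧ MulAction.orbit (MulAction.stabilizer M24 B') A =
        {A | A ∈ X ∧ kindF B' A = k} := by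
  obtain ⟨hsX, -, horb, hn, htr⟩ := kind_orbit h hc
  obtain ⟨σ, hσ, rfl⟩ := hmove
  have himg : {A | A ∈ X ∧ kindF (σ • fam B) A = k} =
      (fun A : Finset (Finset GolayPt) => σ • A) '' {A | A ∈ X ∧ kindF (fam B) A = k} := by
    ext A
    simp only [Set.mem_ofPred_eq, Set.mem_image]
    constructor
    · rintro ⟨hA, hk⟩
      refine ⟨σ⁻¹ • A, ⟨h.inv _ (inv_mem hσ) A hA, ?_⟩, smul_inv_smul σ A⟩
      rw [← kindF_smul σ, smul_inv_smul]; exact hk
    · rintro ⟨C, ⟨hC, hk⟩, rfl⟩
      exact ⟨h.inv σ hσ C hC, by rw [kindF_smul]; exact hk⟩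
  refine ⟨?_, ?_, σ • fam start, h.inv σ hσ _ hsX, ?_⟩
  · rw [himg, Set.ncard_image_of_injective _ (MulAction.injective σ), hn]
  · intro A hA hk A' hA' hk'
    rw [← smul_inv_smul σ A, kindF_smul] at hk
    rw [← smul_inv_smul σ A', kindF_smul] at hk'
    obtain ⟨τ, hτ, e1, e2⟩ := htr _ (h.inv _ (inv_mem hσ) A hA) hk _ (h.inv _ (inv_mem hσ) A' hA') hk'
    refine ⟨σ * τ * σ⁻¹, mul_mem (mul_mem hσ hτ) (inv_mem hσ), ?_, ?_⟩
    · rw [mul_smul, mul_smul, inv_smul_smul, e1]
    · rw [mul_smul, mul_smul, e2, smul_inv_smul]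
  · rw [himg, ← horb]
    exact orbit_stab_smul (⟨σ, hσ⟩ : M24) (fam B) (fam start)

/-! ### The three universes -/

/-- The sextets' test. -/
def isSextetList (a : List ℕ) : Bool :=
  canon a && a.length == 6 && a.all (fun t => pc t == 4) &&
    a.all (fun t => a.all fun u => t == u || (isCode (t ||| u) && pc (t ||| u) == 8))

/-- The trios' test. -/
def isTrioList (a : List ℕ) : Bool :=
  canon a && a.length == 3 && a.all (fun t => isCode t && pc t == 8) &&
    a.all (fun t => a.all fun u => t == u || t &&& u == 0)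

/-- The octads' test. -/
def isOctList : List ℕ → Bool
  | [m] => isCode m && pc m == 8
  | _ => false

/-- A key for sextets. -/
def sextetKey (a : List ℕ) : ℕ := a.getD 5 0 % 43399

/-- A key for trios. -/
def trioKey (a : List ℕ) : ℕ := (a.getD 2 0 * 977932 + a.getD 1 0) % 1048573

/-- A key for octads. -/
def octKey (a : List ℕ) : ℕ := codeKey (a.getD 0 0)

/-- The octads as one-element families. -/
def octSingles : List (List ℕ) := octList.map fun m => [m]

/-- The set of octads as one-element families. -/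
def octFams : Set (Finset (Finset GolayPt)) :=
  (fun o : Finset GolayPt => ({o} : Finset (Finset GolayPt))) '' octads

theorem sextet_all : sextetList.all isSextetList = true := by decide +kernel

theorem sextet_inj : keyInj sextetKey sextetList 0 = true := by decide +kernel

theorem sextet_len : sextetList.length = 1771 := by decide +kernel

theorem sextet_model : IsModel sextets sextetList isSextetList sextetKey := by
  refine ⟨fun σ hσ A hA => smul_mem_sextets hσ hA, ?_, sextet_all, sextet_inj,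
    by rw [sextets_ncard]; exact sextet_len⟩
  intro a ha
  simp only [isSextetList, Bool.and_eq_true, beq_iff_eq, List.all_eq_true, Bool.or_eq_true] at ha
  obtain ⟨⟨⟨hc, hl⟩, h4⟩, h8⟩ := ha
  refine ⟨hc, by rw [card_fam hc, hl], ?_, ?_⟩
  · intro t ht
    obtain ⟨m, hm, rfl⟩ := mem_fam.1 ht
    rw [card_toSet]; exact h4 m hm
  · intro t ht u hu hne
    obtain ⟨m, hm, rfl⟩ := mem_fam.1 ht
    obtain ⟨m', hm', rfl⟩ := mem_fam.1 hu
    rcases h8 m hm m' hm' with rfl | ⟨hcode, hpc⟩
    · exact absurd rfl hne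
    · rw [← toSet_or]; exact mem_octads.2 ⟨_, mem_octList.2 ⟨hcode, hpc⟩, rfl⟩

theorem trio_all : trioList.all isTrioList = true := by decide +kernel

theorem trio_inj : keyInj trioKey trioList 0 = true := by decide +kernel

theorem trio_len : trioList.length = 3795 := by decide +kernel

theorem trio_model : IsModel trios trioList isTrioList trioKey := by
  refine ⟨fun σ hσ A hA => smul_mem_trios hσ hA, ?_, trio_all, trio_inj,
    by rw [trios_ncard]; exact trio_len⟩
  intro a ha
  simp only [isTrioList, Bool.and_eq_true, beq_iff_eq, List.all_eq_true, Bool.or_eq_true] at ha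
  obtain ⟨⟨⟨hc, hl⟩, h8⟩, hd⟩ := ha
  refine ⟨hc, by rw [card_fam hc, hl], ?_, ?_⟩
  · intro t ht
    obtain ⟨m, hm, rfl⟩ := mem_fam.1 ht
    exact mem_octads.2 ⟨m, mem_octList.2 (h8 m hm), rfl⟩
  · intro t ht u hu hne
    obtain ⟨m, hm, rfl⟩ := mem_fam.1 ht
    obtain ⟨m', hm', rfl⟩ := mem_fam.1 hu
    rcases hd m hm m' hm' with rfl | h0
    · exact absurd rfl hne
    · exact (toSet_disjoint (lt_of_isCode (h8 m hm).1)).2 h0

theorem oct_all : octSingles.all isOctList = true := by decide +kernel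

theorem oct_inj : keyInj octKey octSingles 0 = true := by decide +kernel

theorem oct_len : octSingles.length = 759 := by decide +kernel

theorem oct_model : IsModel octFams octSingles isOctList octKey := by
  refine ⟨?_, ?_, oct_all, oct_inj, ?_⟩
  · rintro σ hσ _ ⟨o, ho, rfl⟩
    exact ⟨σ • o, smul_mem_octads hσ ho, (Finset.smul_finset_singleton (a := σ) (b := o)).symm⟩
  · intro a ha
    match a, ha with
    | [m], ha =>
      simp only [isOctList, Bool.and_eq_true, beq_iff_eq] at ha
      have hm := mem_octList.2 ha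
      exact ⟨by simp [canon, incr, lt_octList hm], toSet m, mem_octads.2 ⟨m, hm, rfl⟩,
        by simp [fam]⟩
  · rw [octFams, Set.ncard_image_of_injective _ Finset.singleton_injective, octads_ncard]
    exact oct_len

end Cfsg.Agent.Lib.Golay
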