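import Cfsg.Agent.Lib.Golay.Classes
import Cfsg.Agent.Lib.Golay.Kinds

/-! # Blocks fixed by an element of the code's group -/

set_option autoImplicit false
set_option maxRecDepth 100000

namespace Cfsg.Agent.Lib.Golay

open Cfsg
open scoped Pointwise

/-- Conjugate elements fix equally many objects of an invariant class. -/
theorem fixed_conj {α : Type*} [MulAction (Equiv.Perm GolayPt) α] {X : Set α}
    (hX : ∀ σ ∈ M24, ∀ a ∈ X, σ • a ∈ X) {c g r : Equiv.Perm GolayPt} (hc : c ∈ M24)
    (h : c * g * c⁻¹ = r) :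
    {a | a ∈ X ∧ g • a = a}.ncard = {a | a ∈ X ∧ r • a = a}.ncard := by
  have himg : {a | a ∈ X ∧ r • a = a} = (fun a : α => c • a) '' {a | a ∈ X ∧ g • a = a} := by
    subst h
    ext a
    simp only [Set.mem_image, Set.mem_ofPred_eq]
    constructor
    · rintro ⟨ha, he⟩
      refine ⟨c⁻¹ • a, ⟨hX _ (inv_mem hc) a ha, ?_⟩, smul_inv_smul c a⟩
      conv_rhs => rw [← he]
      simp [mul_smul]
    · rintro ⟨b, ⟨hb, he⟩, rfl⟩
      exact ⟨hX c hc b hb, by rw [mul_smul, mul_smul, inv_smul_smul, he]⟩
  rw [himg, Set.ncard_image_of_injective _ (MulAction.injective c)]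

theorem fixed_octads {r : ℕ} (hv : valid r = true) :
    {o | o ∈ octads ∧ toPerm r • o = o}.ncard = (octList.filter fun m => act r m == m).length :=
  ncard_octads _ _ fun m hm => by
    rw [smul_toSet hv, beq_iff_eq]
    exact ⟨fun e => by rw [e], fun e => eq_of_toSet_eq (act_lt hv m) (lt_octList hm) e⟩

theorem fixed_dodecads {r : ℕ} (hv : valid r = true) :
    {o | o ∈ dodecads ∧ toPerm r • o = o}.ncard = (dodList.filter fun m => act r m == m).length :=
  ncard_dodecads _ _ fun m hm => by
    rw [smul_toSet hv, beq_iff_eq]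
    exact ⟨fun e => by rw [e], fun e => eq_of_toSet_eq (act_lt hv m) (lt_dodList hm) e⟩

/-- A coded family is preserved. -/
def famFix (r : ℕ) (a : List ℕ) : Bool := a.all fun t => a.elem (act r t)

theorem IsModel.fixed {X : Set (Finset (Finset GolayPt))} {U : List (List ℕ)}
    {isU : List ℕ → Bool} {key : List ℕ → ℕ} (h : IsModel X U isU key) {r : ℕ}
    (hv : valid r = true) :
    {A | A ∈ X ∧ toPerm r • A = A}.ncard = (U.filter (famFix r)).length := by
  refine h.ncard_sep _ _ fun a ha => ?_
  have hc := h.canon_of ha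
  simp only [canon, Bool.and_eq_true, List.all_eq_true, Nat.blt_eq] at hc
  simp only [famFix, List.all_eq_true, List.elem_eq_mem, decide_eq_true_eq]
  constructor
  · intro hq
    refine Finset.eq_of_subset_of_card_le ?_ (by rw [Finset.card_smul_finset])
    intro s hs
    obtain ⟨_, hu, rfl⟩ := Finset.mem_smul_finset.1 hs
    obtain ⟨t, ht, rfl⟩ := mem_fam.1 hu
    exact mem_fam.2 ⟨_, hq t ht, (smul_toSet hv t).symm⟩
  · intro he t ht
    have : toPerm r • toSet t ∈ fam a :=
      he ▸ Finset.smul_mem_smul_finset (mem_fam.2 ⟨t, ht, rfl⟩)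
    rw [smul_toSet hv] at this
    obtain ⟨b, hb, e⟩ := mem_fam.1 this
    rwa [← eq_of_toSet_eq (hc.2 b hb) (act_lt hv t) e]

theorem counts2A : (octList.filter fun m => act rep2A m == m).length = 71 ∧
    (trioList.filter (famFix rep2A)).length = 99 ∧
    (sextetList.filter (famFix rep2A)).length = 91 := by
  refine ⟨?_, ?_, ?_⟩ <;> decide +kernel

theorem counts2B : (octList.filter fun m => act rep2B m == m).length = 15 ∧
    (trioList.filter (famFix rep2B)).length = 75 ∧
    (sextetList.filter (famFix rep2B)).length = 51 := by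
  refine ⟨?_, ?_, ?_⟩ <;> decide +kernel

theorem counts3A : (octList.filter fun m => act rep3A m == m).length = 21 ∧
    (trioList.filter (famFix rep3A)).length = 15 ∧
    (sextetList.filter (famFix rep3A)).length = 16 ∧
    (dodList.filter fun m => act rep3A m == m).length = 20 := by
  refine ⟨?_, ?_, ?_, ?_⟩ <;> decide +kernel

theorem counts3B : (sextetList.filter (famFix rep3B)).length = 7 ∧
    (trioList.filter (famFix rep3B)).length = 15 := by
  refine ⟨?_, ?_⟩ <;> decide +kernel

end Cfsg.Agent.Lib.Golay
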