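import Cfsg.Agent.Lib.Golay.Hexacode
import Mathlib.GroupTheory.SpecificGroups.Alternating

/-! # Monomial automorphisms of the hexacode -/

set_option autoImplicit false
set_option maxRecDepth 100000

namespace Cfsg.Agent.Lib.Golay

open Cfsg Equiv

/-- The nonzero code of a scalar. -/
def qUnit (s : Fin 3) : Fin 4 := ⟨(s : ℕ) + 1, by omega⟩

/-- The base four key of a word of codes. -/
def qKey (w : Fin 6 → Fin 4) : ℕ :=
  (w 0 : ℕ) + 4 * w 1 + 16 * w 2 + 64 * w 3 + 256 * w 4 + 1024 * w 5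

/-- The keys of the codewords. -/
def qKeys : List ℕ :=
  [0, 85, 170, 255, 286, 331, 436, 481, 551, 626, 653, 728, 825, 876,
    915, 966, 1051, 1102, 1201, 1252, 1285, 1360, 1455, 1530, 1596, 1641, 1686, 1731,
    1826, 1911, 1928, 2013, 2093, 2168, 2183, 2258, 2355, 2406, 2457, 2508, 2570, 2655,
    2720, 2805, 2836, 2881, 3006, 3051, 3126, 3171, 3228, 3273, 3368, 3453, 3458, 3543, 3601, 3652, 3771, 3822, 3855, 3930, 4005, 4080]

/-- The generators as lists. -/
def qRows : List (List ℕ) := [[2, 3, 3, 2, 3, 2], [3, 2, 2, 3, 3, 2], [3, 2, 3, 2, 2, 3]]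

/-- A scalar exponent times a code. -/
def qScale (s v : ℕ) : ℕ := if Nat.beq v 0 then 0 else (s + v + 2) % 3 + 1

/-- A monomial map on codes sends the generators into the code. -/
def qPresN (inv c : List ℕ) : Bool :=
  qRows.all fun r =>
    let g := fun i => qScale (c.getD i 0) (r.getD (inv.getD i 0) 0)
    qKeys.elem (g 0 + 4 * g 1 + 16 * g 2 + 64 * g 3 + 256 * g 4 + 1024 * g 5)

/-- The same on functions. -/
def qPres (inv : Fin 6 → Fin 6) (c : Fin 6 → Fin 3) : Bool :=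
  qPresN (List.ofFn fun i => (inv i : ℕ)) (List.ofFn fun i => (c i : ℕ))

theorem qScale_eq : ∀ (s : Fin 3) (v : Fin 4), (qMul (qUnit s) v : ℕ) = qScale s v := by decide

theorem qRows_eq : ∀ (j : Fin 3) (i : Fin 6), (qRows.getD j []).getD i 0 = (hexRow j i : ℕ) := by
  decide

theorem qPres_eq (inv : Fin 6 → Fin 6) (c : Fin 6 → Fin 3) : qPres inv c = true ↔
    ∀ j : Fin 3, qKey (fun i => qMul (qUnit (c i)) (hexRow j (inv i))) ∈ qKeys := by
  have hj : ∀ j : Fin 3, qKey (fun i => qMul (qUnit (c i)) (hexRow j (inv i))) =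
      (let g := fun i => qScale ((List.ofFn fun i => (c i : ℕ)).getD i 0)
        ((qRows.getD j []).getD ((List.ofFn fun i => (inv i : ℕ)).getD i 0) 0)
       g 0 + 4 * g 1 + 16 * g 2 + 64 * g 3 + 256 * g 4 + 1024 * g 5) := by
    intro j
    simp only [qKey, qScale_eq, ← qRows_eq]
    rfl
  simp only [qPres, qPresN, List.all_eq_true, List.elem_iff, hj]
  constructor
  · intro h j
    have hm : qRows.getD j [] ∈ qRows := by fin_cases j <;> simp [qRows]
    exact h _ hm
  · intro h r hr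
    simp only [qRows, List.mem_cons, List.not_mem_nil, or_false] at hr
    rcases hr with rfl | rfl | rfl
    exacts [h 0, h 1, h 2]

/-- Inverse permutations and scalar exponents for the three-cycles. -/
def hexThree : List (List ℕ × List ℕ) :=
  [([0,1,2,5,3,4], [0,1,2,2,2,2]),
    ([0,1,2,4,5,3], [0,2,1,1,1,1]),
    ([0,1,4,2,3,5], [0,2,1,1,1,1]),
    ([0,1,5,2,4,3], [0,1,2,2,2,2]),
    ([0,1,3,4,2,5], [0,1,2,2,2,2]),
    ([0,1,5,3,2,4], [0,2,1,1,1,1]),
    ([0,1,3,5,4,2], [0,2,1,1,1,1]),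
    ([0,1,4,3,5,2], [0,1,2,2,2,2]),
    ([0,3,1,2,4,5], [0,0,0,0,1,2]),
    ([0,4,1,3,2,5], [0,2,1,2,0,1]),
    ([0,5,1,3,4,2], [0,1,2,1,2,0]),
    ([0,2,3,1,4,5], [0,0,0,0,2,1]),
    ([0,4,2,1,3,5], [0,1,1,2,0,2]),
    ([0,5,2,1,4,3], [0,2,2,1,1,0]),
    ([0,2,4,3,1,5], [0,2,0,1,1,2]),
    ([0,3,2,4,1,5], [0,1,2,0,2,1]),
    ([0,5,2,3,1,4], [0,0,1,2,0,0]),
    ([0,2,5,3,4,1], [0,1,0,2,1,2]),
    ([0,3,2,5,4,1], [0,2,1,0,2,1]),
    ([0,4,2,3,5,1], [0,0,2,1,0,0]),
    ([2,0,1,3,4,5], [0,0,0,0,2,1]),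
    ([3,0,2,1,4,5], [0,0,0,0,1,2]),
    ([4,0,2,3,1,5], [0,0,2,1,0,0]),
    ([5,0,2,3,4,1], [0,0,1,2,0,0]),
    ([1,2,0,3,4,5], [0,0,0,0,1,2]),
    ([3,1,0,2,4,5], [0,0,0,0,2,1]),
    ([4,1,0,3,2,5], [0,2,1,0,2,1]),
    ([5,1,0,3,4,2], [0,1,2,0,2,1]),
    ([1,3,2,0,4,5], [0,0,0,0,2,1]),
    ([2,1,3,0,4,5], [0,0,0,0,1,2]),
    ([4,1,2,0,3,5], [0,1,0,2,1,2]),
    ([5,1,2,0,4,3], [0,2,0,1,1,2]),
    ([1,4,2,3,0,5], [0,0,1,2,0,0]),
    ([2,1,4,3,0,5], [0,2,2,1,1,0]),
    ([3,1,2,4,0,5], [0,1,2,1,2,0]),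
    ([5,1,2,3,0,4], [0,0,2,1,0,0]),
    ([1,5,2,3,4,0], [0,0,2,1,0,0]),
    ([2,1,5,3,4,0], [0,1,1,2,0,2]),
    ([3,1,2,5,4,0], [0,2,1,2,0,1]),
    ([4,1,2,3,5,0], [0,0,1,2,0,0])]

theorem hexThree_pres : hexThree.all (fun e => qPresN e.1 e.2 &&
    e.2.all (Nat.blt · 3) && Nat.beq e.1.length 6 && Nat.beq e.2.length 6) = true := by decide +kernel

/-- All triples of different points are the inverses of listed entries. -/
theorem hexTriples : ((List.range 6).all fun a => (List.range 6).all fun b =>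
    (List.range 6).all fun c => Nat.beq a b || Nat.beq a c || Nat.beq b c ||
      hexThree.any fun e => (List.range 6).all fun i =>
        Nat.beq (e.1.getD i 0)
          (if Nat.beq i b then a else if Nat.beq i c then b else if Nat.beq i a then c else i)) =
      true := by
  decide +kernel

/-- All vectors of scalar exponents. -/
def qVecs : List (List ℕ) :=
  let L := [0, 1, 2]
  L.flatMap fun a => L.flatMap fun b => L.flatMap fun c => L.flatMap fun d => L.flatMap fun e =>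
    L.map fun f => [a, b, c, d, e, f]

theorem mem_qVecs (c : Fin 6 → Fin 3) : (List.ofFn fun i => (c i : ℕ)) ∈ qVecs := by
  have h : ∀ s : Fin 3, (s : ℕ) ∈ [0, 1, 2] := by decide
  simp only [qVecs, List.mem_flatMap, List.mem_map]
  exact ⟨_, h (c 0), _, h (c 1), _, h (c 2), _, h (c 3), _, h (c 4), _, h (c 5), rfl⟩

theorem hexSwap_all : qVecs.all (fun c => !qPresN [1, 0, 2, 3, 4, 5] c) = true := by
  decide +kernel

theorem hexSwap (c : Fin 6 → Fin 3) : qPres (Equiv.swap 0 1) c = false := by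
  have h := List.all_eq_true.1 hexSwap_all _ (mem_qVecs c)
  rw [Bool.not_eq_true'] at h
  rw [qPres, show (List.ofFn fun i => ((Equiv.swap (0 : Fin 6) 1) i : ℕ)) = [1, 0, 2, 3, 4, 5] by
    decide]
  exact h

theorem hexDiag_all : qVecs.all (fun c => !qPresN [0, 1, 2, 3, 4, 5] c ||
    c.all fun x => Nat.beq x (c.getD 0 0)) = true := by decide +kernel

theorem hexDiag (c : Fin 6 → Fin 3) (h : qPres id c = true) (i : Fin 6) : c i = c 0 := by
  have h' := List.all_eq_true.1 hexDiag_all _ (mem_qVecs c)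
  rw [qPres, show (List.ofFn fun i => ((id : Fin 6 → Fin 6) i : ℕ)) = [0, 1, 2, 3, 4, 5] by decide] at h
  simp only [h, Bool.not_true, Bool.false_or, List.all_eq_true, Nat.beq_eq, List.mem_ofFn,
    forall_exists_index, forall_apply_eq_imp_iff] at h'
  exact Fin.ext ((h' i).trans rfl)

theorem hexThree_all (σ : Perm (Fin 6)) (h : σ.IsThreeCycle) :
    ∃ c, qPres σ.symm c = true := by
  obtain ⟨a, ha⟩ : ∃ a, a ∈ σ.support := Finset.card_pos.1 (by rw [h.card_support]; norm_num)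
  have hab : a ≠ σ a := Ne.symm (Perm.mem_support.1 ha)
  have hbc : σ a ≠ σ (σ a) := fun e => hab (σ.injective e)
  have h3 : σ ^ 3 = 1 := by rw [← h.orderOf]; exact pow_orderOf_eq_one σ
  have h3' : ∀ x, σ (σ (σ x)) = x := fun x => by
    have := DFunLike.congr_fun h3 x
    simpa [pow_succ] using this
  have hac : a ≠ σ (σ a) := fun e => hab (by
    conv_rhs => rw [e]
    rw [h3'])
  have hsup : σ.support = {a, σ a, σ (σ a)} := by
    refine (Finset.eq_of_subset_of_card_le ?_ ?_).symm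
    · simp only [Finset.insert_subset_iff, Finset.singleton_subset_iff, Perm.apply_mem_support]
      exact ⟨ha, ha, ha⟩
    · rw [h.card_support, Finset.card_eq_three.2 ⟨_, _, _, hab, hac, hbc, rfl⟩]
  have hinv : ∀ i : Fin 6, (σ.symm i : ℕ) = if Nat.beq i (σ a) then (a : ℕ) else
      if Nat.beq i (σ (σ a)) then (σ a : ℕ) else if Nat.beq i a then (σ (σ a) : ℕ) else i := by
    intro i
    simp only [Nat.beq_eq, Fin.val_inj]
    split_ifs with h1 h2 h4
    · rw [h1, σ.symm_apply_apply]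
    · rw [h2, σ.symm_apply_apply]
    · refine congrArg Fin.val (σ.symm_apply_eq.2 ?_)
      rw [h3']; exact h4
    · refine congrArg Fin.val (σ.symm_apply_eq.2 (Perm.notMem_support.1 ?_).symm)
      rw [hsup]; simp [h1, h2, h4]
  have ht := hexTriples
  simp only [List.all_eq_true, List.any_eq_true, Bool.or_eq_true, Nat.beq_eq, Fin.val_inj,
    List.mem_range] at ht
  rcases ht a a.isLt (σ a) (σ a).isLt (σ (σ a)) (σ (σ a)).isLt with ((hh | hh) | hh) | ⟨e, he, hh⟩
  · exact absurd (Fin.ext hh) hab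
  · exact absurd (Fin.ext hh) hac
  · exact absurd (Fin.ext hh) hbc
  have hp := List.all_eq_true.1 hexThree_pres e he
  simp only [Bool.and_eq_true, List.all_eq_true, Nat.beq_eq] at hp
  obtain ⟨⟨⟨hpres, hlt⟩, hl1⟩, hl2⟩ := hp
  refine ⟨fun i => ⟨e.2[(i : ℕ)]'(by omega), by simpa using hlt _ (List.getElem_mem (h := by omega))⟩, ?_⟩
  rw [qPres]
  convert hpres using 2
  · refine List.ext_getElem (by simp [hl1]) fun n h1 h2 => ?_
    have hn : n < 6 := by simpa using h1
    rw [List.getElem_ofFn, hinv ⟨n, hn⟩]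
    have := hh n hn
    rw [List.getD_eq_getElem e.1 0 h2] at this
    simp only [Nat.beq_eq]
    exact this.symm
  · exact List.ext_getElem (by simp [hl2]) fun n h1 h2 => by rw [List.getElem_ofFn]

section

variable {F : Type*} [Field F] [Fintype F] [DecidableEq F] {ω : F}

/-- A monomial map preserves the hexacode. -/
def HPres (ω : F) (σ : Perm (Fin 6)) (c : Fin 6 → Fˣ) : Prop :=
  ∀ x ∈ hexacode F ω, monomialMap σ c x ∈ hexacode F ω

variable (hF : Fintype.card F = 4) (hω : ω ^ 2 + ω + 1 = 0)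

include hF hω

theorem qKeys_iff {w : Fin 6 → Fin 4} : qKey w ∈ qKeys ↔ ∃ a, hexWord a = w := by
  have hinj : ∀ v : Fin 6 → Fin 4, ∀ i : Fin 6, (qKey v / 4 ^ (i : ℕ)) % 4 = v i := by
    intro v i
    have := fun k => (v k).isLt
    fin_cases i <;> simp [qKey] <;> omega
  have hk : ∀ k ∈ qKeys, ∃ a b c : Fin 4, qKey (hexWord ![a, b, c]) = k := by decide +kernel
  have hk' : ∀ a b c : Fin 4, qKey (hexWord ![a, b, c]) ∈ qKeys := by decide +kernel
  constructor
  · intro h
    obtain ⟨a, b, c, h⟩ := hk _ h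
    refine ⟨![a, b, c], funext fun i => Fin.ext ?_⟩
    rw [← hinj w i, ← h, hinj]
  · rintro ⟨a, rfl⟩
    convert hk' (a 0) (a 1) (a 2) using 3
    funext i; fin_cases i <;> rfl

omit hω in
theorem qUnit_ne (s : Fin 3) : qUnit s ≠ 0 := by
  intro h
  have := congrArg Fin.val h
  simp [qUnit] at this

theorem qVal_unit_ne (s : Fin 3) : qVal ω (qUnit s) ≠ 0 := by
  intro h
  have h0 : qVal ω (0 : Fin 4) = 0 := rfl
  exact qUnit_ne hF s ((qVal_bij hF hω).1 (h.trans h0.symm))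

/-- The scalar vector of codes. -/
noncomputable def hUnit (c : Fin 6 → Fin 3) : Fin 6 → Fˣ :=
  fun i => Units.mk0 _ (qVal_unit_ne hF hω (c i))

theorem hUnit_surj (u : Fin 6 → Fˣ) : ∃ c, hUnit hF hω c = u := by
  have : ∀ i, ∃ s, qVal ω (qUnit s) = (u i : F) := by
    intro i
    obtain ⟨a, ha⟩ := (qVal_bij hF hω).2 (u i : F)
    have ha0 : a ≠ 0 := by
      rintro rfl
      exact Units.ne_zero (u i) ha.symm
    have key : ∀ a : Fin 4, a ≠ 0 → ∃ s, qUnit s = a := by decide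
    obtain ⟨s, rfl⟩ := key a ha0
    exact ⟨s, ha⟩
  choose c hc using this
  exact ⟨c, funext fun i => Units.ext (hc i)⟩

theorem qPres_iff {σ : Perm (Fin 6)} {c : Fin 6 → Fin 3} :
    qPres σ.symm c = true ↔ HPres ω σ (hUnit hF hω c) := by
  have h2 := two_eq_zero hF
  have hrow : ∀ j : Fin 3, ∃ a, ∀ i, hexWord a i = hexRow j i := by decide +kernel
  have hm : ∀ a, ∀ i, monomialMap σ (hUnit hF hω c) (hexEnc ω a) i =
      qVal ω (qMul (qUnit (c i)) (hexWord a (σ.symm i))) := fun a i => by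
    rw [(qVal_hom h2 hω _ _).2]; rfl
  simp only [qPres_eq, qKeys_iff hF hω]
  constructor
  · intro h x hx
    obtain ⟨a, rfl⟩ := (mem_hexacode hF hω).1 hx
    have hlin : monomialMap σ (hUnit hF hω c) (hexEnc ω a) = ∑ j, qVal ω (a j) •
        (fun i => qVal ω (qMul (qUnit (c i)) (hexRow j (σ.symm i)))) := by
      funext i
      rw [hm, Fin.sum_univ_three]
      simp only [hexWord, Pi.add_apply, Pi.smul_apply, smul_eq_mul, (qVal_hom h2 hω _ _).2,
        (qVal_hom h2 hω _ _).1]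
      ring
    rw [hlin]
    refine Submodule.sum_mem _ fun j _ => Submodule.smul_mem _ _ ?_
    obtain ⟨b, hb⟩ := h j
    exact (mem_hexacode hF hω).2 ⟨b, funext fun i => congrArg (qVal ω) (congrFun hb i)⟩
  · intro h j
    obtain ⟨a, ha⟩ := hrow j
    obtain ⟨b, hb⟩ := (mem_hexacode hF hω).1 (h _ ((mem_hexacode hF hω).2 ⟨a, rfl⟩))
    refine ⟨b, funext fun i => (qVal_bij hF hω).1 ?_⟩
    have := congrFun hb i
    rw [hm, ha] at this
    exact this

omit hF hω in
theorem hmono_mul (σ τ : Perm (Fin 6)) (c d : Fin 6 → Fˣ) (x : Fin 6 → F) :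
    monomialMap σ c (monomialMap τ d x) = monomialMap (σ * τ) (fun i => c i * d (σ.symm i)) x := by
  funext i
  simp [monomialMap, mul_assoc, Equiv.Perm.mul_def]

omit hF hω in
theorem HPres.mul {σ τ : Perm (Fin 6)} {c d : Fin 6 → Fˣ} (h : HPres ω σ c) (h' : HPres ω τ d) :
    HPres ω (σ * τ) (fun i => c i * d (σ.symm i)) := fun x hx => by
  rw [← hmono_mul]; exact h _ (h' x hx)

omit hF hω in
theorem hpres_units (u : Fˣ) : HPres ω 1 (fun _ => u) := fun x hx => by
  have : monomialMap (1 : Perm (Fin 6)) (fun _ => u) x = (u : F) • x := rfl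
  rw [this]; exact Submodule.smul_mem _ _ hx

theorem hperm_eq : {σ : Perm (Fin 6) | ∃ c, HPres ω σ c} =
    (alternatingGroup (Fin 6) : Set (Perm (Fin 6))) := by
  classical
  let S : Submonoid (Perm (Fin 6)) :=
    { carrier := {σ | ∃ c, HPres ω σ c}
      one_mem' := ⟨_, hpres_units 1⟩
      mul_mem' := fun ⟨_, h⟩ ⟨_, h'⟩ => ⟨_, h.mul h'⟩ }
  have hinvS : ∀ g, g ∈ S → g⁻¹ ∈ S := by
    intro g hg
    have : g⁻¹ = g ^ (orderOf g - 1) := by
      apply inv_eq_of_mul_eq_one_right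
      rw [← pow_succ', Nat.sub_add_cancel (orderOf_pos g), pow_orderOf_eq_one]
    rw [this]; exact pow_mem hg _
  let T : Subgroup (Perm (Fin 6)) := { S with inv_mem' := fun {g} hg => hinvS g hg }
  have hA : alternatingGroup (Fin 6) ≤ T := by
    rw [← Perm.closure_three_cycles_eq_alternating, Subgroup.closure_le]
    intro σ hσ
    obtain ⟨c, hc⟩ := hexThree_all σ hσ
    exact ⟨_, (qPres_iff hF hω).1 hc⟩
  refine Set.Subset.antisymm (fun σ hσ => ?_) fun σ hσ => hA hσ
  by_contra hodd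
  rw [SetLike.mem_coe, Perm.mem_alternatingGroup] at hodd
  have hs : Perm.sign σ = -1 := (Int.units_eq_one_or _).resolve_left hodd
  have hsw : σ * Equiv.swap (0 : Fin 6) 1 ∈ T := hA (by
    rw [Perm.mem_alternatingGroup, map_mul, hs, Perm.sign_swap (by decide)]; decide)
  have h1 : Equiv.swap (0 : Fin 6) 1 ∈ T := by
    have hσT : σ ∈ T := hσ
    simpa using mul_mem (inv_mem hσT) hsw
  obtain ⟨u, hu⟩ := h1
  obtain ⟨c, rfl⟩ := hUnit_surj hF hω u
  have h0 := (qPres_iff hF hω).2 hu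
  rw [Equiv.symm_swap, hexSwap c] at h0
  exact absurd h0 (by simp)

theorem hdiag {c : Fin 6 → Fˣ} (h : HPres ω 1 c) (i j : Fin 6) : c i = c j := by
  obtain ⟨d, rfl⟩ := hUnit_surj hF hω c
  have h0 := (qPres_iff hF hω).2 h
  have := hexDiag d (by simpa [Equiv.Perm.one_def] using h0)
  refine Units.ext ?_
  show qVal ω (qUnit (d i)) = qVal ω (qUnit (d j))
  rw [this i, this j]

theorem hmono_card : Nat.card {f : Perm (Fin 6) × (Fin 6 → Fˣ) // HPres ω f.1 f.2} = 1080 := by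
  classical
  have hS : ∀ σ : alternatingGroup (Fin 6), ∃ c, HPres ω (σ : Perm (Fin 6)) c := fun σ =>
    (Set.ext_iff.1 (hperm_eq hF hω) _).2 σ.2
  choose c₀ hc₀ using hS
  let e : (alternatingGroup (Fin 6) × Fˣ) → {f : Perm (Fin 6) × (Fin 6 → Fˣ) // HPres ω f.1 f.2} :=
    fun p => ⟨((p.1 : Perm (Fin 6)), fun i => p.2 * c₀ p.1 i), by
      have h := (hpres_units p.2).mul (hc₀ p.1)
      rw [one_mul] at h
      simpa [Equiv.Perm.one_def] using h⟩
  have he : Function.Bijective e := by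
    constructor
    · intro p q h
      simp only [e, Subtype.mk.injEq, Prod.mk.injEq] at h
      have h1 : p.1 = q.1 := Subtype.ext h.1
      have h2 := congrFun h.2 0
      rw [h1] at h2
      exact Prod.ext h1 (mul_right_cancel h2)
    · rintro ⟨⟨σ, c⟩, hc⟩
      have hσA : σ ∈ alternatingGroup (Fin 6) := (Set.ext_iff.1 (hperm_eq hF hω) _).1 ⟨c, hc⟩
      have h₀ := hc₀ ⟨σ, hσA⟩
      set d := c₀ ⟨σ, hσA⟩
      have hdiag' : HPres ω 1 (fun i => c i / d i) := by
        intro y hy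
        let m : hexacode F ω → hexacode F ω := fun x => ⟨monomialMap σ d x.1, h₀ _ x.2⟩
        have hm : Function.Injective m := fun a b e => Subtype.ext <| funext fun i => by
          have := congrFun (congrArg Subtype.val e) (σ i)
          simpa [m, monomialMap] using this
        obtain ⟨x, hx⟩ := (Finite.injective_iff_surjective.1 hm) ⟨y, hy⟩
        have hxy : monomialMap σ d x.1 = y := congrArg Subtype.val hx
        rw [← hxy, hmono_mul, one_mul]
        convert hc _ x.2 using 2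
        funext i
        simp [Equiv.Perm.one_def]
      refine ⟨(⟨σ, hσA⟩, c 0 / d 0), Subtype.ext (Prod.ext rfl (funext fun i => ?_))⟩
      show c 0 / d 0 * d i = c i
      rw [← hdiag hF hω hdiag' i 0, div_mul_cancel]
  rw [← Nat.card_congr (Equiv.ofBijective e he), Nat.card_prod, nat_card_alternatingGroup,
    Nat.card_units, Nat.card_fin, Nat.card_eq_fintype_card, hF]
  decide

end

end Cfsg.Agent.Lib.Golay
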