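import Cfsg.Prelude.Def_SporadicCombinatorics

/-! # The hexacode through the addition and multiplication tables of the field of order four -/

set_option autoImplicit false
set_option maxRecDepth 100000

namespace Cfsg.Agent.Lib.Golay

open Cfsg

/-- Addition on the codes 0, 1, 2, 3 of `0, 1, ω, ω²`. -/
def qAdd (a b : Fin 4) : Fin 4 := ![![0, 1, 2, 3], ![1, 0, 3, 2], ![2, 3, 0, 1], ![3, 2, 1, 0]] a b

/-- Multiplication on the codes. -/
def qMul (a b : Fin 4) : Fin 4 := ![![0, 0, 0, 0], ![0, 1, 2, 3], ![0, 2, 3, 1], ![0, 3, 1, 2]] a b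

/-- The three generators on codes. -/
def hexRow (j : Fin 3) : Fin 6 → Fin 4 :=
  ![![2, 3, 3, 2, 3, 2], ![3, 2, 2, 3, 3, 2], ![3, 2, 3, 2, 2, 3]] j

/-- A codeword on codes. -/
def hexWord (a : Fin 3 → Fin 4) (i : Fin 6) : Fin 4 :=
  qAdd (qAdd (qMul (a 0) (hexRow 0 i)) (qMul (a 1) (hexRow 1 i))) (qMul (a 2) (hexRow 2 i))

/-- The weight on codes. -/
def hexWt (a : Fin 3 → Fin 4) : ℕ := (Finset.univ.filter fun i => hexWord a i ≠ 0).card

theorem hex_table : ∀ a : Fin 3 → Fin 4, a ≠ 0 → hexWt a = 4 ∨ hexWt a = 6 := by decide +kernel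

theorem hex_counts : (Finset.univ.filter fun a : Fin 3 → Fin 4 => hexWt a = 4).card = 45 ∧
    (Finset.univ.filter fun a : Fin 3 → Fin 4 => hexWt a = 6).card = 18 := by decide +kernel

theorem hexWord_inj : ∀ a : Fin 3 → Fin 4, (∀ i, hexWord a i = 0) → a = 0 := by decide +kernel

theorem hexWord_add : ∀ a b : Fin 3 → Fin 4, ∀ i, qAdd (hexWord a i) (hexWord b i) =
    hexWord (fun j => qAdd (a j) (b j)) i := by decide +kernel

section

variable {F : Type*} [Field F]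

/-- The field element of a code. -/
def qVal (ω : F) (a : Fin 4) : F := ![0, 1, ω, ω ^ 2] a

theorem two_eq_zero [Fintype F] (hF : Fintype.card F = 4) : (2 : F) = 0 := by
  have h : ((4 : ℕ) : F) = 0 := by rw [← hF]; exact FiniteField.cast_card_eq_zero F
  have : (2 : F) * 2 = 0 := by rw [← h]; norm_num
  rcases mul_eq_zero.1 this with h | h <;> exact h

variable {ω : F}

theorem qVal_hom (h2 : (2 : F) = 0) (hω : ω ^ 2 + ω + 1 = 0) (a b : Fin 4) :
    qVal ω (qAdd a b) = qVal ω a + qVal ω b ∧ qVal ω (qMul a b) = qVal ω a * qVal ω b := by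
  fin_cases a <;> fin_cases b <;> simp [qVal, qAdd, qMul] <;> grind

theorem qVal_inj (h2 : (2 : F) = 0) (hω : ω ^ 2 + ω + 1 = 0) :
    Function.Injective (qVal ω) := by
  intro a b h
  have h1 : (1 : F) ≠ 0 := one_ne_zero
  have h3 : ω ≠ 1 := fun e => h1 (by subst e; linear_combination hω - h2)
  have h4 : ω ≠ 0 := fun e => h1 (by subst e; linear_combination hω)
  fin_cases a <;> fin_cases b <;> simp [qVal] at h ⊢ <;> grind

theorem qVal_bij [Fintype F] (hF : Fintype.card F = 4) (hω : ω ^ 2 + ω + 1 = 0) :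
    Function.Bijective (qVal ω) :=
  (Fintype.bijective_iff_injective_and_card _).2
    ⟨qVal_inj (two_eq_zero hF) hω, by rw [hF]; rfl⟩

/-- The word of a triple. -/
def hexEnc (ω : F) (a : Fin 3 → Fin 4) : Fin 6 → F := fun i => qVal ω (hexWord a i)

theorem hexEnc_eq (h2 : (2 : F) = 0) (hω : ω ^ 2 + ω + 1 = 0) (a : Fin 3 → Fin 4) :
    hexEnc ω a = qVal ω (a 0) • ![ω, ω ^ 2, ω ^ 2, ω, ω ^ 2, ω] +
      qVal ω (a 1) • ![ω ^ 2, ω, ω, ω ^ 2, ω ^ 2, ω] +
      qVal ω (a 2) • ![ω ^ 2, ω, ω ^ 2, ω, ω, ω ^ 2] := by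
  funext i
  simp only [hexEnc, hexWord, (qVal_hom h2 hω _ _).1, (qVal_hom h2 hω _ _).2, Pi.add_apply,
    Pi.smul_apply, smul_eq_mul]
  fin_cases i <;> simp [hexRow, qVal]

theorem mem_hexacode [Fintype F] (hF : Fintype.card F = 4) (hω : ω ^ 2 + ω + 1 = 0)
    {x : Fin 6 → F} : x ∈ hexacode F ω ↔ ∃ a, hexEnc ω a = x := by
  have h2 := two_eq_zero hF
  rw [hexacode, Submodule.mem_span_insert]
  simp only [Submodule.mem_span_pair]
  constructor
  · rintro ⟨a, z, ⟨b, c, rfl⟩, rfl⟩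
    obtain ⟨a', rfl⟩ := (qVal_bij hF hω).2 a
    obtain ⟨b', rfl⟩ := (qVal_bij hF hω).2 b
    obtain ⟨c', rfl⟩ := (qVal_bij hF hω).2 c
    exact ⟨![a', b', c'], by rw [hexEnc_eq h2 hω, add_assoc]; simp⟩
  · rintro ⟨a, rfl⟩
    exact ⟨_, _, ⟨_, _, rfl⟩, by rw [hexEnc_eq h2 hω, add_assoc]⟩

theorem hexEnc_inj [Fintype F] (hF : Fintype.card F = 4) (hω : ω ^ 2 + ω + 1 = 0) :
    Function.Injective (hexEnc ω) := by
  intro a b h
  have hself : ∀ z : Fin 4, qAdd z z = 0 := by decide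
  have hz : ∀ i, hexWord (fun j => qAdd (a j) (b j)) i = 0 := fun i => by
    rw [← hexWord_add, (qVal_bij hF hω).1 (congrFun h i), hself]
  have := hexWord_inj _ hz
  funext j
  have hj := congrFun this j
  have : ∀ x y : Fin 4, qAdd x y = 0 → x = y := by decide
  exact this _ _ hj

theorem hexEnc_wt [Fintype F] [DecidableEq F] (hF : Fintype.card F = 4)
    (hω : ω ^ 2 + ω + 1 = 0) (a : Fin 3 → Fin 4) :
    (Finset.univ.filter fun i => hexEnc ω a i ≠ 0).card = hexWt a := by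
  refine congrArg Finset.card (Finset.filter_congr fun i _ => ?_)
  rw [hexEnc, ne_eq, ne_eq, not_iff_not, ← (qVal_bij hF hω).1.eq_iff (b := 0)]
  simp [qVal]

theorem hexacode_ncard [Fintype F] [DecidableEq F] (hF : Fintype.card F = 4)
    (hω : ω ^ 2 + ω + 1 = 0) (k : ℕ) :
    {x | x ∈ hexacode F ω ∧ (Finset.univ.filter fun i => x i ≠ 0).card = k}.ncard =
      (Finset.univ.filter fun a : Fin 3 → Fin 4 => hexWt a = k).card := by
  classical
  have : {x | x ∈ hexacode F ω ∧ (Finset.univ.filter fun i => x i ≠ 0).card = k} =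
      ↑((Finset.univ.filter fun a : Fin 3 → Fin 4 => hexWt a = k).image (hexEnc ω)) := by
    ext x
    simp only [Finset.coe_image, Set.mem_image, Finset.coe_filter, Finset.mem_univ, true_and,
      Set.mem_ofPred_eq, mem_hexacode hF hω]
    constructor
    · rintro ⟨⟨a, rfl⟩, h⟩; exact ⟨a, (hexEnc_wt hF hω a) ▸ h, rfl⟩
    · rintro ⟨a, h, rfl⟩; exact ⟨⟨a, rfl⟩, by rw [hexEnc_wt hF hω]; exact h⟩
  rw [this, Set.ncard_coe_finset, Finset.card_image_of_injective _ (hexEnc_inj hF hω)]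

end

end Cfsg.Agent.Lib.Golay
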