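import Cfsg.Agent.Lib.Golay.Kinds
import Cfsg.Agent.Lib.Golay.FamData

/-! # Certificates for the orbits on families -/

set_option autoImplicit false
set_option maxRecDepth 100000

namespace Cfsg.Agent.Lib.Golay

theorem oS35_cover :
    kindCover oBase oS35Gens oS35Tree oS35Start
      sextetList isSextetList sextetKey 32 35 = true := by
  decide +kernel

theorem oS840_cover :
    kindCover oBase oS840Gens oS840Tree oS840Start
      sextetList isSextetList sextetKey 16 840 = true := by
  decide +kernel

theorem oS896_cover :
    kindCover oBase oS896Gens oS896Tree oS896Start
      sextetList isSextetList sextetKey 14 896 = true := by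
  decide +kernel

theorem oS_all :
    sextetList.all (fun a => [32, 16, 14].elem (kindL oBase a)) = true := by
  decide +kernel

theorem oT15_cover :
    kindCover oBase oT15Gens oT15Tree oT15Start
      trioList isTrioList trioKey 64 15 = true := by
  decide +kernel

theorem oT420_cover :
    kindCover oBase oT420Gens oT420Tree oT420Start
      trioList isTrioList trioKey 32 420 = true := by
  decide +kernel

theorem oT3360_cover :
    kindCover oBase oT3360Gens oT3360Tree oT3360Start
      trioList isTrioList trioKey 24 3360 = true := by
  decide +kernel

theorem oT_all :
    trioList.all (fun a => [64, 32, 24].elem (kindL oBase a)) = true := by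
  decide +kernel

theorem dS396_cover :
    kindCover dBase dS396Gens dS396Tree dS396Start
      sextetList isSextetList sextetKey 48 396 = true := by
  decide +kernel

theorem dS495_cover :
    kindCover dBase dS495Gens dS495Tree dS495Start
      sextetList isSextetList sextetKey 64 495 = true := by
  decide +kernel

theorem dS880_cover :
    kindCover dBase dS880Gens dS880Tree dS880Start
      sextetList isSextetList sextetKey 60 880 = true := by
  decide +kernel

theorem dS_all :
    sextetList.all (fun a => [48, 64, 60].elem (kindL dBase a)) = true := by
  decide +kernel

theorem yS21_cover :
    kindCover yBase yS21Gens yS21Tree yS21Start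
      sextetList isSextetList sextetKey 9 21 = true := by
  decide +kernel

theorem yS630_cover :
    kindCover yBase yS630Gens yS630Tree yS630Start
      sextetList isSextetList sextetKey 5 630 = true := by
  decide +kernel

theorem yS1120_cover :
    kindCover yBase yS1120Gens yS1120Tree yS1120Start
      sextetList isSextetList sextetKey 3 1120 = true := by
  decide +kernel

theorem yS_all :
    sextetList.all (fun a => [9, 5, 3].elem (kindL yBase a)) = true := by
  decide +kernel

end Cfsg.Agent.Lib.Golay
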