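import Cfsg.Agent.Lib.Golay.M11Sub
import Cfsg.Agent.Lib.JordanSharp.Main
import Cfsg.Agent.S0679
import Mathlib.GroupTheory.Solvable

/-! # The stabiliser of a dodecad, a point of it and a point outside is `PSL(2,11)` -/

set_option autoImplicit false

namespace Cfsg.Agent.Lib.Golay

open Cfsg MulAction

theorem not_solvable_660 {G X : Type} [Group G] [Finite G] [MulAction G X] [Fintype X]
    [FaithfulSMul G X] [IsPretransitive G X] (hX : Fintype.card X = 11) (hG : Nat.card G = 660) :
    ¬ Group.IsSolvable G := by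
  intro hs
  haveI : Fact (11 : ℕ).Prime := ⟨by norm_num⟩
  haveI : IsPreprimitive G X :=
    IsPreprimitive.of_prime_card (by rw [Nat.card_eq_fintype_card, hX]; norm_num)
  obtain ⟨a⟩ : Nonempty X := Fintype.card_pos_iff.1 (by omega)
  obtain ⟨n, hn⟩ := hs.solvable
  classical
  have hex : ∃ n, derivedSeries G n = ⊥ := ⟨n, hn⟩
  have h0 : Nat.find hex ≠ 0 := by
    intro e
    have h := Nat.find_spec hex
    rw [e, derivedSeries_zero] at h
    have hc := congrArg (fun K : Subgroup G => Nat.card K) h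
    simp [hG] at hc
  obtain ⟨m, hm⟩ := Nat.exists_eq_succ_of_ne_zero h0
  have hbot : derivedSeries G (m + 1) = ⊥ := by rw [← Nat.succ_eq_add_one, ← hm]; exact Nat.find_spec hex
  have hne : derivedSeries G m ≠ ⊥ := Nat.find_min hex (by omega)
  set N := derivedSeries G m with hN
  haveI : N.Normal := derivedSeries_normal G m
  haveI := Perm.transitive_of_normal (X := X) N hne
  have hcomm : IsMulCommutative N := by
    rw [← Subgroup.le_centralizer_iff_isMulCommutative, ← Subgroup.commutator_eq_bot_iff_le_centralizer]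
    rwa [derivedSeries_succ] at hbot
  have hstab : stabilizer N a = ⊥ := by
    refine (Subgroup.eq_bot_iff_forall _).2 fun x hx => Subtype.ext (eq_of_smul_eq_smul (α := X) fun b => ?_)
    obtain ⟨y, rfl⟩ := exists_smul_eq N a b
    show x • (y • a) = (1 : G) • (y • a)
    rw [one_smul, smul_smul, hcomm.is_comm.comm x y, mul_smul, mem_stabilizer_iff.1 hx]
  have hNcard : Nat.card N = 11 := by
    rw [← Nat.card_congr (orbitProdStabilizerEquivGroup N a), Nat.card_prod, orbit_eq_univ,
      Nat.card_congr (Equiv.Set.univ X), Nat.card_eq_fintype_card (α := X), hX, hstab,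
      Subgroup.card_bot]
  let P : Sylow 11 G := Sylow.ofCard N (by rw [hNcard, hG]; decide +kernel)
  obtain ⟨e, he, hc, -⟩ := JordanSharp.sylow_count (p := 11) hX P
  have hP : Subgroup.normalizer (P : Set G) = ⊤ := by
    haveI : (P : Subgroup G).Normal := ‹N.Normal›
    exact Subgroup.normalizer_eq_top _
  rw [P.card_eq_index_normalizer, hP, Subgroup.index_top, hG] at hc
  have := Nat.le_of_dvd (by norm_num) he
  omega

theorem l211_iso {d : Finset GolayPt} {p q : GolayPt} (hd : d ∈ dodecads) (hp : p ∈ d) (hq : q ∉ d) :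
    Nonempty (l211 d p q ≃* Matrix.ProjectiveSpecialLinearGroup (Fin 2) (ZMod 11)) := by
  classical
  let Ω := {a : GolayPt // a ∉ d ∧ a ≠ q}
  have hΩ : Fintype.card Ω = 11 := by
    rw [Fintype.card_subtype, show (Finset.univ.filter fun a : GolayPt => a ∉ d ∧ a ≠ q) = dᶜ.erase q by
      ext a; simp [and_comm], Finset.card_erase_of_mem (Finset.mem_compl.2 hq),
      dodecads_card (compl_mem_dodecads hd)]
  have hmap : ∀ g ∈ l211 d p q, ∀ a, (g a ∉ d ∧ g a ≠ q) ↔ (a ∉ d ∧ a ≠ q) := by
    intro g hg a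
    have hgq : g q = q := hg.2
    rw [(stSetPt_apply hg.1).1]
    constructor
    · rintro ⟨h1, h2⟩; exact ⟨h1, fun e => h2 (e ▸ hgq)⟩
    · rintro ⟨h1, h2⟩; exact ⟨h1, fun e => h2 (g.injective (e.trans hgq.symm))⟩
  let φ : l211 d p q →* Equiv.Perm Ω :=
    { toFun := fun g => g.1.subtypePerm fun a => hmap g.1 g.2 a
      map_one' := Equiv.ext fun _ => rfl
      map_mul' := fun _ _ => Equiv.ext fun _ => rfl }
  have hinj : Function.Injective φ := by
    refine (injective_iff_map_eq_one φ).2 fun g hg => Subtype.ext (stSetPt_faith hd g.2.1 fun a ha => ?_)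
    by_cases e : a = q
    · rw [e]; exact g.2.2
    · exact congrArg Subtype.val (DFunLike.congr_fun hg ⟨a, ha, e⟩)
  have hcard : Nat.card φ.range = 660 := by
    rw [← Nat.card_congr (MonoidHom.ofInjective hinj).toEquiv, l211_card hd hp hq]
  haveI htr : IsPretransitive φ.range Ω := ⟨fun a b => by
    obtain ⟨σ, hσ, e1, e2⟩ := two_trans_out hd hp hq a.2.1 (Ne.symm a.2.2) hq b.2.1 (Ne.symm b.2.2)
    exact ⟨⟨φ ⟨σ, hσ, e1⟩, ⟨σ, hσ, e1⟩, rfl⟩, Subtype.ext e2⟩⟩
  have hns : ¬ Group.IsSolvable φ.range := not_solvable_660 (X := Ω) hΩ hcard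
  have hA : ¬ alternatingGroup Ω ≤ φ.range := by
    intro h
    haveI : Nontrivial Ω := Fintype.one_lt_card_iff_nontrivial.1 (by omega)
    have := Nat.card_le_card_of_injective _ (Subgroup.inclusion_injective h)
    rw [hcard, nat_card_alternatingGroup, Nat.card_eq_fintype_card, hΩ] at this
    norm_num [Nat.factorial] at this
  rcases S0679.result hΩ φ.range hns hA with ⟨h4, hsharp⟩ | he
  · have := (JordanSharp.Sharp.of_perm h4 hsharp).card_group (by omega)
    rw [hcard, hΩ] at this
    simp [Nat.descFactorial] at this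
  · exact he.map ((MonoidHom.ofInjective hinj).trans ·)

end Cfsg.Agent.Lib.Golay
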