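/-! # The projective plane inside the three-point stabiliser -/

set_option autoImplicit false

namespace Cfsg.Agent.Lib.Golay

/-- The point of a coded nonzero vector over four elements. -/
def planeTab : List Nat := [31, 2, 2, 2, 3, 5, 14, 17, 3, 17, 5, 14, 3, 14, 17, 5, 4, 13, 16, 22, 11, 8, 18, 12, 19, 6, 7, 21, 20, 10, 9, 15, 4, 22, 13, 16, 20, 15, 10, 9, 11, 12, 8, 18, 19, 21, 6, 7, 4, 16, 22, 13, 19, 7, 21, 6, 20, 9, 15, 10, 11, 18, 12, 8]

/-- Transvections with their coded permutations. -/
def planeGens : List ((Nat × Nat × Nat) × Nat) :=
  [((0, 1, 1), 984370798342469428377360417207715872),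
    ((0, 1, 2), 984674686509231270848998217272133664),
    ((0, 1, 3), 984522237791282842243827263779473440),
    ((0, 2, 1), 976908108085554797803774220334904352),
    ((0, 2, 2), 958572796407684634971422541721229344),
    ((0, 2, 3), 972689358314341295732538083389849632),
    ((1, 0, 1), 971592882964418941354553515258775584),
    ((1, 0, 2), 983548720921252936276249910206105632),
    ((1, 0, 3), 975346028712660580592452217730074656),
    ((1, 2, 1), 975366630392323105260605610366440480),
    ((1, 2, 2), 971594099268302134235014375640515616),
    ((1, 2, 3), 983560732202510771760283209707927584),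
    ((2, 0, 1), 976448692869377735270425038196672544),
    ((2, 0, 2), 972512676110088067912772961567868960),
    ((2, 0, 3), 961365507626256404119956257276790816),
    ((2, 1, 1), 984202951082164080105044112956360736),
    ((2, 1, 2), 984724508489452699215480746259449888),
    ((2, 1, 3), 984235865005994746954145143334668320)]

end Cfsg.Agent.Lib.Golay
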