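import Cfsg.Agent.Lib.Golay.Six
import Cfsg.Agent.Lib.Golay.M21Data
import Cfsg.Agent.Lib.Classical.Simple
import Cfsg.Agent.Lib.Classical.Order

/-! # The three-point stabiliser is the projective special linear group of degree three over four elements -/

set_option autoImplicit false
set_option maxRecDepth 100000

namespace Cfsg.Agent.Lib.Golay

open Cfsg
open scoped Pointwise Matrix

/-- Multiplication on coded elements of the field of four elements. -/
def mul4 (a b : ℕ) : ℕ :=
  [[0, 0, 0, 0], [0, 1, 2, 3], [0, 2, 3, 1], [0, 3, 1, 2]].getD a [] |>.getD b 0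

theorem mul4_lt : ∀ a < 4, ∀ b < 4, mul4 a b < 4 ∧ a ^^^ b < 4 := by decide

/-- The image of a coded vector under an elementary transvection. -/
def tvec (i j c v : ℕ) : ℕ :=
  let x := fun k => v / 4 ^ (2 - k) % 4
  v ^^^ (mul4 c (x j) * 4 ^ (2 - i))

theorem planeGens_ok : (planeGens.all fun e =>
    let i := e.1.1
    let j := e.1.2.1
    let c := e.1.2.2
    inM24 e.2 && img e.2 23 == 23 && img e.2 0 == 0 && img e.2 1 == 1 &&
      (List.range 63).all fun v => img e.2 (planeTab.getD (v + 1) 0) ==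
        planeTab.getD (tvec i j c (v + 1)) 0) = true := by decide +kernel

theorem planeGens_keys (i j c : ℕ) (hi : i < 3) (hj : j < 3) (hc : c < 4) (hij : i ≠ j)
    (hc0 : c ≠ 0) : ∃ e ∈ planeGens, e.1 = (i, j, c) := by
  have h : ((List.range 3).all fun i => (List.range 3).all fun j => (List.range 4).all fun c =>
      i == j || c == 0 || planeGens.any fun e => e.1 == (i, j, c)) = true := by decide +kernel
  simp only [List.all_eq_true, List.mem_range, Bool.or_eq_true, beq_iff_eq, List.any_eq_true] at h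
  exact ((h i hi j hj c hc).resolve_left (by simp [hij, hc0]))

theorem planeTab_ok : ((List.range 63).all fun v => Nat.blt (planeTab.getD (v + 1) 0) 24) = true ∧
    keySet (fun v => planeTab.getD (v + 1) 0) (List.range 63) = FULL ^^^ 8388611 ∧
    ((List.range 63).all fun v => (List.range 3).all fun c =>
      planeTab.getD (16 * mul4 (c + 1) ((v + 1) / 16) + 4 * mul4 (c + 1) ((v + 1) / 4 % 4) +
        mul4 (c + 1) ((v + 1) % 4)) 0 == planeTab.getD (v + 1) 0) = true := by
  refine ⟨?_, ?_, ?_⟩ <;> decide +kernel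

/-! ### Coordinates -/

variable {F : Type} [Field F] [Fintype F]

theorem four_char_two (hF : Fintype.card F = 4) : (2 : F) = 0 := by
  have h : ((Fintype.card F : ℕ) : F) = 0 := Nat.cast_card_eq_zero F
  rw [hF] at h
  have h' : (2 : F) * 2 = 0 := by rw [← h]; norm_num
  simpa using mul_eq_zero.1 h'

theorem exists_coord (hF : Fintype.card F = 4) : ∃ e : Fin 4 ≃ F, e 0 = 0 ∧ e 1 = 1 ∧
    (∀ a b c : Fin 4, (c : ℕ) = (a : ℕ) ^^^ b → e c = e a + e b) ∧
      ∀ a b c : Fin 4, (c : ℕ) = mul4 a b → e c = e a * e b := by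
  classical
  have h2 := four_char_two hF
  obtain ⟨t, ht0, ht1⟩ : ∃ t : F, t ≠ 0 ∧ t ≠ 1 := by
    by_contra! h
    have hsub : (Finset.univ : Finset F) ⊆ {0, 1} := by
      intro x _
      by_cases hx : x = 0
      · simp [hx]
      · simp [h x hx]
    have := Finset.card_le_card hsub
    rw [Finset.card_univ, hF] at this
    exact absurd (this.trans Finset.card_le_two) (by norm_num)
  have h3 : t ^ 3 = 1 := by
    have := FiniteField.pow_card_sub_one_eq_one t ht0
    rwa [hF] at this
  have ht : t * t = t + 1 := by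
    have h' : (t - 1) * (t * t + t + 1) = 0 := by linear_combination h3
    rcases mul_eq_zero.1 h' with h | h
    · exact absurd (sub_eq_zero.1 h) ht1
    · linear_combination h - (t + 1) * h2
  let f : Fin 4 → F := ![0, 1, t, t + 1]
  have hinj : Function.Injective f := by
    have n1 : t + 1 ≠ 0 := fun h => ht1 (by linear_combination h - h2)
    intro a b
    fin_cases a <;> fin_cases b <;> simp [f, ht0, ht1, n1, Ne.symm ht0, Ne.symm ht1, Ne.symm n1]
  refine ⟨Equiv.ofBijective f ((Fintype.bijective_iff_injective_and_card f).2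
    ⟨hinj, by rw [Fintype.card_fin, hF]⟩), rfl, rfl, fun a b c hc => ?_, fun a b c hc => ?_⟩
  all_goals
    show f c = _
    fin_cases a <;> fin_cases b <;> fin_cases c <;> simp [mul4] at hc ⊢ <;>
      simp [f] <;> grind

/-- Coordinates with respect to a coordinatisation of the field. -/
structure Coord (F : Type) [Field F] where
  e : Fin 4 ≃ F
  zero : e 0 = 0
  one : e 1 = 1
  add : ∀ a b c : Fin 4, (c : ℕ) = (a : ℕ) ^^^ b → e c = e a + e b
  mul : ∀ a b c : Fin 4, (c : ℕ) = mul4 a b → e c = e a * e b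

variable (C : Coord F)

/-- The code of a vector. -/
def Coord.code (v : Fin 3 → F) : ℕ :=
  16 * (C.e.symm (v 0) : ℕ) + 4 * (C.e.symm (v 1) : ℕ) + (C.e.symm (v 2) : ℕ)

/-- The point of a vector. -/
def Coord.point (v : Fin 3 → F) : GolayPt := pt (planeTab.getD (C.code v) 0)

omit [Fintype F] in
theorem Coord.code_bound (v : Fin 3 → F) : C.code v < 64 := by
  have := (C.e.symm (v 0)).2; have := (C.e.symm (v 1)).2; have := (C.e.symm (v 2)).2
  simp only [Coord.code]; omega

omit [Fintype F] in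
theorem Coord.code_pos {v : Fin 3 → F} (hv : v ≠ 0) : 0 < C.code v := by
  by_contra h
  simp only [Coord.code] at h
  apply hv
  funext i
  have hz : ∀ x : F, (C.e.symm x : ℕ) = 0 → x = 0 := fun x hx => by
    rw [← C.e.apply_symm_apply x, Fin.ext (show ((C.e.symm x : Fin 4) : ℕ) = ((0 : Fin 4) : ℕ) from hx),
      C.zero]
  match i with
  | 0 => exact hz (v 0) (by omega)
  | 1 => exact hz (v 1) (by omega)
  | 2 => exact hz (v 2) (by omega)

omit [Fintype F] in
theorem Coord.symm_mul (x y : F) : ((C.e.symm (x * y) : Fin 4) : ℕ) =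
    mul4 (C.e.symm x) (C.e.symm y) := by
  have h := C.mul (C.e.symm x) (C.e.symm y) ⟨_, (mul4_lt _ (C.e.symm x).2 _ (C.e.symm y).2).1⟩ rfl
  rw [C.e.apply_symm_apply, C.e.apply_symm_apply, ← C.e.eq_symm_apply] at h
  rw [← h]

omit [Fintype F] in
theorem Coord.symm_add (x y : F) : ((C.e.symm (x + y) : Fin 4) : ℕ) =
    (C.e.symm x : ℕ) ^^^ (C.e.symm y) := by
  have h := C.add (C.e.symm x) (C.e.symm y) ⟨_, (mul4_lt _ (C.e.symm x).2 _ (C.e.symm y).2).2⟩ rfl
  rw [C.e.apply_symm_apply, C.e.apply_symm_apply, ← C.e.eq_symm_apply] at h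
  rw [← h]

omit [Fintype F] in
theorem Coord.point_smul {c : F} (hc : c ≠ 0) {v : Fin 3 → F} (hv : v ≠ 0) :
    C.point (c • v) = C.point v := by
  have hb := C.code_bound v
  have hp := C.code_pos hv
  have hk : 0 < (C.e.symm c : ℕ) := Nat.pos_of_ne_zero fun h => hc (by
    rw [← C.e.apply_symm_apply c, Fin.ext (show ((C.e.symm c : Fin 4) : ℕ) = ((0 : Fin 4) : ℕ) from h),
      C.zero])
  have h4 := (C.e.symm c).2
  have h := List.all_eq_true.1 (List.all_eq_true.1 planeTab_ok.2.2 (C.code v - 1)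
    (List.mem_range.2 (by omega))) ((C.e.symm c : ℕ) - 1) (List.mem_range.2 (by omega))
  rw [show C.code v - 1 + 1 = C.code v by omega,
    show (C.e.symm c : ℕ) - 1 + 1 = (C.e.symm c : ℕ) by omega, beq_iff_eq] at h
  refine congrArg pt (Eq.trans (congrArg (planeTab.getD · 0) ?_) h)
  have := (C.e.symm (v 0)).2; have := (C.e.symm (v 1)).2; have := (C.e.symm (v 2)).2
  have k0 : C.code v / 16 = (C.e.symm (v 0) : ℕ) := by simp only [Coord.code]; omega
  have k1 : C.code v / 4 % 4 = (C.e.symm (v 1) : ℕ) := by simp only [Coord.code]; omega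
  have k2 : C.code v % 4 = (C.e.symm (v 2) : ℕ) := by simp only [Coord.code]; omega
  rw [k0, k1, k2]
  simp only [Coord.code, Pi.smul_apply, smul_eq_mul, C.symm_mul]

omit [Fintype F] in
theorem Coord.point_surj (x : GolayPt) (h : x ≠ none) (h0 : x ≠ some 0) (h1 : x ≠ some 1) :
    ∃ v : Fin 3 → F, v ≠ 0 ∧ C.point v = x := by
  have hkey : ∀ x : GolayPt, x ≠ none → x ≠ some 0 → x ≠ some 1 →
      (FULL ^^^ 8388611).testBit (ix x) = true := by decide +kernel
  have hb := hkey x h h0 h1
  rw [← planeTab_ok.2.1, testBit_keySet] at hb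
  obtain ⟨n, hn, he⟩ := hb
  rw [List.mem_range] at hn
  refine ⟨![C.e ⟨(n + 1) / 16, by omega⟩, C.e ⟨(n + 1) / 4 % 4, by omega⟩,
    C.e ⟨(n + 1) % 4, by omega⟩], fun hv => ?_, ?_⟩
  · have : C.code ![C.e ⟨(n + 1) / 16, by omega⟩, C.e ⟨(n + 1) / 4 % 4, by omega⟩,
        C.e ⟨(n + 1) % 4, by omega⟩] = n + 1 := by simp [Coord.code]; omega
    rw [hv] at this
    simp [Coord.code, show C.e.symm 0 = 0 by rw [← C.zero, C.e.symm_apply_apply]] at this
  · show pt (planeTab.getD _ 0) = x
    rw [show C.code _ = n + 1 by simp [Coord.code]; omega, he, pt_ix]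

omit [Fintype F] in
theorem sl_mulVec_ne (g : Matrix.SpecialLinearGroup (Fin 3) F) {v : Fin 3 → F} (hv : v ≠ 0) :
    (g : Matrix (Fin 3) (Fin 3) F) *ᵥ v ≠ 0 := by
  intro h
  have := congrArg ((↑g⁻¹ : Matrix (Fin 3) (Fin 3) F) *ᵥ ·) h
  simp only [Matrix.mulVec_mulVec, ← Matrix.SpecialLinearGroup.coe_mul, inv_mul_cancel,
    Matrix.SpecialLinearGroup.coe_one, Matrix.one_mulVec, Matrix.mulVec_zero] at this
  exact hv this

/-- The standard three-point stabiliser. -/
def st3std : Subgroup (Equiv.Perm GolayPt) :=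
  st2 none (some 0) ⊓ MulAction.stabilizer (Equiv.Perm GolayPt) (some 1 : GolayPt)

/-- A permutation agrees with a matrix on the plane. -/
def PlaneCompat (σ : Equiv.Perm GolayPt) (g : Matrix.SpecialLinearGroup (Fin 3) F) : Prop :=
  σ ∈ st3std ∧ ∀ v, v ≠ 0 → σ (C.point v) = C.point ((g : Matrix (Fin 3) (Fin 3) F) *ᵥ v)

omit [Fintype F] in
theorem PlaneCompat.unique {σ τ : Equiv.Perm GolayPt} {g : Matrix.SpecialLinearGroup (Fin 3) F}
    (hσ : PlaneCompat C σ g) (hτ : PlaneCompat C τ g) : σ = τ := by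
  refine Equiv.ext fun x => ?_
  by_cases h : x = none
  · subst h; exact hσ.1.1.1.2.trans hτ.1.1.1.2.symm
  by_cases h0 : x = some 0
  · subst h0; exact hσ.1.1.2.trans hτ.1.1.2.symm
  by_cases h1 : x = some 1
  · subst h1; exact hσ.1.2.trans hτ.1.2.symm
  obtain ⟨v, hv, rfl⟩ := C.point_surj x h h0 h1
  rw [hσ.2 v hv, hτ.2 v hv]

omit [Fintype F] in
theorem planeCompat_one : PlaneCompat C 1 1 :=
  ⟨one_mem _, fun v _ => by simp⟩

omit [Fintype F] in
theorem PlaneCompat.mul {σ τ : Equiv.Perm GolayPt} {g h : Matrix.SpecialLinearGroup (Fin 3) F}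
    (hg : PlaneCompat C σ g) (hh : PlaneCompat C τ h) : PlaneCompat C (σ * τ) (g * h) :=
  ⟨mul_mem hg.1 hh.1, fun v hv => by
    rw [Equiv.Perm.mul_apply, hh.2 v hv, hg.2 _ (sl_mulVec_ne h hv),
      Matrix.SpecialLinearGroup.coe_mul, Matrix.mulVec_mulVec]⟩

omit [Fintype F] in
theorem plane_gen (i j : Fin 3) (hij : i ≠ j) (c : F) :
    ∃ σ, PlaneCompat C σ (Matrix.SpecialLinearGroup.transvection hij c) := by
  by_cases hc : c = 0
  · refine ⟨1, ?_⟩
    rw [hc, show Matrix.SpecialLinearGroup.transvection hij (0 : F) = 1 from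
      Subtype.ext (Matrix.transvection_zero i j)]
    exact planeCompat_one C
  have hk : (C.e.symm c : ℕ) ≠ 0 := fun h => hc (by
    rw [← C.e.apply_symm_apply c, Fin.ext (show ((C.e.symm c : Fin 4) : ℕ) = ((0 : Fin 4) : ℕ) from h),
      C.zero])
  obtain ⟨e, he, hek⟩ := planeGens_keys i j _ i.2 j.2 (C.e.symm c).2
    (fun h => hij (Fin.ext h)) hk
  have h := List.all_eq_true.1 planeGens_ok e he
  simp only [hek, Bool.and_eq_true, beq_iff_eq, List.all_eq_true, List.mem_range] at h
  obtain ⟨⟨⟨⟨hM, h23⟩, h0⟩, h1⟩, hall⟩ := h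
  have hv := valid_of_inM24 hM
  refine ⟨toPerm e.2, ⟨⟨⟨toPerm_mem_M24 hM, ?_⟩, ?_⟩, ?_⟩, fun v hv0 => ?_⟩
  · show toPerm e.2 (pt 23) = pt 23
    rw [toPerm_pt hv (by norm_num), h23]
  · show toPerm e.2 (pt 0) = pt 0
    rw [toPerm_pt hv (by norm_num), h0]
  · show toPerm e.2 (pt 1) = pt 1
    rw [toPerm_pt hv (by norm_num), h1]
  have hb := C.code_bound v
  have hp := C.code_pos hv0
  have hall := hall (C.code v - 1) (by omega)
  have ht := List.all_eq_true.1 planeTab_ok.1 (C.code v - 1) (List.mem_range.2 (by omega))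
  rw [show C.code v - 1 + 1 = C.code v by omega] at hall ht
  rw [Nat.blt_eq] at ht
  show toPerm e.2 (pt _) = _
  rw [toPerm_pt hv ht, hall]
  refine congrArg pt (congrArg (planeTab.getD · 0) ?_)
  have key : ∀ (i j : Fin 3) (x y z c : Fin 4), i ≠ j →
      tvec i j c (16 * (x : ℕ) + 4 * y + z) =
        16 * ((x : ℕ) ^^^ (if i = 0 then mul4 c (![x, y, z] j : Fin 4) else 0)) +
        4 * ((y : ℕ) ^^^ (if i = 1 then mul4 c (![x, y, z] j : Fin 4) else 0)) +
        ((z : ℕ) ^^^ (if i = 2 then mul4 c (![x, y, z] j : Fin 4) else 0)) := by decide +kernel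
  have hmv : ((Matrix.SpecialLinearGroup.transvection hij c : Matrix.SpecialLinearGroup (Fin 3) F) :
      Matrix (Fin 3) (Fin 3) F) *ᵥ v = v + Pi.single i (c * v j) := by
    show Matrix.transvection i j c *ᵥ v = _
    rw [Matrix.transvection, Matrix.add_mulVec, Matrix.one_mulVec, Matrix.single_mulVec]
    congr 1
  rw [Coord.code, hmv]
  simp only [Coord.code]
  rw [key i j _ _ _ _ hij]
  have hxyz : ((![C.e.symm (v 0), C.e.symm (v 1), C.e.symm (v 2)] j : Fin 4) : ℕ) =
      (C.e.symm (v j) : ℕ) := by fin_cases j <;> rfl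
  rw [hxyz, ← C.symm_mul]
  fin_cases i <;> simp [C.symm_add, show C.e.symm 0 = 0 by rw [← C.zero, C.e.symm_apply_apply]]

omit [Fintype F] in
theorem plane_exists (g : Matrix.SpecialLinearGroup (Fin 3) F) : ∃ σ, PlaneCompat C σ g := by
  refine Classical.SL_transvection_induction (P := fun g => ∃ σ, PlaneCompat C σ g)
    ⟨1, planeCompat_one C⟩ (fun i j h c => plane_gen C i j h c) ?_ g
  rintro A B ⟨σ, hσ⟩ ⟨τ, hτ⟩
  exact ⟨σ * τ, hσ.mul C hτ⟩

/-- The action on the plane. -/
noncomputable def planeHom : Matrix.SpecialLinearGroup (Fin 3) F →* st3std where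
  toFun g := ⟨(plane_exists C g).choose, (plane_exists C g).choose_spec.1⟩
  map_one' := Subtype.ext ((plane_exists C 1).choose_spec.unique C (planeCompat_one C))
  map_mul' g h := Subtype.ext ((plane_exists C (g * h)).choose_spec.unique C
    ((plane_exists C g).choose_spec.mul C (plane_exists C h).choose_spec))

theorem st3std_card : Nat.card st3std = 20160 := by
  have h := card_eq_orbit_mul (st2 none (some 0)) (some 1 : GolayPt)
    {x | x ≠ none ∧ x ≠ some 0}
    (fun g hg => ⟨fun e => absurd (g.injective (e.trans hg.1.2.symm)) (by decide),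
      fun e => absurd (g.injective (e.trans hg.2.symm)) (by decide)⟩)
    (fun p hp => by
      obtain ⟨g, hg, he⟩ := exists_M24_map (k := 3) (by norm_num)
        ![(none : GolayPt), some 0, some 1] ![none, some 0, p] (by decide)
        (by intro i j; fin_cases i <;> fin_cases j <;>
          simp [hp.1, hp.2, Ne.symm hp.1, Ne.symm hp.2])
      exact ⟨g, ⟨⟨hg, he 0⟩, he 1⟩, he 2⟩)
  have hn : ({x | x ≠ none ∧ x ≠ some 0} : Set GolayPt).ncard = 22 := by
    rw [show ({x | x ≠ none ∧ x ≠ some 0} : Set GolayPt) =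
      ({none, some 0} : Set GolayPt)ᶜ by ext p; simp, Set.ncard_compl,
      Set.ncard_pair (by simp), Nat.card_eq_fintype_card]
    rfl
  rw [st2_card (by simp), hn] at h
  change 443520 = 22 * Nat.card st3std at h
  omega

theorem psl34_card (hF : Fintype.card F = 4) :
    Nat.card (Matrix.ProjectiveSpecialLinearGroup (Fin 3) F) = 20160 := by
  have h1 := Classical.card_SL_mul hF 3 (by norm_num)
  have h2 := Classical.card_SL_eq_gcd_mul_card_PSL (F := F) (ι := Fin 3)
  rw [Fintype.card_fin, hF, show Nat.gcd 3 (4 - 1) = 3 from rfl] at h2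
  rw [h2] at h1
  simp [Fin.prod_univ_three] at h1
  omega

theorem psl34_iso (hF : Fintype.card F = 4) :
    Nonempty (Matrix.ProjectiveSpecialLinearGroup (Fin 3) F ≃* st3std) := by
  obtain ⟨e, e0, e1, ea, em⟩ := exists_coord hF
  let C : Coord F := ⟨e, e0, e1, ea, em⟩
  have hcen : Subgroup.center (Matrix.SpecialLinearGroup (Fin 3) F) ≤ (planeHom C).ker := by
    intro z hz
    obtain ⟨r, hr, hzr⟩ := Matrix.SpecialLinearGroup.mem_center_iff.1 hz
    refine MonoidHom.mem_ker.2 (Subtype.ext ((plane_exists C z).choose_spec.unique C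
      ⟨one_mem _, fun v hv => ?_⟩))
    have hr0 : r ≠ 0 := by
      rintro rfl
      simp at hr
    show C.point v = C.point _
    rw [← hzr]
    simp only [Matrix.scalar_apply]
    rw [show Matrix.diagonal (fun _ : Fin 3 => r) *ᵥ v = r • v by
      funext i; simp [Matrix.mulVec_diagonal]]
    exact (C.point_smul hr0 hv).symm
  let f : Matrix.ProjectiveSpecialLinearGroup (Fin 3) F →* st3std :=
    QuotientGroup.lift _ (planeHom C) hcen
  haveI := Classical.isSimpleGroup_PSL (F := F) (ι := Fin 3) (by simp)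
  have hinj : Function.Injective f := by
    rcases (IsSimpleGroup.eq_bot_or_eq_top_of_normal f.ker inferInstance) with h | h
    · exact (MonoidHom.ker_eq_bot_iff f).1 h
    · exfalso
      have h01 : (0 : Fin 3) ≠ 1 := by decide
      set t := Matrix.SpecialLinearGroup.transvection h01 (1 : F)
      have hf : planeHom C t = 1 := by
        have : f (QuotientGroup.mk t) = 1 := MonoidHom.mem_ker.1 (h ▸ Subgroup.mem_top _)
        exact this
      have hv : (Pi.single 1 1 : Fin 3 → F) ≠ 0 := by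
        intro e
        have := congrFun e 1
        simp at this
      have := (plane_exists C t).choose_spec.2 _ hv
      rw [show (plane_exists C t).choose = 1 from congrArg Subtype.val hf] at this
      have ht : (t : Matrix (Fin 3) (Fin 3) F) *ᵥ Pi.single 1 1 = ![1, 1, 0] := by
        show Matrix.transvection (0 : Fin 3) 1 (1 : F) *ᵥ Pi.single 1 1 = _
        rw [Matrix.transvection, Matrix.add_mulVec, Matrix.one_mulVec, Matrix.single_mulVec]
        funext i
        fin_cases i <;> simp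
      rw [ht] at this
      have hs0 : C.e.symm 0 = 0 := by rw [← C.zero, C.e.symm_apply_apply]
      have hs1 : C.e.symm 1 = 1 := by rw [← C.one, C.e.symm_apply_apply]
      simp only [Equiv.Perm.one_apply, Coord.point, Coord.code, Pi.single_eq_same,
        Pi.single_eq_of_ne (show (0 : Fin 3) ≠ 1 by decide),
        Pi.single_eq_of_ne (show (2 : Fin 3) ≠ 1 by decide), hs0, hs1, Matrix.cons_val] at this
      have hne : pt (planeTab.getD 4 0) ≠ pt (planeTab.getD 20 0) := by decide +kernel
      exact hne (by simpa using this)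
  refine ⟨MulEquiv.ofBijective f (hinj.bijective_of_nat_card_le ?_)⟩
  rw [st3std_card, psl34_card hF]

end Cfsg.Agent.Lib.Golay
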