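import Cfsg.Agent.Lib.Golay.OctadAffine

/-!
The largest normal 2-subgroup of the centralizer of an involution fixing an octad.
-/

set_option autoImplicit false

namespace Cfsg.Agent.Lib.Golay

open Cfsg Lib.LargeExtra
open scoped Pointwise

theorem octad_pCore {o : Finset GolayPt} (ho : o ∈ octads) {n : ↥(stSet o)}
    (hn : (n : Equiv.Perm GolayPt) ∈ ptFix o) (hn1 : n ≠ 1) (D : Affine.Data ↥(stSet o) 3) (hD : D.z = n) :
    (pCore 2 ↥(Subgroup.centralizer ({octIncl o n} : Set ↥M24))).map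
      (Subgroup.centralizer ({octIncl o n} : Set ↥M24)).subtype = D.Q.map (octIncl o) := by
  subst hD
  rw [← D.pCore_eq, ← LocalChar.pCore_map_equiv (centEquiv ho hn hn1), Subgroup.map_map, Subgroup.map_map]
  rfl

theorem map_centralizer_octIncl {o : Finset GolayPt} (ho : o ∈ octads) {n : ↥(stSet o)}
    (hn : (n : Equiv.Perm GolayPt) ∈ ptFix o) (hn1 : n ≠ 1) :
    (Subgroup.centralizer ({n} : Set ↥(stSet o))).map (octIncl o) =
      Subgroup.centralizer ({octIncl o n} : Set ↥M24) := by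
  refine le_antisymm ?_ fun g hg => ?_
  · rintro _ ⟨h, hh, rfl⟩
    rw [Subgroup.mem_centralizer_singleton_iff, ← map_mul, ← map_mul, Subgroup.mem_centralizer_singleton_iff.1 hh]
  · obtain ⟨h, rfl⟩ := centralizer_le_octIncl ho hn hn1 hg
    refine ⟨h, Subgroup.mem_centralizer_singleton_iff.2 (octIncl_injective o ?_), rfl⟩
    rw [map_mul, map_mul]
    exact Subgroup.mem_centralizer_singleton_iff.1 hg

theorem octad_large {o : Finset GolayPt} (ho : o ∈ octads) {n : ↥(stSet o)}
    (hn : (n : Equiv.Perm GolayPt) ∈ ptFix o) (hn1 : n ≠ 1) (D : Affine.Data ↥(stSet o) 3) (hD : D.z = n)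
    (hT : D.T.range = (ptFix o).subgroupOf (stSet o)) : IsLargeExtraspecial (D.Q.map (octIncl o)) := by
  haveI hTn : D.T.range.Normal := by rw [hT, ← restrHom_ker]; infer_instance
  have hinj := octIncl_injective o
  obtain ⟨hE, -, -, hcentre, hzc⟩ := D.hyps (by norm_num)
  obtain ⟨-, -, -, hodd⟩ := D.large (by norm_num) hTn
  subst hD
  set z := octIncl o D.z
  set Q' := D.Q.map (octIncl o)
  have hzQ : z ∈ Q' := ⟨_, D.z_mem, rfl⟩
  have hcz : z ∈ (Subgroup.center ↥Q').map Q'.subtype := by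
    refine ⟨⟨z, hzQ⟩, Subgroup.mem_center_iff.2 fun b => Subtype.ext ?_, rfl⟩
    obtain ⟨q, hq, hqb⟩ := b.2
    show (b : ↥M24) * z = z * b
    rw [← hqb, ← map_mul, ← map_mul, Subgroup.mem_centralizer_singleton_iff.1 (D.Q_le hq)]
  have himg : ∀ c : ↥M24, c * z = z * c → ∃ h : ↥(stSet o), h ∈ Subgroup.centralizer ({D.z} : Set ↥(stSet o)) ∧
      octIncl o h = c := fun c hc => by
    obtain ⟨h, hh, e⟩ := (map_centralizer_octIncl ho hn hn1).ge (Subgroup.mem_centralizer_singleton_iff.2 hc)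
    exact ⟨h, hh, e⟩
  refine ⟨isExtraspecial_equiv (D.Q.equivMapOfInjective _ hinj) hE, le_antisymm ?_ ?_, ?_, ?_⟩
  · intro c hc
    obtain ⟨h, -, rfl⟩ := himg c (Subgroup.mem_centralizer_iff.1 hc z hzQ).symm
    obtain ⟨-, h1⟩ := D.centralizer_Q (c := h) fun q hq => hinj (by
      rw [map_mul, map_mul]; exact (Subgroup.mem_centralizer_iff.1 hc _ ⟨q, hq, rfl⟩).symm)
    rcases h1 with rfl | rfl
    · rw [map_one]; exact one_mem _
    · exact hcz
  · rintro _ ⟨a, ha, rfl⟩
    rw [Subgroup.mem_centralizer_iff]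
    exact fun b hb => congrArg Subtype.val (Subgroup.mem_center_iff.1 ha ⟨b, hb⟩)
  · intro c hc
    obtain ⟨h, hh, rfl⟩ := himg c (Subgroup.mem_centralizer_iff.1 hc z hcz).symm
    rw [Subgroup.mem_normalizer_iff]
    intro x
    constructor
    · rintro ⟨q, hq, rfl⟩
      exact ⟨_, D.Q_normal hh hq, by rw [map_mul, map_mul, map_inv]⟩
    · rintro ⟨q, hq, hqx⟩
      refine ⟨_, D.Q_normal (inv_mem hh) hq, ?_⟩
      rw [map_mul, map_mul, map_inv, hqx]
      group
  · intro K hK hQK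
    set K' := K.comap (octIncl o)
    have hK' : Odd (Nat.card ↥K') := by
      refine Odd.of_dvd_nat hK ?_
      exact Subgroup.card_dvd_of_injective
        (f := ((octIncl o).comp K'.subtype).codRestrict K fun k => k.2)
        fun a b h => Subtype.ext (hinj (congrArg Subtype.val h))
    have hbot : K' = ⊥ := hodd K' hK' fun q hq => by
      have h := Subgroup.mem_normalizer_iff.1 (hQK (show octIncl o q ∈ Q' from ⟨q, hq, rfl⟩))
      rw [Subgroup.mem_normalizer_iff]
      intro x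
      show octIncl o x ∈ K ↔ octIncl o (q * x * q⁻¹) ∈ K
      rw [map_mul, map_mul, map_inv]
      exact h _
    have hnorm : ∀ {q k : ↥M24}, q ∈ Q' → k ∈ K → q * k * q⁻¹ ∈ K := fun hq hk =>
      (Subgroup.mem_normalizer_iff.1 (hQK hq) _).1 hk
    have hsmall : ∀ k ∈ K, ∀ m : ↥(stSet o), (m : Equiv.Perm GolayPt) ∈ ptFix o → m ≠ 1 →
        k * octIncl o m = octIncl o m * k → k = 1 := by
      intro k hk m hm hm1 hc
      obtain ⟨h, rfl⟩ := centralizer_le_octIncl ho hm hm1 (Subgroup.mem_centralizer_singleton_iff.2 hc)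
      rw [show h = 1 from Subgroup.mem_bot.1 (hbot ▸ (show h ∈ K' from hk)), map_one]
    let φ : ↥K →* ↥K :=
      { toFun := fun k => ⟨z * k * z⁻¹, hnorm hzQ k.2⟩
        map_one' := Subtype.ext (by simp)
        map_mul' := fun a b => Subtype.ext (by simp [mul_assoc]) }
    have hz2 : z * z = 1 := by rw [← map_mul, ← D.t_add, Affine.add_self, D.t_zero, map_one]
    have hfix : MonoidHom.FixedPointFree φ := fun k hk => Subtype.ext (hsmall k k.2 D.z hn hn1
      (mul_inv_eq_iff_eq_mul.1 (congrArg Subtype.val hk)).symm)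
    have hinv : Function.Involutive φ := fun k => Subtype.ext (by
      show z * (z * k * z⁻¹) * z⁻¹ = k
      rw [show z * (z * (k : ↥M24) * z⁻¹) * z⁻¹ = (z * z) * k * (z * z)⁻¹ by group, hz2]; simp)
    have habel := hfix.commute_all_of_involutive hinv
    have hneg : ∀ k : ↥K, z * k * z⁻¹ = (k : ↥M24)⁻¹ := fun k =>
      congrArg Subtype.val (congrFun (hfix.coe_eq_inv_of_involutive hinv) k)
    let v : Affine.V 3 := Pi.single 0 1
    have hv : v ≠ 0 := fun h => one_ne_zero (α := ZMod 2) (by simpa [v] using congrFun h 0)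
    have hmem : ∀ x, (D.t x : Equiv.Perm GolayPt) ∈ ptFix o := fun x =>
      (show D.t x ∈ (ptFix o).subgroupOf (stSet o) from hT ▸ ⟨_, rfl⟩)
    have hne : ∀ x, x ≠ 0 → D.t x ≠ 1 := fun x hx h => hx (D.t_inj (h.trans D.t_zero.symm))
    set e := octIncl o (D.t (0, v))
    have heQ : e ∈ Q' := ⟨_, D.t_mem_Q _, rfl⟩
    have he2 : e * e = 1 := by rw [← map_mul, ← D.t_add, Affine.add_self, D.t_zero, map_one]
    rw [Subgroup.eq_bot_iff_forall]
    intro k hk
    set k' : ↥M24 := e * k * e⁻¹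
    have hk' : k' ∈ K := hnorm heQ hk
    have hy : k * k' = 1 := by
      refine hsmall _ (mul_mem hk hk') (D.t (0, v)) (hmem _) (hne _ fun h => hv (congrArg Prod.snd h)) ?_
      have hcom : k * k' = k' * k := congrArg Subtype.val (habel ⟨k, hk⟩ ⟨k', hk'⟩)
      show k * k' * e = e * (k * k')
      rw [show e * (k * k') = k' * (e * k' * e⁻¹) * e by simp [k', mul_assoc],
        show e * k' * e⁻¹ = (e * e) * k * (e * e)⁻¹ by simp [k', mul_assoc], he2]
      simp [hcom]
    refine hsmall k hk (D.t (1, v)) (hmem _) (hne _ fun h => hv (congrArg Prod.snd h)) ?_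
    have hf : octIncl o (D.t (1, v)) = z * e := by
      rw [← map_mul, ← D.t_add]; simp
    rw [hf]
    refine (mul_inv_eq_iff_eq_mul.1 (?_ : z * e * k * (z * e)⁻¹ = k)).symm
    rw [show z * e * k * (z * e)⁻¹ = z * k' * z⁻¹ by simp [k', mul_assoc], hneg ⟨k', hk'⟩]
    exact (eq_inv_of_mul_eq_one_left hy).symm

/-- The determinant is no restriction over two elements. -/
noncomputable def glSl (n : ℕ) : Matrix.GeneralLinearGroup (Fin n) (ZMod 2) ≃* Matrix.SpecialLinearGroup (Fin n) (ZMod 2) where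
  toFun A := ⟨(A : Matrix (Fin n) (Fin n) (ZMod 2)),
    (show ∀ a : ZMod 2, IsUnit a → a = 1 by decide) _ ((Matrix.isUnit_iff_isUnit_det _).1 A.isUnit)⟩
  invFun S := Matrix.SpecialLinearGroup.toGL S
  left_inv _ := Units.ext rfl
  right_inv _ := Subtype.ext rfl
  map_mul' _ _ := Subtype.ext rfl

end Cfsg.Agent.Lib.Golay
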