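import Cfsg.Agent.Lib.Golay.Six
import Cfsg.Agent.Lib.Golay.FamOrbits

/-! # The fifteen trios through an octad -/

set_option autoImplicit false
set_option maxRecDepth 100000

namespace Cfsg.Agent.Lib.Golay

open Cfsg
open scoped Pointwise

/-- The trios through the standard octad. -/
def trios15 : List (List ℕ) := trioList.filter fun a => a.elem o0

theorem trios15_len : trios15.length = 15 := by decide +kernel

theorem trios15_fixed :
    (octFixTs.all fun t => trios15.all fun a => actFam t a == a) = true := by decide +kernel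

theorem trios15_shape : (trios15.all fun a =>
    (a.filter fun m => m != o0 && (m >>> 5) &&& 1 == 1).length == 1) = true := by decide +kernel

/-- The fifteen octads through point 5 that are parts of those trios. -/
def partOcts : List ℕ :=
  trios15.map fun a => (a.filter fun m => m != o0 && (m >>> 5) &&& 1 == 1).headD 0

theorem partOcts_sep : (idx.all fun i => idx.all fun j => i == j || (o0 >>> i) &&& 1 == 1 ||
    (o0 >>> j) &&& 1 == 1 || partOcts.any fun m => (m >>> i) &&& 1 != (m >>> j) &&& 1) = true := by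
  decide +kernel

theorem outside_rigid : rigid (FULL ^^^ o0) = true := by decide +kernel

theorem mem_trios15 {A : Finset (Finset GolayPt)} :
    A ∈ trios ∧ toSet o0 ∈ A ↔ ∃ a ∈ trios15, fam a = A := by
  constructor
  · rintro ⟨hA, hm⟩
    obtain ⟨a, ha, rfl⟩ := trio_model.surj hA
    obtain ⟨m, hma, he⟩ := mem_fam.1 hm
    have hc := trio_model.canon_of ha
    simp only [canon, Bool.and_eq_true, List.all_eq_true, Nat.blt_eq] at hc
    obtain rfl := eq_of_toSet_eq (hc.2 m hma) (by decide) he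
    exact ⟨a, List.mem_filter.2 ⟨ha, by simpa using hma⟩, rfl⟩
  · rintro ⟨a, ha, rfl⟩
    obtain ⟨ha, hm⟩ := List.mem_filter.1 ha
    exact ⟨(trio_model.mem a (List.all_eq_true.1 trio_model.all a ha)).2,
      mem_fam.2 ⟨o0, by simpa using hm, rfl⟩⟩

theorem trios15_count : {A | A ∈ trios ∧ toSet o0 ∈ A}.ncard = 15 := by
  rw [trio_model.ncard_sep (fun a => a.elem o0) (fun A => toSet o0 ∈ A) ?_]
  · exact trios15_len
  intro a ha
  have hc := trio_model.canon_of ha
  simp only [canon, Bool.and_eq_true, List.all_eq_true, Nat.blt_eq] at hc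
  simp only [List.elem_eq_mem, decide_eq_true_eq, mem_fam]
  exact ⟨fun h => ⟨o0, h, rfl⟩,
    fun ⟨m, hm, he⟩ => eq_of_toSet_eq (hc.2 m hm) (by decide) he ▸ hm⟩

theorem kind_of_mem {o : Finset GolayPt} {T : Finset (Finset GolayPt)} (hT : T ∈ trios)
    (ho : o ∈ T) : kindF {o} T = 64 := by
  rw [kindF, Finset.sum_eq_single o]
  · simp [octads_card (hT.2.1 o ho)]
  · intro t ht hne
    simp [Finset.disjoint_iff_inter_eq_empty.1 (hT.2.2 t ht o ho hne)]
  · exact fun h => absurd ho h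

/-- The stabiliser of an octad is transitive on the trios through it. -/
theorem trios_through_trans {o : Finset GolayPt} {T T' : Finset (Finset GolayPt)}
    (ho : o ∈ octads) (hT : T ∈ trios) (hT' : T' ∈ trios) (h : o ∈ T) (h' : o ∈ T') :
    ∃ σ ∈ M24, σ • o = o ∧ σ • T = T' := by
  obtain ⟨-, htr, -⟩ := class_transfer trio_model oT15_cover (oBase_move ho)
  obtain ⟨σ, hσ, h1, h2⟩ := htr T hT (kind_of_mem hT h) T' hT' (kind_of_mem hT' h')
  rw [Finset.smul_finset_singleton] at h1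
  exact ⟨σ, hσ, Finset.singleton_injective h1, h2⟩

theorem tBase_o0 : toSet o0 ∈ fam tBase := mem_fam.2 ⟨o0, by decide, rfl⟩

theorem flag_move {o : Finset GolayPt} {T : Finset (Finset GolayPt)} (ho : o ∈ octads)
    (hT : T ∈ trios) (h : o ∈ T) : ∃ σ ∈ M24, σ • toSet o0 = o ∧ σ • fam tBase = T := by
  obtain ⟨τ, hτ, rfl⟩ := M24_trans_octads o0_octad ho
  obtain ⟨σ, hσ, h1, h2⟩ := trios_through_trans ho (smul_mem_trios hτ tBase_trio) hT
    (Finset.smul_mem_smul_finset tBase_o0) h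
  exact ⟨σ * τ, mul_mem hσ hτ, by rw [mul_smul, h1], by rw [mul_smul, h2]⟩

theorem flag_cover : coverOK tBase 0 actFam flagTrioGens flagTrioTree flagTrioStart trioList
    (fun a => isTrioList a && a.elem o0 && a != tBase) trioKey = true := by
  decide +kernel

theorem flag_two {A A' : Finset (Finset GolayPt)} (hA : A ∈ trios) (hA' : A' ∈ trios)
    (h : toSet o0 ∈ A) (h' : toSet o0 ∈ A') (hne : A ≠ fam tBase) (hne' : A' ≠ fam tBase) :
    ∃ σ ∈ M24, σ • toSet o0 = toSet o0 ∧ σ • fam tBase = fam tBase ∧ σ • A = A' := by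
  have key : ∀ A, A ∈ trios → toSet o0 ∈ A → A ≠ fam tBase →
      ∃ σ ∈ stabM tBase 0, σ • fam flagTrioStart = A := by
    intro A hA h hne
    obtain ⟨a, ha, rfl⟩ := mem_trios15.1 ⟨hA, h⟩
    obtain ⟨ha, hm⟩ := List.mem_filter.1 ha
    refine coverOK_orbit (R := fam) (fun g a hg => fam_actFam hg a)
      (fun a ha => trio_model.mem_of (by simp only [Bool.and_eq_true] at ha; exact ha.1.1))
      flag_cover ?_
    simp only [Bool.and_eq_true, bne_iff_ne, ne_eq]
    exact ⟨⟨List.all_eq_true.1 trio_model.all a ha, hm⟩, fun e => hne (congrArg fam e)⟩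
  obtain ⟨σ, hσ, he⟩ := key A hA h hne
  obtain ⟨τ, hτ, he'⟩ := key A' hA' h' hne'
  have hm : τ * σ⁻¹ ∈ stabM tBase 0 := mul_mem hτ (inv_mem hσ)
  refine ⟨τ * σ⁻¹, (mem_stabM.1 hm).1, (mem_stabM.1 hm).2.1 o0 (by decide), ?_,
    by rw [← he, mul_smul, inv_smul_smul, he']⟩
  refine Finset.eq_of_subset_of_card_le ?_ (by rw [Finset.card_smul_finset])
  intro x hx
  obtain ⟨y, hy, rfl⟩ := Finset.mem_smul_finset.1 hx
  obtain ⟨m, hm', rfl⟩ := mem_fam.1 hy
  rw [(mem_stabM.1 hm).2.1 m hm']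
  exact hy

theorem trios_through_two {o : Finset GolayPt} {T₁ T₂ T₁' T₂' : Finset (Finset GolayPt)}
    (ho : o ∈ octads) (h1 : T₁ ∈ trios) (h2 : T₂ ∈ trios) (h1' : T₁' ∈ trios) (h2' : T₂' ∈ trios)
    (m1 : o ∈ T₁) (m2 : o ∈ T₂) (m1' : o ∈ T₁') (m2' : o ∈ T₂') (hne : T₁ ≠ T₂)
    (hne' : T₁' ≠ T₂') : ∃ g ∈ M24, g • o = o ∧ g • T₁ = T₁' ∧ g • T₂ = T₂' := by
  obtain ⟨α, hα, ha1, ha2⟩ := flag_move ho h1 m1
  obtain ⟨β, hβ, hb1, hb2⟩ := flag_move ho h1' m1'
  obtain ⟨σ, hσ, hs1, hs2, hs3⟩ := flag_two (A := α⁻¹ • T₂) (A' := β⁻¹ • T₂')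
    (smul_mem_trios (inv_mem hα) h2) (smul_mem_trios (inv_mem hβ) h2')
    (by rw [← inv_smul_smul α (toSet o0), ha1]; exact Finset.smul_mem_smul_finset m2)
    (by rw [← inv_smul_smul β (toSet o0), hb1]; exact Finset.smul_mem_smul_finset m2')
    (fun e => hne (by rw [← ha2, ← e, smul_inv_smul]))
    (fun e => hne' (by rw [← hb2, ← e, smul_inv_smul]))
  refine ⟨β * σ * α⁻¹, mul_mem (mul_mem hβ hσ) (inv_mem hα), ?_, ?_, ?_⟩
  · conv_lhs => rw [← ha1]
    rw [mul_smul, mul_smul, inv_smul_smul, hs1, hb1]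
  · rw [← ha2, mul_smul, mul_smul, inv_smul_smul, hs2, hb2]
  · rw [mul_smul, mul_smul, hs3, smul_inv_smul]

theorem octFixTs_all {n : Equiv.Perm GolayPt} (hn : n ∈ ptFix (toSet o0)) :
    ∃ t ∈ octFixTs, toPerm t = n := by
  have hout5 : n (pt 5) ∉ toSet o0 := by
    intro h
    have := (mem_ptFix.1 hn).2 _ h
    exact five_out (n.injective this ▸ h)
  have hm : n (pt 5) ∈ toSet (FULL ^^^ o0) := by
    rw [toSet_compl, Finset.mem_compl]; exact hout5
  rw [mem_toSet, ← octFixTs_keys, testBit_keySet] at hm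
  obtain ⟨t, ht, he⟩ := hm
  have := List.all_eq_true.1 octFixTs_ok t ht
  simp only [Bool.and_eq_true] at this
  obtain ⟨⟨h1, h2⟩, -⟩ := this
  have hv := valid_of_inM24 h1
  have hmem : toPerm t ∈ ptFix (toSet o0) :=
    mem_ptFix.2 ⟨toPerm_mem_M24 h1, fun p hp => fixesMask_spec hv h2 hp⟩
  have h5 : toPerm t (pt 5) = n (pt 5) := by rw [toPerm_pt hv (by norm_num), he, pt_ix]
  have := octFix_std.2 ((toPerm t)⁻¹ * n) (mul_mem (inv_mem hmem) hn) (by simp [← h5])
  exact ⟨t, ht, inv_mul_eq_one.1 this⟩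

theorem trios_kernel_std {g : Equiv.Perm GolayPt} (hg : g ∈ M24)
    (hgo : g • toSet o0 = toSet o0) :
    (∀ T ∈ trios, toSet o0 ∈ T → g • T = T) ↔ ∀ p ∈ toSet o0, g p = p := by
  have hfix : ∀ n ∈ ptFix (toSet o0), ∀ T ∈ trios, toSet o0 ∈ T → n • T = T := by
    intro n hn T hT hoT
    obtain ⟨t, ht, rfl⟩ := octFixTs_all hn
    obtain ⟨a, ha, rfl⟩ := mem_trios15.1 ⟨hT, hoT⟩
    have hv : valid t = true := by
      have := List.all_eq_true.1 octFixTs_ok t ht
      simp only [Bool.and_eq_true] at this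
      exact valid_of_inM24 this.1.1
    rw [← fam_actFam hv, beq_iff_eq.1 (List.all_eq_true.1 (List.all_eq_true.1 trios15_fixed t ht) a ha)]
  refine ⟨fun h => ?_, fun h T hT hoT => hfix g (mem_ptFix.2 ⟨hg, h⟩) T hT hoT⟩
  have hout : g (pt 5) ∉ toSet o0 := fun hm =>
    five_out ((smul_mem_iff_of_fix hgo (pt 5)).1 hm)
  obtain ⟨n, hn, hne⟩ := (octFix_facts o0_octad).1 _ (pt 5) hout five_out
  set k := n * g with hk
  have hkM : k ∈ M24 := mul_mem (mem_ptFix.1 hn).1 hg
  have hko : k • toSet o0 = toSet o0 := by rw [hk, mul_smul, hgo, (stSet_of_ptFix hn).2]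
  have hkT : ∀ T ∈ trios, toSet o0 ∈ T → k • T = T := fun T hT hoT => by
    rw [hk, mul_smul, h T hT hoT, hfix n hn T hT hoT]
  have hpart : ∀ m ∈ partOcts, k • toSet m = toSet m := by
    intro m hm
    obtain ⟨a, ha, rfl⟩ := List.mem_map.1 hm
    have h1 := List.all_eq_true.1 trios15_shape a ha
    obtain ⟨u, hu⟩ := List.length_eq_one_iff.1 (beq_iff_eq.1 h1)
    have hmem : ∀ x, x ∈ a.filter (fun m => m != o0 && (m >>> 5) &&& 1 == 1) ↔ x = u := by
      rw [hu]; simp
    have huf := (hmem u).2 rfl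
    simp only [List.mem_filter, Bool.and_eq_true, bne_iff_ne, ne_eq, beq_iff_eq,
      shift_and_one] at huf hmem
    rw [hu, List.headD_cons]
    obtain ⟨hT, hoT⟩ := mem_trios15.2 ⟨a, ha, rfl⟩
    have : k • toSet u ∈ fam a := by
      rw [← hkT _ hT hoT]; exact Finset.smul_mem_smul_finset (mem_fam.2 ⟨u, huf.1, rfl⟩)
    obtain ⟨x, hx, hxe⟩ := mem_fam.1 this
    rw [← hxe]
    refine congrArg toSet ((hmem x).1 ⟨hx, fun e => ?_, ?_⟩)
    · subst e
      have hlt : u < 16777216 := by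
        have hc := trio_model.canon_of (List.mem_filter.1 ha).1
        simp only [canon, Bool.and_eq_true, List.all_eq_true, Nat.blt_eq] at hc
        exact hc.2 u huf.1
      have : toSet u = toSet o0 :=
        MulAction.injective k (hxe.symm.trans hko.symm)
      exact huf.2.1 (eq_of_toSet_eq hlt (by decide) this)
    · have h5u : pt 5 ∈ toSet u := by rw [mem_toSet, ix_pt (by norm_num)]; exact huf.2.2
      have : pt 5 ∈ toSet x := by
        rw [hxe, ← hne]
        exact Finset.mem_smul_finset.2 ⟨pt 5, h5u, rfl⟩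
      rwa [mem_toSet, ix_pt (by norm_num)] at this
  have hkout : ∀ q ∈ toSet (FULL ^^^ o0), k q = q := by
    intro q hq
    rw [toSet_compl, Finset.mem_compl] at hq
    by_contra hne'
    have hkq : k q ∉ toSet o0 := fun hm => hq ((smul_mem_iff_of_fix hko q).1 hm)
    have := List.all_eq_true.1 (List.all_eq_true.1 partOcts_sep _ (mem_idx.2 (ix_lt q))) _
      (mem_idx.2 (ix_lt (k q)))
    simp only [Bool.or_eq_true, beq_iff_eq, List.any_eq_true, bne_iff_ne, ne_eq,
      shift_and_one] at this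
    rcases this with ((h1 | h1) | h1) | ⟨m, hm, h1⟩
    · exact hne' (ix_inj h1).symm
    · exact hq (mem_toSet.2 h1)
    · exact hkq (mem_toSet.2 h1)
    · have hiff := smul_mem_iff_of_fix (hpart m hm) q
      rw [mem_toSet, mem_toSet] at hiff
      refine h1 ?_
      rw [Nat.and_one_is_mod, Nat.and_one_is_mod, Nat.shiftRight_eq_div_pow,
        Nat.shiftRight_eq_div_pow]
      simp only [Nat.testBit_eq_decide_div_mod_eq, decide_eq_true_eq] at hiff
      omega
  have hk1 : k = 1 := eq_one_of_rigid hkM outside_rigid hkout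
  have : g = n⁻¹ := by rw [eq_inv_iff_mul_eq_one, mul_eq_one_comm, ← hk, hk1]
  exact this ▸ (mem_ptFix.1 (inv_mem hn)).2

end Cfsg.Agent.Lib.Golay
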