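import Cfsg.Agent.Lib.Golay.Families

/-! # The punctured code is perfect; coset leaders of the extended code -/

set_option autoImplicit false
set_option maxRecDepth 100000

namespace Cfsg.Agent.Lib.Golay

open Cfsg

/-- The punctured code, as written in the statements. -/
abbrev pCode : Set (ZMod 23 → ZMod 2) :=
  {u | ∃ w ∈ golayCode, ∀ x : ZMod 23, u x = w (some x)}

/-- Puncture a coded word. -/
def pWord (m : ℕ) : ZMod 23 → ZMod 2 := fun x => word m (some x)

theorem pWord_norm (m : ℕ) : hammingNorm (pWord m) = pc (m &&& 8388607) := by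
  rw [← card_toSet]
  have : toSet (m &&& 8388607) =
      (Finset.univ.filter fun x : ZMod 23 => pWord m x ≠ 0).map ⟨some, Option.some_injective _⟩ := by
    have hb : ∀ p : GolayPt, (8388607 : ℕ).testBit (ix p) = p.isSome := by decide +kernel
    ext p
    simp only [mem_toSet, Nat.testBit_and, hb, Bool.and_eq_true, Finset.mem_map,
      Finset.mem_filter, Finset.mem_univ, true_and, Function.Embedding.coeFn_mk]
    cases p with
    | none => simp
    | some x => by_cases h : m.testBit (ix (some x)) = true <;> simp [pWord, word, h]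
  rw [this, Finset.card_map]
  rfl

theorem pCode_eq : pCode = ↑((Finset.range 4096).image fun k => pWord (enc k)) := by
  ext u
  simp only [Finset.coe_image, Set.mem_image, Finset.coe_range, Set.mem_Iio, Set.mem_ofPred_eq]
  constructor
  · rintro ⟨w, hw, hu⟩
    obtain ⟨k, hk, rfl⟩ := mem_code_iff.1 hw
    exact ⟨k, hk, funext fun x => (hu x).symm⟩
  · rintro ⟨k, hk, rfl⟩
    exact ⟨word (enc k), mem_code_iff.2 ⟨k, hk, rfl⟩, fun x => rfl⟩

theorem pTable : ((List.range 4096).all fun k =>
    k == 0 || Nat.ble 7 (pc (enc k &&& 8388607))) = true := by decide +kernel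

theorem pWord_xor (a b : ℕ) : pWord (a ^^^ b) = pWord a + pWord b := by
  funext x; simp [pWord, word_xor]

theorem pWord_inj {a b : ℕ} (ha : a < 4096) (hb : b < 4096)
    (h : pWord (enc a) = pWord (enc b)) : a = b := by
  have hab : a ^^^ b < 4096 := Nat.xor_lt_two_pow (n := 12) ha hb
  have := List.all_eq_true.1 pTable (a ^^^ b) (List.mem_range.2 hab)
  simp only [Bool.or_eq_true, beq_iff_eq, Nat.ble_eq] at this
  rcases this with h0 | h7
  · exact Nat.xor_eq_zero_iff.1 h0
  · rw [← pWord_norm, enc_xor, pWord_xor, h, ← two_nsmul, show (2 : ℕ) • pWord (enc b) = 0 from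
      funext fun x => by simp only [Pi.smul_apply, Pi.zero_apply, nsmul_eq_mul]; rw [show ((2 : ℕ) : ZMod 2) = 0 from rfl, zero_mul]] at h7
    simp at h7

theorem pCode_count (n : ℕ) : {u | u ∈ pCode ∧ hammingNorm u = n}.ncard =
    ((List.range 4096).filter fun k => pc (enc k &&& 8388607) == n).length := by
  classical
  have : {u | u ∈ pCode ∧ hammingNorm u = n} =
      ↑(((List.range 4096).filter fun k => pc (enc k &&& 8388607) == n).toFinset.image
        fun k => pWord (enc k)) := by
    ext u
    simp only [pCode_eq, Finset.coe_image, Finset.coe_range, Set.mem_image, Set.mem_Iio,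
      Set.mem_ofPred_eq, List.coe_toFinset, List.mem_filter, List.mem_range, beq_iff_eq]
    constructor
    · rintro ⟨⟨k, hk, rfl⟩, h⟩
      exact ⟨k, ⟨hk, by rw [← pWord_norm]; exact h⟩, rfl⟩
    · rintro ⟨k, ⟨hk, h⟩, rfl⟩
      exact ⟨⟨k, hk, rfl⟩, by rw [pWord_norm]; exact h⟩
  rw [this, Set.ncard_coe_finset, Finset.card_image_of_injOn,
    List.toFinset_card_of_nodup (List.nodup_range.filter _)]
  intro a ha b hb h
  simp only [List.coe_toFinset, List.mem_filter, List.mem_range, Set.mem_ofPred_eq] at ha hb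
  exact pWord_inj ha.1 hb.1 h

theorem pCode_card : pCode.ncard = 4096 := by
  rw [pCode_eq, Set.ncard_coe_finset, Finset.card_image_of_injOn, Finset.card_range]
  intro a ha b hb h
  exact pWord_inj (Finset.mem_range.1 ha) (Finset.mem_range.1 hb) h

theorem pCode_min {u : ZMod 23 → ZMod 2} (hu : u ∈ pCode) (hne : u ≠ 0) : 7 ≤ hammingNorm u := by
  rw [pCode_eq] at hu
  simp only [Finset.coe_image, Finset.coe_range, Set.mem_image, Set.mem_Iio] at hu
  obtain ⟨k, hk, rfl⟩ := hu
  have := List.all_eq_true.1 pTable k (List.mem_range.2 hk)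
  simp only [Bool.or_eq_true, beq_iff_eq, Nat.ble_eq] at this
  rcases this with rfl | h
  · refine absurd ?_ hne
    funext x
    have : enc 0 = 0 := comb_zero _
    simp [this, pWord, word]
  · rw [pWord_norm]; exact h

theorem pCode_sub {u v : ZMod 23 → ZMod 2} (hu : u ∈ pCode) (hv : v ∈ pCode) :
    u - v ∈ pCode := by
  obtain ⟨w, hw, hw'⟩ := hu
  obtain ⟨z, hz, hz'⟩ := hv
  exact ⟨w - z, golayCode.sub_mem hw hz, fun x => by simp [hw', hz']⟩

theorem hdist_sub {ι : Type*} [Fintype ι] (a b : ι → ZMod 2) :
    hammingDist a b = hammingNorm (a - b) := by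
  rw [hammingDist, hammingNorm]
  exact congrArg Finset.card (Finset.filter_congr fun i _ => by simp [sub_ne_zero])

theorem pCode_unique {u c c' : ZMod 23 → ZMod 2} (hc : c ∈ pCode) (hc' : c' ∈ pCode)
    (h : hammingDist u c ≤ 3) (h' : hammingDist u c' ≤ 3) : c = c' := by
  by_contra hne
  have h7 := pCode_min (pCode_sub hc hc') (sub_ne_zero.2 hne)
  have e : hammingDist c c' = hammingNorm (c - c') := hdist_sub c c'
  have t := hammingDist_triangle c u c'
  rw [hammingDist_comm c u, e] at t
  omega

theorem ball_card : ((Finset.univ : Finset (ZMod 23 → ZMod 2)).filter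
    fun e => hammingNorm e ≤ 3).card = 2048 := by
  classical
  have h : ((Finset.univ : Finset (ZMod 23 → ZMod 2)).filter fun e => hammingNorm e ≤ 3).card =
      ((Finset.range 4).biUnion fun k => (Finset.univ : Finset (ZMod 23)).powersetCard k).card := by
    refine Finset.card_bij' (fun e _ => Finset.univ.filter fun x => e x ≠ 0)
      (fun s _ => fun x => if x ∈ s then 1 else 0) ?_ ?_ ?_ ?_
    · intro e he
      rw [Finset.mem_filter] at he
      exact Finset.mem_biUnion.2 ⟨hammingNorm e, Finset.mem_range.2 (by omega),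
        Finset.mem_powersetCard.2 ⟨Finset.subset_univ _, rfl⟩⟩
    · intro s hs
      obtain ⟨k, hk, hsk⟩ := Finset.mem_biUnion.1 hs
      rw [Finset.mem_filter]
      refine ⟨Finset.mem_univ _, ?_⟩
      have : hammingNorm (fun x => if x ∈ s then (1 : ZMod 2) else 0) = s.card := by
        rw [hammingNorm]; congr 1; ext x; simp
      rw [this, (Finset.mem_powersetCard.1 hsk).2]
      have := Finset.mem_range.1 hk
      omega
    · intro e _
      funext x
      have : ∀ z : ZMod 2, z ≠ 0 → 1 = z := by decide
      by_cases hx : e x = 0 <;> simp [hx, this (e x)]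
    · intro s _
      ext x
      simp
  rw [h, Finset.card_biUnion]
  · simp only [Finset.card_powersetCard, Finset.card_univ, ZMod.card, Finset.sum_range_succ,
      Finset.sum_range_zero]
    decide
  · intro a _ b _ hab
    simp only [Function.onFun, Finset.disjoint_left, Finset.mem_powersetCard]
    rintro t ⟨-, h1⟩ ⟨-, h2⟩
    exact hab (h1.symm.trans h2)

theorem pCode_perfect (u : ZMod 23 → ZMod 2) : ∃! c, c ∈ pCode ∧ hammingDist u c ≤ 3 := by
  classical
  suffices ∃ c, c ∈ pCode ∧ hammingDist u c ≤ 3 by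
    obtain ⟨c, hc, hd⟩ := this
    exact ⟨c, ⟨hc, hd⟩, fun c' ⟨hc', hd'⟩ => pCode_unique hc' hc hd' hd⟩
  have hfin : pCode.Finite := Set.toFinite _
  let B := (Finset.univ : Finset (ZMod 23 → ZMod 2)).filter fun e => hammingNorm e ≤ 3
  let D := hfin.toFinset ×ˢ B
  have hinj : Set.InjOn (fun p : (ZMod 23 → ZMod 2) × (ZMod 23 → ZMod 2) => p.1 + p.2) ↑D := by
    rintro ⟨c, e⟩ hp ⟨c', e'⟩ hq heq
    simp only [D, B, Finset.coe_product, Set.mem_prod, Finset.mem_coe, Set.Finite.mem_toFinset,
      Finset.mem_filter, Finset.mem_univ, true_and] at hp hq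
    simp only at heq
    have hcc : c = c' := by
      refine pCode_unique (u := c + e) hp.1 hq.1 ?_ ?_
      · rw [hdist_sub]; simpa using hp.2
      · rw [hdist_sub, heq]; simpa using hq.2
    subst hcc
    rw [add_left_cancel heq]
  have huniv : D.image (fun p => p.1 + p.2) = Finset.univ := by
    rw [← Finset.card_eq_iff_eq_univ, Finset.card_image_of_injOn hinj]
    simp only [D, B, Finset.card_product, ball_card]
    rw [← Set.ncard_eq_toFinset_card _ hfin, pCode_card, Fintype.card_fun, ZMod.card, ZMod.card]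
    norm_num
  have hu := Finset.mem_univ u
  rw [← huniv] at hu
  obtain ⟨⟨c, e⟩, hp, rfl⟩ := Finset.mem_image.1 hu
  simp only [D, B, Finset.mem_product, Set.Finite.mem_toFinset, Finset.mem_filter,
    Finset.mem_univ, true_and] at hp
  exact ⟨c, hp.1, by rw [hdist_sub]; simpa using hp.2⟩

theorem hammingNorm_supp (v : GolayPt → ZMod 2) : hammingNorm v = (support₂ v).card := rfl

theorem supp_inj {v v' : GolayPt → ZMod 2} (h : support₂ v = support₂ v') : v = v' := by
  rw [← word_mask v, ← word_mask v', h]

theorem supp_sub (v v' : GolayPt → ZMod 2) :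
    support₂ (v - v') = symmDiff (support₂ v) (support₂ v') := by
  ext p
  simp only [support₂, Finset.mem_symmDiff, Finset.mem_filter, Finset.mem_univ, true_and,
    Pi.sub_apply]
  have : ∀ a b : ZMod 2, a - b ≠ 0 ↔ (a ≠ 0 ∧ ¬b ≠ 0) ∨ (b ≠ 0 ∧ ¬a ≠ 0) := by decide
  exact this _ _

theorem code_min {v : GolayPt → ZMod 2} (hv : v ∈ golayCode) (hne : v ≠ 0) :
    8 ≤ hammingNorm v := by
  obtain ⟨k, hk, rfl⟩ := mem_code_iff.1 hv
  have h : ((List.range 4096).all fun k => k == 0 || Nat.ble 8 (pc (enc k))) = true := by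
    decide +kernel
  have := List.all_eq_true.1 h k (List.mem_range.2 hk)
  simp only [Bool.or_eq_true, beq_iff_eq, Nat.ble_eq] at this
  rcases this with rfl | h
  · refine absurd ?_ hne
    rw [show enc 0 = 0 from comb_zero _, word_zero]
  · rw [hammingNorm_word]; exact h

theorem coset_leaders (w : GolayPt → ZMod 2) :
    ({v : GolayPt → ZMod 2 | hammingNorm v ≤ 4 ∧ w - v ∈ golayCode}.ncard = 1 ∧
      ∃ v : GolayPt → ZMod 2, hammingNorm v ≤ 3 ∧ w - v ∈ golayCode) ∨
    ({v : GolayPt → ZMod 2 | hammingNorm v ≤ 4 ∧ w - v ∈ golayCode}.ncard = 6 ∧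
      ∀ v : GolayPt → ZMod 2, w - v ∈ golayCode → hammingNorm v ≤ 4 → hammingNorm v = 4) := by
  classical
  set S := {v : GolayPt → ZMod 2 | hammingNorm v ≤ 4 ∧ w - v ∈ golayCode} with hS
  have diff : ∀ v ∈ S, ∀ v' ∈ S, v - v' ∈ golayCode := fun v hv v' hv' => by
    simpa using golayCode.sub_mem hv'.2 hv.2
  obtain ⟨v0, hv0⟩ : ∃ v, v ∈ S := by
    obtain ⟨c, ⟨⟨z, hz, hzc⟩, hd⟩, -⟩ := pCode_perfect fun x => w (some x)
    refine ⟨w - z, ?_, by simpa using hz⟩
    rw [hdist_sub] at hd
    have hsub : support₂ (w - z) ⊆ insert none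
        ((Finset.univ.filter fun x : ZMod 23 => w (some x) - c x ≠ 0).map
          ⟨some, Option.some_injective _⟩) := by
      intro p hp
      cases p with
      | none => exact Finset.mem_insert_self _ _
      | some x => simpa [support₂, hzc] using hp
    refine (Finset.card_le_card hsub).trans ((Finset.card_insert_le _ _).trans ?_)
    rw [Finset.card_map]
    exact Nat.succ_le_succ hd
  by_cases hsmall : ∃ v ∈ S, hammingNorm v ≤ 3
  · obtain ⟨v, hv, h3⟩ := hsmall
    refine Or.inl ⟨Set.ncard_eq_one.2 ⟨v, Set.eq_singleton_iff_unique_mem.2 ⟨hv, ?_⟩⟩, v, h3, hv.2⟩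
    intro v' hv'
    by_contra hne
    have h8 := code_min (diff v' hv' v hv) (sub_ne_zero.2 hne)
    rw [hammingNorm_supp, supp_sub] at h8
    have hle : (symmDiff (support₂ v') (support₂ v)).card ≤
        (support₂ v').card + (support₂ v).card :=
      (Finset.card_le_card symmDiff_le_sup).trans (Finset.card_union_le _ _)
    have := hv'.1
    rw [hammingNorm_supp] at this h3
    omega
  · push Not at hsmall
    have four : ∀ v ∈ S, (support₂ v).card = 4 := fun v hv => by
      have := hsmall v hv
      have := hv.1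
      simp only [hammingNorm_supp] at *
      omega
    refine Or.inr ⟨?_, fun v h1 h2 => four v ⟨h2, h1⟩⟩
    set t := support₂ v0 with ht
    have ht4 : t.card = 4 := four v0 hv0
    have himg : support₂ '' S = ↑(sextetOf t) := by
      ext u
      simp only [Set.mem_image, Finset.mem_coe, mem_sextetOf]
      constructor
      · rintro ⟨v, hv, rfl⟩
        by_cases he : v = v0
        · exact Or.inl (by rw [he])
        right
        have h8 := code_min (diff v hv v0 hv0) (sub_ne_zero.2 he)
        rw [hammingNorm_supp, supp_sub, ← ht] at h8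
        have hle : (support₂ v ∪ t).card + (support₂ v ∩ t).card = 8 := by
          rw [Finset.card_union_add_card_inter, four v hv, ht4]
        have hsub : symmDiff (support₂ v) t ⊆ support₂ v ∪ t := symmDiff_le_sup
        have hcs := Finset.card_le_card hsub
        have h0 : (support₂ v ∩ t).card = 0 := by omega
        have hd : Disjoint (support₂ v) t :=
          Finset.disjoint_iff_inter_eq_empty.2 (Finset.card_eq_zero.1 h0)
        have he' : symmDiff (support₂ v) t = support₂ v ∪ t := hd.symmDiff_eq_sup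
        refine ⟨support₂ v ∪ t, ⟨?_, by omega⟩, Finset.subset_union_right, ?_⟩
        · rw [← he', ht, ← supp_sub]
          exact ⟨v - v0, diff v hv v0 hv0, rfl⟩
        · rw [Finset.union_sdiff_right, Finset.sdiff_eq_self_of_disjoint hd]
      · rintro (rfl | ⟨o, ho, hto, rfl⟩)
        · exact ⟨v0, hv0, rfl⟩
        refine ⟨word (mask (o \ t)), ?_, by rw [support_word, toSet_mask]⟩
        have hsupp : support₂ (word (mask (o \ t))) = o \ t := by rw [support_word, toSet_mask]
        refine ⟨by rw [hammingNorm_supp, hsupp, Finset.card_sdiff_of_subset hto, octads_card ho,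
          ht4], ?_⟩
        obtain ⟨z, hz, hzo⟩ := ho.1
        have hz' : z = v0 - word (mask (o \ t)) := supp_inj (by
          rw [hzo, supp_sub, hsupp, ← ht, (Finset.disjoint_sdiff).symmDiff_eq_sup,
            Finset.sup_eq_union, Finset.union_sdiff_of_subset hto])
        have := golayCode.add_mem hv0.2 (hz' ▸ hz)
        simpa using this
    have hcard : (support₂ '' S).ncard = S.ncard :=
      Set.ncard_image_of_injective _ fun a b => supp_inj
    rw [← hcard, himg, Set.ncard_coe_finset, (sextetOf_mem ht4).1]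

end Cfsg.Agent.Lib.Golay
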