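import Cfsg.Agent.Lib.Golay.Quartets
import Cfsg.Agent.Lib.Golay.Kinds

/-! # Orbits of a quartet stabiliser on quartets -/

set_option autoImplicit false
set_option maxRecDepth 100000

namespace Cfsg.Agent.Lib.Golay

open Cfsg
open scoped Pointwise

/-- The invariant separating the orbits. -/
def quartKind (B A : Finset (Finset GolayPt)) : ℕ := ∑ t ∈ A, ∑ u ∈ B, (t ∩ u).card ^ 4

/-- The invariant on codes. -/
def quartKindL (B A : List ℕ) : ℕ :=
  (A.map fun t => (B.map fun u => pc (t &&& u) ^ 4).sum).sum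

theorem quartKind_smul (σ : Equiv.Perm GolayPt) (B A : Finset (Finset GolayPt)) :
    quartKind (σ • B) (σ • A) = quartKind B A := by
  have key : ∀ (C : Finset (Finset GolayPt)) (f : Finset GolayPt → ℕ),
      ∑ t ∈ σ • C, f t = ∑ t ∈ C, f (σ • t) :=
    fun C f => Finset.sum_image (MulAction.injective σ).injOn
  simp only [quartKind, key, smul_inter_card]

theorem quartKind_fam {B A : List ℕ} (hB : canon B = true) (hA : canon A = true) :
    quartKind (fam B) (fam A) = quartKindL B A := by
  rw [quartKind, sum_fam hA, quartKindL]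
  refine congrArg List.sum (List.map_congr_left fun t _ => ?_)
  rw [sum_fam hB]
  refine congrArg List.sum (List.map_congr_left fun u _ => ?_)
  rw [inter_eq]

/-- The certificate for one class. -/
def qCover (gs : List ℕ) (T : List (ℕ × ℕ)) (start : List ℕ) (k : ℕ) : Bool :=
  gs.all (fun g => inM24 g && act g d0 == d0 && actFam g qAllStart == qAllStart) &&
    T.all (fun e => Nat.blt e.1 gs.length) &&
    quartList.elem start &&
    (quartList.all fun a => quartKindL qAllStart a != k || (orbitList actFam gs T start).elem a) &&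
    quartKindL qAllStart start == k

theorem q12_ok : qCover q12Gens q12Tree q12Start 90 = true := by decide +kernel
theorem q27_ok : qCover q27Gens q27Tree q27Start 68 = true := by decide +kernel
theorem q72_ok : qCover q72Gens q72Tree q72Start 54 = true := by decide +kernel
theorem q108_ok : qCover q108Gens q108Tree q108Start 26 = true := by decide +kernel

theorem qKinds : ((quartList.all fun a =>
    [324, 90, 68, 54, 26].elem (quartKindL qAllStart a)) &&
    (quartList.all fun a => a == qAllStart || quartKindL qAllStart a != 324) &&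
    quartList.elem qAllStart && (quartKindL qAllStart qAllStart == 324)) = true := by
  decide +kernel

theorem qSizes : (quartList.filter fun a => quartKindL qAllStart a == 90).length = 12 ∧
    (quartList.filter fun a => quartKindL qAllStart a == 68).length = 27 ∧
    (quartList.filter fun a => quartKindL qAllStart a == 54).length = 72 ∧
    (quartList.filter fun a => quartKindL qAllStart a == 26).length = 108 := by
  decide +kernel

theorem qStd_quartet : fam qAllStart ∈ quartets (toSet d0) := by
  have h := qKinds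
  simp only [Bool.and_eq_true, List.elem_eq_mem, decide_eq_true_eq] at h
  exact (isQuart_mem (List.all_eq_true.1 quart_all _ h.1.2)).2

theorem flagQ_move {d : Finset GolayPt} (hd : d ∈ dodecads) {Q : Finset (Finset GolayPt)}
    (hQ : Q ∈ quartets d) :
    ∃ σ ∈ M24, σ • (toSet d0, fam qAllStart) = (d, Q) := by
  obtain ⟨σ, hσ, rfl⟩ := M24_trans_dodecads d0_dodecad hd
  obtain ⟨g, hg, h1, h2⟩ := quartets_trans hd (quartets_smul hσ qStd_quartet) hQ
  exact ⟨g * σ, mul_mem hg hσ, by rw [Prod.smul_mk, mul_smul, mul_smul, h1, h2]⟩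

theorem stab_pair_eq (d : Finset GolayPt) (Q : Finset (Finset GolayPt)) :
    MulAction.stabilizer M24 d ⊓ MulAction.stabilizer M24 Q = MulAction.stabilizer M24 (d, Q) := by
  ext g
  simp only [Subgroup.mem_inf, MulAction.mem_stabilizer_iff, Prod.smul_mk, Prod.mk.injEq]

theorem q_class_std {gs : List ℕ} {T : List (ℕ × ℕ)} {start : List ℕ} {k : ℕ}
    (hc : qCover gs T start k = true) :
    fam start ∈ quartets (toSet d0) ∧
      MulAction.orbit (MulAction.stabilizer M24 (toSet d0, fam qAllStart)) (fam start) =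
        {A | A ∈ quartets (toSet d0) ∧ quartKind (fam qAllStart) A = k} := by
  simp only [qCover, Bool.and_eq_true, List.all_eq_true, Nat.blt_eq, beq_iff_eq, List.elem_eq_mem,
    decide_eq_true_eq, Bool.or_eq_true, bne_iff_ne, ne_eq] at hc
  obtain ⟨⟨⟨⟨hgs, hT⟩, hs⟩, hall⟩, hk⟩ := hc
  have hsX := (isQuart_mem (List.all_eq_true.1 quart_all _ hs)).2
  have hB : canon qAllStart = true := by decide +kernel
  refine ⟨hsX, ?_⟩
  set H : Subgroup (Equiv.Perm GolayPt) :=
    M24 ⊓ MulAction.stabilizer (Equiv.Perm GolayPt) (toSet d0, fam qAllStart) with hH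
  have hH' : ∀ g ∈ gs, valid g = true ∧ toPerm g ∈ H := fun g hg => by
    have hv := valid_of_inM24 (hgs g hg).1.1
    refine ⟨hv, Subgroup.mem_inf.2 ⟨toPerm_mem_M24 (hgs g hg).1.1, ?_⟩⟩
    rw [MulAction.mem_stabilizer_iff, Prod.smul_mk, ← fam_actFam hv, (hgs g hg).2, smul_toSet hv,
      (hgs g hg).1.2]
  ext A
  constructor
  · rintro ⟨⟨⟨σ, hσ⟩, hfix⟩, rfl⟩
    have hfix' : σ • toSet d0 = toSet d0 ∧ σ • fam qAllStart = fam qAllStart := by
      have := Prod.ext_iff.1 (hfix : σ • (toSet d0, fam qAllStart) = _)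
      exact this
    refine ⟨?_, ?_⟩
    · have := quartets_smul hσ hsX
      rw [hfix'.1] at this
      exact this
    · show quartKind (fam qAllStart) (σ • fam start) = k
      conv_lhs => rw [← hfix'.2]
      rw [quartKind_smul, quartKind_fam hB (quart_canon hs), hk]
  · rintro ⟨hA, hkA⟩
    obtain ⟨a, ha, rfl⟩ := quart_surj hA
    rw [quartKind_fam hB (quart_canon ha)] at hkA
    have hb := (hall a ha).resolve_left (fun h => h hkA)
    rcases List.mem_cons.1 hb with rfl | hb
    · exact ⟨1, one_smul _ _⟩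
    · obtain ⟨σ, hσ, he⟩ := orbitList_spec (R := fam) (fun g a hg => fam_actFam hg a) H hH' T
        [start] hT (by simpa using ⟨1, one_mem _, one_smul _ _⟩) a hb
      exact ⟨⟨⟨σ, (Subgroup.mem_inf.1 hσ).1⟩, (Subgroup.mem_inf.1 hσ).2⟩, he⟩

theorem q_class {gs : List ℕ} {T : List (ℕ × ℕ)} {start : List ℕ} {k n : ℕ}
    (hc : qCover gs T start k = true)
    (hn : (quartList.filter fun a => quartKindL qAllStart a == k).length = n)
    {d : Finset GolayPt} (hd : d ∈ dodecads) {Q : Finset (Finset GolayPt)} (hQ : Q ∈ quartets d) :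
    ∃ A ∈ quartets d, MulAction.orbit (MulAction.stabilizer M24 (d, Q)) A =
      {A | A ∈ quartets d ∧ quartKind Q A = k} ∧
      (MulAction.orbit (MulAction.stabilizer M24 (d, Q)) A).ncard = n := by
  classical
  obtain ⟨hsX, horb⟩ := q_class_std hc
  obtain ⟨σ, hσ, he⟩ := flagQ_move hd hQ
  obtain ⟨e1, e2⟩ := Prod.ext_iff.1 he
  simp only [Prod.smul_fst, Prod.smul_snd] at e1 e2
  subst e1 e2
  refine ⟨σ • fam start, quartets_smul hσ hsX, ?_⟩
  have himg : {A | A ∈ quartets (σ • toSet d0) ∧ quartKind (σ • fam qAllStart) A = k} =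
      (fun A : Finset (Finset GolayPt) => σ • A) ''
        {A | A ∈ quartets (toSet d0) ∧ quartKind (fam qAllStart) A = k} := by
    ext A
    simp only [quartets_image hσ, Set.mem_ofPred_eq, Set.mem_image]
    constructor
    · rintro ⟨⟨B, hB, rfl⟩, hk⟩
      exact ⟨B, ⟨hB, by rwa [quartKind_smul] at hk⟩, rfl⟩
    · rintro ⟨B, ⟨hB, hk⟩, rfl⟩
      exact ⟨⟨B, hB, rfl⟩, by rw [quartKind_smul]; exact hk⟩
  have horb' : MulAction.orbit (MulAction.stabilizer M24 (σ • toSet d0, σ • fam qAllStart))
      (σ • fam start) =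
        {A | A ∈ quartets (σ • toSet d0) ∧ quartKind (σ • fam qAllStart) A = k} := by
    rw [himg, ← horb]
    exact orbit_stab_smul (⟨σ, hσ⟩ : M24) (toSet d0, fam qAllStart) (fam start)
  refine ⟨horb', ?_⟩
  rw [horb', himg, Set.ncard_image_of_injective _ (MulAction.injective σ)]
  have : {A | A ∈ quartets (toSet d0) ∧ quartKind (fam qAllStart) A = k} =
      ↑((quartList.filter fun a => quartKindL qAllStart a == k).toFinset.image fam) := by
    have hB : canon qAllStart = true := by decide +kernel
    ext A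
    simp only [Finset.coe_image, Set.mem_image, List.coe_toFinset, List.mem_filter, beq_iff_eq,
      Set.mem_ofPred_eq]
    constructor
    · rintro ⟨hA, hkA⟩
      obtain ⟨a, ha, rfl⟩ := quart_surj hA
      exact ⟨a, ⟨ha, by rw [← quartKind_fam hB (quart_canon ha)]; exact hkA⟩, rfl⟩
    · rintro ⟨a, ⟨ha, hk⟩, rfl⟩
      exact ⟨(isQuart_mem (List.all_eq_true.1 quart_all a ha)).2,
        by rw [quartKind_fam hB (quart_canon ha), hk]⟩
  rw [this, Set.ncard_coe_finset, Finset.card_image_of_injOn,
    List.toFinset_card_of_nodup ((keyInj_spec quart_nodup).1.filter _), hn]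
  intro a ha b hb e
  simp only [List.coe_toFinset, List.mem_filter, Set.mem_ofPred_eq] at ha hb
  exact fam_inj (quart_canon ha.1) (quart_canon hb.1) e

theorem q_kinds {d : Finset GolayPt} (hd : d ∈ dodecads) {Q A : Finset (Finset GolayPt)}
    (hQ : Q ∈ quartets d) (hA : A ∈ quartets d) :
    quartKind Q A ∈ [324, 90, 68, 54, 26] ∧ (quartKind Q A = 324 ↔ A = Q) := by
  obtain ⟨σ, hσ, he⟩ := flagQ_move hd hQ
  obtain ⟨e1, e2⟩ := Prod.ext_iff.1 he
  simp only [Prod.smul_fst, Prod.smul_snd] at e1 e2
  subst e1 e2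
  rw [quartets_image hσ] at hA
  obtain ⟨B, hB, rfl⟩ := hA
  obtain ⟨a, ha, rfl⟩ := quart_surj hB
  have hc : canon qAllStart = true := by decide +kernel
  rw [quartKind_smul, quartKind_fam hc (quart_canon ha)]
  have h := qKinds
  simp only [Bool.and_eq_true, List.all_eq_true, Bool.or_eq_true, beq_iff_eq, bne_iff_ne, ne_eq,
    List.elem_eq_mem, decide_eq_true_eq] at h
  refine ⟨h.1.1.1 a ha, fun hk => ?_, fun e => ?_⟩
  · rw [(h.1.1.2 a ha).resolve_right (fun hh => hh hk)]
  · rw [fam_inj (quart_canon ha) hc (MulAction.injective σ e), h.2]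

theorem quartStab_card {d : Finset GolayPt} (hd : d ∈ dodecads) {Q : Finset (Finset GolayPt)}
    (hQ : Q ∈ quartets d) :
    Nat.card ↥(MulAction.stabilizer M24 d ⊓ MulAction.stabilizer M24 Q) = 432 := by
  have h := card_eq_orbit_mul (stSet d) Q (quartets d)
    (fun σ hσ => by
      have := quartets_smul (Subgroup.mem_inf.1 hσ).1 hQ
      rwa [(Subgroup.mem_inf.1 hσ).2] at this)
    (fun B hB => by
      obtain ⟨g, hg, h1, h2⟩ := quartets_trans hd hQ hB
      exact ⟨g, ⟨hg, h1⟩, h2⟩)
  rw [stSet_dodecad_card hd, quartets_ncard hd] at h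
  rw [Nat.card_congr (subEquiv (MulAction.stabilizer M24 d ⊓ MulAction.stabilizer M24 Q)
    (stSet d ⊓ MulAction.stabilizer (Equiv.Perm GolayPt) Q) (fun _ h => h.1.1) fun g => by
    simp [stSet, Subgroup.smul_def]).toEquiv]
  omega

end Cfsg.Agent.Lib.Golay
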