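/-! # Certificates for the stabiliser of a quartet -/

set_option autoImplicit false

namespace Cfsg.Agent.Lib.Golay

/-- The twelve points as lines, indexed by functional and value. -/
def quartLine : List Nat := [0, 0, 0, 16, 9, 12, 16, 12, 9, 4, 6, 8, 13, 18, 3, 1, 0, 2, 4, 8, 6, 1, 2, 0, 13, 3, 18]

/-- A chain of transversals with the induced matrices. -/
def quartChain : List (Nat × List (Nat × Nat)) :=
  [(0, [(444779749954499538388901072953708806, 49),
      (321217791478006430766071498103857348, 13),
      (944577568708982012472075918544273442, 56),
      (798910866242194461281079931797147848, 22),
      (430500681685046200921580527515864498, 29),
      (446068780864376609209694805989703980, 75),
      (311109549368280935053533778475683405, 14),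
      (735305129350752087038063640676672912, 74),
      (217373794081790090800660706060481033, 74),
      (923808734382466936595350226302187075, 21),
      (796549221317846082948893901472333889, 23),
      (944538627742660781242037951888164896, 24)]),
    (1, [(944538627742660781242037951888164896, 24),
      (809578383745993820496847424931136576, 56)]),
    (3, [(944538627742660781242037951888164896, 24),
      (487607080158395075740321133224921120, 23),
      (970499966350631336865513127433832480, 24),
      (970254902120350598020240965873371168, 32),
      (928952864966028496604741530750814240, 23),
      (970531819526550031117983620406741024, 64),
      (487373122709212905255923294881187872, 69),
      (928718206277989008510816407558424608, 69),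
      (487655643029606470073469406179395616, 28)]),
    (4, [(970499966350631336865513127433832480, 24),
      (984818244535754528103549039458486304, 28)])]

/-- Representatives of the quotient. -/
def quartReps : List (Nat × Nat) :=
  [(928961670630385562251800077544259618, 12),
    (321217791478006430766071498103857348, 13),
    (311109549368280935053533778475683405, 14),
    (320203670716173651689760494002900557, 15),
    (970490883673955958398592745249898530, 16),
    (236844494123016412474898338330808582, 17),
    (923808734382466936595350226302187075, 21),
    (798910866242194461281079931797147848, 22),
    (304578856114760588936023993336660994, 23),
    (944538627742660781242037951888164896, 24),
    (320196311662651412574051208856286787, 25),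
    (965062997032436842501230077084209352, 26),
    (438329100525780770555707076251124738, 28),
    (430500681685046200921580527515864498, 29),
    (721260432205138658124619911264215174, 31),
    (313430023415525890754298773081621506, 32),
    (238142711449986091332582980821731437, 34),
    (422744009521042436913211553187535108, 35),
    (435450264294634220035120893716869424, 37),
    (731409653819163473657814751713011088, 38),
    (653801217554157471130319060418511148, 39),
    (731693203133956043132651896720998793, 41),
    (466838620698129561947928406289458700, 42),
    (298097596447104682019262564419187209, 43),
    (632991879653865844330727282537958989, 46),
    (796590033492984268806335733761967168, 47),
    (313431023360684776253914838638004225, 48),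
    (444779749954499538388901072953708806, 49),
    (440640712291044357283020521382136227, 51),
    (479867525610268628874016801470027912, 53),
    (238385896298695445027542599293023346, 55),
    (944577568708982012472075918544273442, 56),
    (799185471102090405243393895078207684, 58),
    (632756876597110664739861999129857613, 59),
    (984534199270930787501087034671562786, 61),
    (237079225979552935239530902103068934, 62),
    (720003170872865069828935811798008834, 64),
    (311069544794049536453005352926459459, 65),
    (736601629363538159888303809699924077, 66),
    (444818888358581078438275559111039236, 67),
    (796314438506030460023293200453468225, 69),
    (965307752155723745327205985732038856, 71),
    (305641628990821681709161138694465036, 73),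
    (735305129350752087038063640676672912, 74),
    (446068780864376609209694805989703980, 75),
    (217616913397124430941681266940192268, 77),
    (217648914019718579888059854921737740, 78),
    (812173999726589297787103076157695376, 79)]

end Cfsg.Agent.Lib.Golay
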