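import Cfsg.Agent.Lib.Golay.QuartOrbits
import Cfsg.Agent.Lib.Golay.Subgroups
import Cfsg.Agent.Lib.Golay.QuartStabData

/-! # The structure of a quartet stabiliser inside a dodecad stabiliser -/

set_option autoImplicit false
set_option maxRecDepth 100000

namespace Cfsg.Agent.Lib.Golay

open Cfsg
open scoped Pointwise Matrix

/-! ### Coded linear algebra over three elements -/

/-- The number of a vector over three elements. -/
def tv (f : Fin 2 → ZMod 3) : ℕ := 3 * (f 0).val + (f 1).val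

/-- The key of a matrix over three elements. -/
def tkey (M : Matrix (Fin 2) (Fin 2) (ZMod 3)) : ℕ :=
  27 * (M 0 0).val + 9 * (M 0 1).val + 3 * (M 1 0).val + (M 1 1).val

/-- The action of a coded matrix on a coded vector. -/
def tmv (k c : ℕ) : ℕ :=
  3 * ((k / 27 * (c / 3) + k / 9 % 3 * (c % 3)) % 3) + (k / 3 % 3 * (c / 3) + k % 3 * (c % 3)) % 3

/-- A coded invertible matrix. -/
def tkeyOK (k : ℕ) : Bool := Nat.blt k 81 && (k / 27 * (k % 3) + 2 * (k / 9 % 3 * (k / 3 % 3))) % 3 != 0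

theorem tv_lt (f : Fin 2 → ZMod 3) : tv f < 9 := by
  have h : ∀ z : ZMod 3, z.val < 3 := fun z => z.val_lt
  have := h (f 0); have := h (f 1)
  simp only [tv]; omega

theorem tv_inj : Function.Injective tv := by
  intro v w h
  have hb : ∀ z : ZMod 3, z.val < 3 := fun z => z.val_lt
  have := hb (v 1); have := hb (w 1)
  simp only [tv] at h
  funext i
  refine ZMod.val_injective 3 ?_
  fin_cases i <;> simp <;> omega

theorem tmv_spec (M : Matrix (Fin 2) (Fin 2) (ZMod 3)) (f : Fin 2 → ZMod 3) :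
    tv (M *ᵥ f) = tmv (tkey M) (tv f) := by
  have key : ∀ a x b y : ZMod 3, (a * x + b * y).val = (a.val * x.val + b.val * y.val) % 3 := by
    decide +kernel
  have hb : ∀ z : ZMod 3, z.val < 3 := fun z => z.val_lt
  have := hb (M 0 0); have := hb (M 0 1); have := hb (M 1 0); have := hb (M 1 1)
  have := hb (f 0); have := hb (f 1)
  have k1 : tkey M / 27 = (M 0 0).val := by simp only [tkey]; omega
  have k2 : tkey M / 9 % 3 = (M 0 1).val := by simp only [tkey]; omega
  have k3 : tkey M / 3 % 3 = (M 1 0).val := by simp only [tkey]; omega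
  have k4 : tkey M % 3 = (M 1 1).val := by simp only [tkey]; omega
  have c1 : tv f / 3 = (f 0).val := by simp only [tv]; omega
  have c2 : tv f % 3 = (f 1).val := by simp only [tv]; omega
  simp only [tmv, k1, k2, k3, k4, c1, c2]
  simp [tv, Matrix.mulVec, dotProduct, Fin.sum_univ_two, key]

theorem tkey_gl (g : GL (Fin 2) (ZMod 3)) :
    tkeyOK (tkey (g : Matrix (Fin 2) (Fin 2) (ZMod 3))) = true := by
  haveI : Fact (Nat.Prime 3) := ⟨Nat.prime_three⟩
  have hdet : (g : Matrix (Fin 2) (Fin 2) (ZMod 3)).det ≠ 0 :=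
    IsUnit.ne_zero ((Matrix.isUnit_iff_isUnit_det _).1 g.isUnit)
  rw [Matrix.det_fin_two] at hdet
  exact tkey_det _ _ _ _ hdet
where
  tkey_det : ∀ a b c d : ZMod 3, a * d - b * c ≠ 0 →
      tkeyOK (27 * a.val + 9 * b.val + 3 * c.val + d.val) = true := by decide +kernel

theorem tgl_of_key {k : ℕ} (h : tkeyOK k = true) :
    ∃ g : GL (Fin 2) (ZMod 3), ∀ f, tv ((g : Matrix (Fin 2) (Fin 2) (ZMod 3)) *ᵥ f) = tmv k (tv f) := by
  have key : ∀ k < 81, tkeyOK k = true → ∃ a b c d : ZMod 3, a * d - b * c ≠ 0 ∧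
      27 * a.val + 9 * b.val + 3 * c.val + d.val = k := by decide +kernel
  haveI : Fact (Nat.Prime 3) := ⟨Nat.prime_three⟩
  have hk : k < 81 := by
    simp only [tkeyOK, Bool.and_eq_true, Nat.blt_eq] at h
    exact h.1
  obtain ⟨a, b, c, d, hdet, he⟩ := key k hk h
  refine ⟨Matrix.GeneralLinearGroup.mkOfDetNeZero !![a, b; c, d]
    (by rwa [Matrix.det_fin_two_of]), fun f => ?_⟩
  rw [tmv_spec]
  show tmv (tkey !![a, b; c, d]) (tv f) = _
  rw [show tkey !![a, b; c, d] = k by simpa [tkey] using he]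

/-! ### The points as lines -/

/-- The point attached to a functional and a value. -/
def qLine (f : Fin 2 → ZMod 3) (c : ZMod 3) : GolayPt := pt (quartLine.getD (3 * tv f + c.val) 0)

theorem qLine_ok : (List.range 8).all (fun i => (List.range 3).all fun c =>
    Nat.blt (quartLine.getD (3 * (i + 1) + c) 0) 24 && (List.range 8).all fun j =>
      (i == j) || (List.range 3).any fun c => (List.range 3).all fun t =>
        quartLine.getD (3 * (i + 1) + c) 0 != quartLine.getD (3 * (j + 1) + t) 0 ||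
          (List.range 3).any fun c' => quartLine.getD (3 * (i + 1) + c') 0 !=
            quartLine.getD (3 * (j + 1) + (c' + (t + 2 * c)) % 3) 0) = true := by
  decide +kernel

theorem qLine_sep {f g : Fin 2 → ZMod 3} (hf : f ≠ 0) (hg : g ≠ 0) (t : ZMod 3)
    (h : ∀ c, qLine f c = qLine g (c + t)) : f = g := by
  by_contra hne
  have hf0 : tv f ≠ 0 := fun e => hf (tv_inj (e.trans (by rfl)))
  have hg0 : tv g ≠ 0 := fun e => hg (tv_inj (e.trans (by rfl)))
  have hne' : tv f ≠ tv g := fun e => hne (tv_inj e)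
  have := tv_lt f; have := tv_lt g
  have hok := qLine_ok
  simp only [List.all_eq_true, List.mem_range, Bool.and_eq_true, Nat.blt_eq, Bool.or_eq_true,
    beq_iff_eq, List.any_eq_true, bne_iff_ne, ne_eq] at hok
  have hi := hok (tv f - 1) (by omega)
  have hj := hok (tv g - 1) (by omega)
  have eq1 : tv f - 1 + 1 = tv f := by omega
  have eq2 : tv g - 1 + 1 = tv g := by omega
  have heq : ∀ c : ZMod 3, quartLine.getD (3 * tv f + c.val) 0 =
      quartLine.getD (3 * tv g + (c + t).val) 0 := fun c => by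
    have l1 := (hi c.val c.val_lt).1
    have l2 := (hj (c + t).val (c + t).val_lt).1
    rw [eq1] at l1
    rw [eq2] at l2
    have := congrArg ix (h c)
    rwa [qLine, qLine, ix_pt l1, ix_pt l2] at this
  obtain ⟨c0, hc0, hall⟩ := ((hi 0 (by norm_num)).2 (tv g - 1) (by omega)).resolve_left (by omega)
  rw [eq1, eq2] at hall
  have hv : ∀ c < 3, ((c : ℕ) : ZMod 3).val = c := fun c hc => ZMod.val_natCast_of_lt hc
  rcases hall ((c0 : ZMod 3) + t).val (((c0 : ℕ) : ZMod 3) + t).val_lt with h1 | ⟨c', hc', h1⟩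
  · exact h1 (by rw [← heq, hv c0 hc0])
  · refine h1 ?_
    have := heq ((c' : ℕ) : ZMod 3)
    rw [hv c' hc'] at this
    rw [this]
    congr 2
    rw [ZMod.val_add, ZMod.val_add, hv c' hc', hv c0 hc0]
    omega

/-- The linear part of a symmetry of the twelve lines. -/
def QCompat (σ : Equiv.Perm GolayPt) (g : GL (Fin 2) (ZMod 3)) : Prop :=
  ∀ f, f ≠ 0 → ∃ t : ZMod 3, ∀ c,
    σ (qLine f c) = qLine ((g : Matrix (Fin 2) (Fin 2) (ZMod 3)) *ᵥ f) (c + t)

theorem gl2_ne {g : GL (Fin 2) (ZMod 3)} {f : Fin 2 → ZMod 3} (hf : f ≠ 0) :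
    (g : Matrix (Fin 2) (Fin 2) (ZMod 3)) *ᵥ f ≠ 0 := by
  intro h
  apply hf
  haveI : Fact (Nat.Prime 3) := ⟨Nat.prime_three⟩
  exact Matrix.mulVec_injective_iff_isUnit.2 g.isUnit (h.trans (Matrix.mulVec_zero _).symm)

theorem QCompat.unique {σ : Equiv.Perm GolayPt} {g h : GL (Fin 2) (ZMod 3)}
    (hg : QCompat σ g) (hh : QCompat σ h) : g = h := by
  refine Units.ext (Matrix.ext_of_mulVec_single fun i => ?_)
  have hne : (Pi.single i 1 : Fin 2 → ZMod 3) ≠ 0 := by
    intro e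
    have := congrFun e i
    simp at this
  obtain ⟨t, ht⟩ := hg _ hne
  obtain ⟨s, hs⟩ := hh _ hne
  refine qLine_sep (gl2_ne hne) (gl2_ne hne) (s - t) fun c => ?_
  have := (ht (c - t)).symm.trans (hs (c - t))
  rw [sub_add_cancel] at this
  rw [this]
  congr 1
  ring

theorem QCompat.mul {σ τ : Equiv.Perm GolayPt} {g h : GL (Fin 2) (ZMod 3)}
    (hg : QCompat σ g) (hh : QCompat τ h) : QCompat (σ * τ) (g * h) := by
  intro f hf
  obtain ⟨t, ht⟩ := hh f hf
  obtain ⟨s, hs⟩ := hg _ (gl2_ne hf)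
  refine ⟨t + s, fun c => ?_⟩
  rw [Equiv.Perm.mul_apply, ht, hs, Units.val_mul, ← Matrix.mulVec_mulVec, add_assoc]

theorem QCompat.one : QCompat 1 1 := fun f _ => ⟨0, fun c => by simp⟩

theorem QCompat.inv {σ : Equiv.Perm GolayPt} {g : GL (Fin 2) (ZMod 3)} (hg : QCompat σ g) :
    QCompat σ⁻¹ g⁻¹ := by
  intro f hf
  obtain ⟨t, ht⟩ := hg _ (gl2_ne (g := g⁻¹) hf)
  refine ⟨-t, fun c => ?_⟩
  rw [Equiv.Perm.inv_eq_iff_eq, ht, neg_add_cancel_right, Matrix.mulVec_mulVec]
  simp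

/-- The standard dodecad and quartet stabiliser. -/
def qBaseStab : Subgroup (Equiv.Perm GolayPt) :=
  stSet (toSet d0) ⊓ MulAction.stabilizer (Equiv.Perm GolayPt) (fam qAllStart)

/-- Those elements inducing a linear map on the lines. -/
def quartC : Subgroup (Equiv.Perm GolayPt) where
  carrier := {σ | σ ∈ qBaseStab ∧ ∃ g, QCompat σ g}
  one_mem' := ⟨one_mem _, 1, QCompat.one⟩
  mul_mem' := fun ⟨a1, g, a2⟩ ⟨b1, h, b2⟩ => ⟨mul_mem a1 b1, g * h, a2.mul b2⟩
  inv_mem' := fun ⟨a1, g, a2⟩ => ⟨inv_mem a1, g⁻¹, a2.inv⟩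

/-- The linear part. -/
noncomputable def quartRho : quartC →* GL (Fin 2) (ZMod 3) where
  toFun σ := σ.2.2.choose
  map_one' := (1 : quartC).2.2.choose_spec.unique QCompat.one
  map_mul' σ τ := (σ * τ).2.2.choose_spec.unique (σ.2.2.choose_spec.mul τ.2.2.choose_spec)

theorem quartRho_eq {σ : quartC} {g : GL (Fin 2) (ZMod 3)} (h : QCompat σ.1 g) :
    quartRho σ = g :=
  σ.2.2.choose_spec.unique h

/-- A coded element with coded linear part is correct. -/
def quartEntryOK (e : ℕ × ℕ) : Bool :=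
  inM24 e.1 && (act e.1 d0 == d0) && (actFam e.1 qAllStart == qAllStart) && tkeyOK e.2 &&
    (List.range 8).all fun i => (List.range 3).any fun t => (List.range 3).all fun c =>
      Nat.blt (quartLine.getD (3 * (i + 1) + c) 0) 24 &&
        img e.1 (quartLine.getD (3 * (i + 1) + c) 0) ==
          quartLine.getD (3 * tmv e.2 (i + 1) + (c + t) % 3) 0

theorem quartEntry_spec {e : ℕ × ℕ} (h : quartEntryOK e = true) :
    toPerm e.1 ∈ quartC ∧ ∃ g : GL (Fin 2) (ZMod 3),
      (∀ f, tv ((g : Matrix (Fin 2) (Fin 2) (ZMod 3)) *ᵥ f) = tmv e.2 (tv f)) ∧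
        QCompat (toPerm e.1) g := by
  simp only [quartEntryOK, Bool.and_eq_true, List.all_eq_true, List.mem_range, beq_iff_eq,
    List.any_eq_true, Nat.blt_eq] at h
  obtain ⟨⟨⟨⟨h1, h2⟩, h3⟩, h4⟩, h5⟩ := h
  have hv := valid_of_inM24 h1
  obtain ⟨g, hg⟩ := tgl_of_key h4
  have hc : QCompat (toPerm e.1) g := by
    intro f hf
    have hf0 : tv f ≠ 0 := fun e => hf (tv_inj (e.trans (by rfl)))
    have := tv_lt f
    obtain ⟨t, ht, hall⟩ := h5 (tv f - 1) (by omega)
    refine ⟨(t : ZMod 3), fun c => ?_⟩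
    obtain ⟨hlt, himg⟩ := hall c.val c.val_lt
    rw [show tv f - 1 + 1 = tv f by omega] at hlt himg
    rw [qLine, toPerm_pt hv hlt, himg, qLine, hg, ZMod.val_add, ZMod.val_natCast_of_lt ht]
  refine ⟨⟨⟨⟨toPerm_mem_M24 h1, ?_⟩, ?_⟩, g, hc⟩, g, hg, hc⟩
  · show toPerm e.1 • toSet d0 = toSet d0
    rw [smul_toSet hv, h2]
  · show toPerm e.1 • fam qAllStart = fam qAllStart
    rw [← fam_actFam hv, h3]

theorem quartChain_ok : (quartChain.all fun e => e.2.all quartEntryOK) = true ∧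
    chainOK 0 (quartChain.map fun e => (e.1, e.2.map Prod.fst)) = true ∧
    chainSize (quartChain.map fun e => (e.1, e.2.map Prod.fst)) = 432 ∧
    (match quartChain with
      | [] => false
      | e :: _ => e.1 == 0 && keySet (fun t => img t 0) (e.2.map Prod.fst) == d0) = true := by
  refine ⟨?_, ?_, ?_, ?_⟩ <;> decide +kernel

theorem quartReps_ok : quartReps.all quartEntryOK = true ∧
    ((List.range 81).all fun k => !tkeyOK k || quartReps.any fun e => e.2 == k) = true := by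
  refine ⟨?_, ?_⟩ <;> decide +kernel

theorem qBaseStab_card : Nat.card qBaseStab = 432 := by
  rw [← quartStab_card d0_dodecad qStd_quartet]
  exact (Nat.card_congr (subEquiv (MulAction.stabilizer M24 (toSet d0) ⊓
    MulAction.stabilizer M24 (fam qAllStart)) qBaseStab (fun _ h => h.1.1) fun g => by
      simp [qBaseStab, stSet, Subgroup.smul_def]).toEquiv).symm

theorem quartC_eq : quartC = qBaseStab := by
  obtain ⟨h1, h2, h3, -⟩ := quartChain_ok
  refine eq_of_chain (fun σ hσ => hσ.1) h2 ?_ (by rw [h3, qBaseStab_card])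
  intro e he t ht
  obtain ⟨e', he', rfl⟩ := List.mem_map.1 he
  obtain ⟨x, hx, rfl⟩ := List.mem_map.1 ht
  exact (quartEntry_spec (List.all_eq_true.1 (List.all_eq_true.1 h1 e' he') x hx)).1

theorem quartRho_surj : Function.Surjective quartRho := by
  obtain ⟨hok, htab⟩ := quartReps_ok
  intro g
  have hk := tkey_gl g
  have hlt : tkey (g : Matrix (Fin 2) (Fin 2) (ZMod 3)) < 81 := by
    have := hk
    simp only [tkeyOK, Bool.and_eq_true, Nat.blt_eq] at this
    exact this.1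
  have h := List.all_eq_true.1 htab _ (List.mem_range.2 hlt)
  rw [hk] at h
  simp only [Bool.not_true, Bool.false_or, List.any_eq_true, beq_iff_eq] at h
  obtain ⟨e, he, hek⟩ := h
  obtain ⟨hm, g', hg', hc⟩ := quartEntry_spec (List.all_eq_true.1 hok e he)
  refine ⟨⟨_, hm⟩, quartRho_eq ?_⟩
  rwa [show g = g' from Units.ext (Matrix.ext_of_mulVec_single fun i => tv_inj (by
    rw [hg', hek, tmv_spec]))]

theorem quartRho_ker_card : Nat.card quartRho.ker = 9 := by
  have hv : Nat.card (GL (Fin 2) (ZMod 3)) = 48 := by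
    haveI : Fact (Nat.Prime 3) := ⟨Nat.prime_three⟩
    rw [Matrix.card_GL_field]
    simp [Fin.prod_univ_two, ZMod.card]
  have h := Subgroup.card_mul_index quartRho.ker
  rw [Subgroup.index_ker, MonoidHom.range_eq_top_of_surjective _ quartRho_surj, Subgroup.card_top,
    hv, show Nat.card quartC = 432 by rw [quartC_eq]; exact qBaseStab_card] at h
  omega

theorem quartC_trans {q : GolayPt} (hq : q ∈ toSet d0) : ∃ σ ∈ quartC, σ (pt 0) = q := by
  obtain ⟨h1, -, -, h4⟩ := quartChain_ok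
  generalize hL : quartChain = L at h1 h4
  match L, h4 with
  | e :: _, h4 =>
    simp only [Bool.and_eq_true, beq_iff_eq] at h4
    obtain ⟨-, hkey⟩ := h4
    rw [mem_toSet, ← hkey, testBit_keySet] at hq
    obtain ⟨t, ht, he⟩ := hq
    obtain ⟨x, hx, rfl⟩ := List.mem_map.1 ht
    have hx' := List.all_eq_true.1 (List.all_eq_true.1 h1 e List.mem_cons_self) x hx
    have hv : valid x.1 = true := by
      simp only [quartEntryOK, Bool.and_eq_true] at hx'
      exact valid_of_inM24 hx'.1.1.1.1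
    exact ⟨_, (quartEntry_spec hx').1, by rw [toPerm_pt hv (by norm_num), he, pt_ix]⟩

theorem quart_structure {d : Finset GolayPt} (hd : d ∈ dodecads) {Q : Finset (Finset GolayPt)}
    (hQ : Q ∈ quartets d) :
    (∃ (N : Subgroup ↥(MulAction.stabilizer M24 d ⊓ MulAction.stabilizer M24 Q)) (_ : N.Normal),
      Nat.card N = 9 ∧ Nonempty (↥(MulAction.stabilizer M24 d ⊓ MulAction.stabilizer M24 Q) ⧸ N ≃*
        GL (Fin 2) (ZMod 3))) ∧
    ∀ p ∈ d, ∀ q ∈ d, ∃ g ∈ (MulAction.stabilizer M24 d ⊓ MulAction.stabilizer M24 Q),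
      ((g : ↥M24) : Equiv.Perm GolayPt) p = q := by
  classical
  obtain ⟨σ, hσ, he⟩ := flagQ_move hd hQ
  obtain ⟨e1, e2⟩ := Prod.ext_iff.1 he
  simp only [Prod.smul_fst, Prod.smul_snd] at e1 e2
  subst e1 e2
  have hiff : ∀ g : Equiv.Perm GolayPt, g ∈ M24 ∧ g • (σ • toSet d0) = σ • toSet d0 ∧
      g • (σ • fam qAllStart) = σ • fam qAllStart ↔ σ⁻¹ * g * σ ∈ quartC := by
    intro g
    rw [quartC_eq, qBaseStab, stSet]
    rw [Subgroup.mem_inf, Subgroup.mem_inf, and_assoc]
    refine and_congr ⟨fun h => mul_mem (mul_mem (inv_mem hσ) h) hσ, fun h => ?_⟩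
      (and_congr ?_ ?_)
    · simpa [mul_assoc] using mul_mem (mul_mem hσ h) (inv_mem hσ)
    · show _ ↔ (σ⁻¹ * g * σ) • toSet d0 = toSet d0
      rw [mul_smul, mul_smul, inv_smul_eq_iff]
    · show _ ↔ (σ⁻¹ * g * σ) • fam qAllStart = fam qAllStart
      rw [mul_smul, mul_smul, inv_smul_eq_iff]
  set A := MulAction.stabilizer M24 (σ • toSet d0) ⊓ MulAction.stabilizer M24 (σ • fam qAllStart)
  let c : ↥A →* quartC :=
    { toFun := fun g => ⟨σ⁻¹ * (g : M24).1 * σ, (hiff _).1 ⟨g.1.2, g.2.1, g.2.2⟩⟩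
      map_one' := Subtype.ext (by simp)
      map_mul' := fun g h => Subtype.ext (by simp [mul_assoc]) }
  have hc : Function.Injective c := fun g h e => Subtype.ext (Subtype.ext (mul_left_cancel
    (mul_right_cancel (congrArg (fun z : quartC => (z : Equiv.Perm GolayPt)) e :))))
  have hcs : Function.Surjective c := fun y =>
    have hy := (hiff (σ * y.1 * σ⁻¹)).2 (by simp [mul_assoc])
    ⟨⟨⟨_, hy.1⟩, hy.2.1, hy.2.2⟩, Subtype.ext (by simp [c, mul_assoc])⟩
  set f := quartRho.comp c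
  have hf : Function.Surjective f := quartRho_surj.comp hcs
  refine ⟨⟨f.ker, inferInstance, ?_, ⟨QuotientGroup.quotientKerEquivOfSurjective f hf⟩⟩, ?_⟩
  · rw [← quartRho_ker_card]
    exact Nat.card_congr (Equiv.subtypeEquiv (Equiv.ofBijective c ⟨hc, hcs⟩) fun g => Iff.rfl)
  · intro p hp q hq
    obtain ⟨a, ha, hpa⟩ := Finset.mem_smul_finset.1 hp
    obtain ⟨b, hb, hqb⟩ := Finset.mem_smul_finset.1 hq
    obtain ⟨u, hu, hua⟩ := quartC_trans ha
    obtain ⟨v, hv, hvb⟩ := quartC_trans hb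
    have hmem := (hiff (σ * (v * u⁻¹) * σ⁻¹)).2 (by
      simpa [mul_assoc] using mul_mem hv (inv_mem hu))
    refine ⟨⟨_, hmem.1⟩, ⟨hmem.2.1, hmem.2.2⟩, ?_⟩
    show (σ * (v * u⁻¹) * σ⁻¹) p = q
    rw [← hpa, ← hqb, ← hvb, ← hua]
    simp

end Cfsg.Agent.Lib.Golay
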