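import Cfsg.Agent.Lib.Golay.Families
import Cfsg.Agent.Lib.Golay.Mathieu
import Cfsg.Agent.Lib.Golay.QuartData

/-! # Quartets of a dodecad -/

set_option autoImplicit false
set_option maxRecDepth 100000

namespace Cfsg.Agent.Lib.Golay

open Cfsg
open scoped Pointwise

/-- The triples inside the standard dodecad. -/
def triList : List ℕ := (combs 24 3).filter fun m => m &&& d0 == m

theorem hex_table : ((octList.all fun o => pc (o &&& d0) != 6 || hexList.elem (o &&& d0)) &&
    hexList.all fun h => pc h == 6 && Nat.blt h 16777216 &&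
      octList.any fun o => o &&& d0 == h) = true := by
  decide +kernel

theorem mem_hexadsOn_d0 {h : Finset GolayPt} :
    h ∈ hexadsOn (toSet d0) ↔ ∃ m ∈ hexList, toSet m = h := by
  have ht := hex_table
  simp only [Bool.and_eq_true, List.all_eq_true, Bool.or_eq_true, bne_iff_ne, ne_eq, beq_iff_eq,
    List.elem_eq_mem, decide_eq_true_eq, List.any_eq_true, Nat.blt_eq] at ht
  constructor
  · rintro ⟨h6, o, ho, rfl⟩
    obtain ⟨m, hm, rfl⟩ := mem_octads.1 ho
    rw [← toSet_and, card_toSet] at h6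
    exact ⟨_, (ht.1 m hm).resolve_left (fun h => h h6), toSet_and _ _⟩
  · rintro ⟨m, hm, rfl⟩
    obtain ⟨⟨h6, -⟩, o, ho, he⟩ := ht.2 m hm
    exact ⟨by rw [card_toSet, h6], toSet o, mem_octads.2 ⟨o, ho, rfl⟩, by rw [← toSet_and, he]⟩

/-- The test for a coded quartet. -/
def isQuart (a : List ℕ) : Bool :=
  canon a && a.length == 4 && a.all (fun t => pc t == 3 && t &&& d0 == t) &&
    a.all fun t => a.all fun u => t == u || hexList.elem (t ||| u)

theorem quart_all : quartList.all isQuart = true := by decide +kernel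

theorem quart_len : quartList.length = 220 := by decide +kernel

theorem quart_nodup : (keyInj (fun a => (a.getD 3 0 * 65537 + a.getD 2 0) % 1048573) quartList 0)
    = true := by decide +kernel

theorem quart_complete : (triList.all fun t => t &&& 2 != 2 || triList.all fun u =>
    t &&& u != 0 || !hexList.elem (t ||| u) || triList.all fun v =>
      v &&& (t ||| u) != 0 || !(hexList.elem (t ||| v) && hexList.elem (u ||| v) &&
        hexList.elem (t ||| (d0 ^^^ (t ||| u ||| v))) &&
          hexList.elem (u ||| (d0 ^^^ (t ||| u ||| v)))) ||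
        quartList.elem (isort [t, u, v, d0 ^^^ (t ||| u ||| v)])) = true := by
  decide +kernel

theorem quart_pair : (quartList.all fun a => quartList.all fun b => a == b ||
    Nat.blt (a.filter fun t => b.elem t).length 2) = true := by decide +kernel

theorem isQuart_mem {a : List ℕ} (h : isQuart a = true) :
    canon a = true ∧ fam a ∈ quartets (toSet d0) := by
  simp only [isQuart, Bool.and_eq_true, beq_iff_eq, List.all_eq_true, Bool.or_eq_true,
    List.elem_eq_mem, decide_eq_true_eq] at h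
  obtain ⟨⟨⟨hc, hl⟩, h3⟩, h6⟩ := h
  have hlt : ∀ m ∈ a, m < 16777216 := by
    have := hc
    simp only [canon, Bool.and_eq_true, List.all_eq_true, Nat.blt_eq] at this
    exact this.2
  refine ⟨hc, by rw [card_fam hc, hl], ?_, ?_⟩
  · intro t ht
    obtain ⟨m, hm, rfl⟩ := mem_fam.1 ht
    exact ⟨by rw [card_toSet]; exact (h3 m hm).1,
      (toSet_subset (hlt m hm)).2 (h3 m hm).2⟩
  · intro t ht u hu hne
    obtain ⟨m, hm, rfl⟩ := mem_fam.1 ht
    obtain ⟨m', hm', rfl⟩ := mem_fam.1 hu
    rcases h6 m hm m' hm' with rfl | h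
    · exact absurd rfl hne
    · exact mem_hexadsOn_d0.2 ⟨_, h, toSet_or _ _⟩

theorem quart_surj {A : Finset (Finset GolayPt)} (hA : A ∈ quartets (toSet d0)) :
    ∃ a ∈ quartList, fam a = A := by
  classical
  obtain ⟨h4, h3, h6⟩ := hA
  have hdis : ∀ x ∈ A, ∀ y ∈ A, x ≠ y → Disjoint x y := by
    intro x hx y hy hne
    have := (h6 x hx y hy hne).1
    have hu := Finset.card_union_add_card_inter x y
    rw [(h3 x hx).1, (h3 y hy).1] at hu
    exact Finset.disjoint_iff_inter_eq_empty.2 (Finset.card_eq_zero.1 (by omega))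
  have hcov : A.biUnion (fun x => x) = toSet d0 := by
    refine Finset.eq_of_subset_of_card_le (Finset.biUnion_subset.2 fun x hx => (h3 x hx).2) ?_
    rw [Finset.card_biUnion hdis, Finset.sum_congr rfl (g := fun _ => 3) (fun x hx => (h3 x hx).1),
      Finset.sum_const, h4, dodecads_card d0_dodecad]
    rfl
  have h1 : pt 1 ∈ toSet d0 := by decide +kernel
  rw [← hcov, Finset.mem_biUnion] at h1
  obtain ⟨t, ht, ht1⟩ := h1
  obtain ⟨u, v, w, huv, huw, hvw, hr⟩ := Finset.card_eq_three.1
    (show (A.erase t).card = 3 by rw [Finset.card_erase_of_mem ht, h4])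
  have hm : ∀ x ∈ ({u, v, w} : Finset _), x ∈ A ∧ x ≠ t := fun x hx =>
    ⟨(Finset.mem_erase.1 (hr ▸ hx)).2, (Finset.mem_erase.1 (hr ▸ hx)).1⟩
  obtain ⟨hu, hut⟩ := hm u (by simp)
  obtain ⟨hv, hvt⟩ := hm v (by simp)
  obtain ⟨hw, hwt⟩ := hm w (by simp)
  obtain ⟨mt, lt_, rfl⟩ := exists_mask t
  obtain ⟨mu, lu, rfl⟩ := exists_mask u
  obtain ⟨mv, lv, rfl⟩ := exists_mask v
  obtain ⟨mw, lw, rfl⟩ := exists_mask w
  have tri : ∀ m, m < 16777216 → toSet m ∈ A → m ∈ triList := fun m hlt hm =>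
    List.mem_filter.2 ⟨mem_combs24 hlt (by rw [← card_toSet]; exact (h3 _ hm).1),
      by simpa using (toSet_subset hlt).1 (h3 _ hm).2⟩
  have zero : ∀ {a b : ℕ}, a < 16777216 → toSet a ∈ A → toSet b ∈ A → toSet a ≠ toSet b →
      a &&& b = 0 := fun ha hA hB hne => (toSet_disjoint ha).1 (hdis _ hA _ hB hne)
  have hex : ∀ {a b : ℕ}, a < 16777216 → b < 16777216 → toSet a ∈ A → toSet b ∈ A →
      toSet a ≠ toSet b → a ||| b ∈ hexList := by
    intro a b la lb ha hb hne
    obtain ⟨m, hm, he⟩ := mem_hexadsOn_d0.1 (h6 _ ha _ hb hne)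
    have ht := hex_table
    simp only [Bool.and_eq_true, List.all_eq_true, Nat.blt_eq] at ht
    rw [← toSet_or] at he
    rw [← eq_of_toSet_eq (ht.2 m hm).1.2 (Nat.or_lt_two_pow (n := 24) la lb) he]
    exact hm
  have hA4 : A = {toSet mt, toSet mu, toSet mv, toSet mw} := by
    rw [← hr, Finset.insert_erase ht]
  have hrest : d0 ^^^ (mt ||| mu ||| mv) = mw := by
    have hd : d0 = mt ||| mu ||| mv ||| mw := by
      refine eq_of_toSet_eq (by decide) (Nat.or_lt_two_pow (n := 24) (Nat.or_lt_two_pow (n := 24)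
        (Nat.or_lt_two_pow (n := 24) lt_ lu) lv) lw) ?_
      rw [← hcov, toSet_or, toSet_or, toSet_or, hA4]
      simp [Finset.union_assoc]
    have h0 : (mt ||| mu ||| mv) &&& mw = 0 := by
      rw [Nat.and_or_distrib_right, Nat.and_or_distrib_right, zero lt_ ht hw (Ne.symm hwt),
        zero lu hu hw huw, zero lv hv hw hvw]
      rfl
    rw [hd]
    apply Nat.eq_of_testBit_eq
    intro i
    have := congrArg (fun n => Nat.testBit n i) h0
    simp only [Nat.testBit_and, Nat.zero_testBit, Nat.testBit_or] at this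
    simp only [Nat.testBit_xor, Nat.testBit_or]
    cases hh : mw.testBit i <;>
      cases hh1 : (mt.testBit i || mu.testBit i || mv.testBit i) <;> simp_all
  have h2 : mt &&& 2 = 2 := by
    rw [mem_toSet, ix_pt (by norm_num)] at ht1
    apply Nat.eq_of_testBit_eq
    intro i
    rw [Nat.testBit_and, show (2 : ℕ) = 2 ^ 1 from rfl, Nat.testBit_two_pow]
    by_cases h : 1 = i
    · subst h; simp [ht1]
    · simp [h]
  have h := List.all_eq_true.1 quart_complete mt (tri mt lt_ ht)
  simp only [Bool.or_eq_true, bne_iff_ne, ne_eq, h2, not_true_eq_false, false_or,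
    List.all_eq_true] at h
  have h := h mu (tri mu lu hu)
  have h := h.resolve_left (by simp [zero lt_ ht hu (Ne.symm hut), hex lt_ lu ht hu (Ne.symm hut)])
  have h := h mv (tri mv lv hv)
  have hz : mv &&& (mt ||| mu) = 0 := by
    rw [Nat.and_or_distrib_left, zero lv hv ht hvt, zero lv hv hu (Ne.symm huv)]; rfl
  rw [hrest] at h
  simp [hz, hex lt_ lv ht hv (Ne.symm hvt), hex lu lv hu hv huv, hex lt_ lw ht hw (Ne.symm hwt),
    hex lu lw hu hw huw] at h
  refine ⟨_, h, ?_⟩
  rw [hA4]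
  ext x
  simp [mem_fam, mem_isort, eq_comm]

theorem quart_canon {a : List ℕ} (ha : a ∈ quartList) : canon a = true :=
  (isQuart_mem (List.all_eq_true.1 quart_all a ha)).1

theorem quartets_d0_ncard : (quartets (toSet d0)).ncard = 220 := by
  classical
  have : quartets (toSet d0) = ↑(quartList.toFinset.image fam) := by
    ext A
    simp only [Finset.coe_image, Set.mem_image, List.coe_toFinset, Set.mem_ofPred_eq]
    exact ⟨fun h => quart_surj h,
      fun ⟨a, ha, e⟩ => e ▸ (isQuart_mem (List.all_eq_true.1 quart_all a ha)).2⟩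
  rw [this, Set.ncard_coe_finset, Finset.card_image_of_injOn,
    List.toFinset_card_of_nodup (keyInj_spec quart_nodup).1, quart_len]
  intro a ha b hb e
  exact fam_inj (quart_canon (by simpa using ha)) (quart_canon (by simpa using hb)) e

theorem quart_unique_d0 {A B : Finset (Finset GolayPt)} (hA : A ∈ quartets (toSet d0))
    (hB : B ∈ quartets (toSet d0)) {t u : Finset GolayPt} (htA : t ∈ A) (huA : u ∈ A)
    (htB : t ∈ B) (huB : u ∈ B) (hne : t ≠ u) : A = B := by
  obtain ⟨a, ha, rfl⟩ := quart_surj hA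
  obtain ⟨b, hb, rfl⟩ := quart_surj hB
  have := List.all_eq_true.1 (List.all_eq_true.1 quart_pair a ha) b hb
  simp only [Bool.or_eq_true, beq_iff_eq, Nat.blt_eq] at this
  rcases this with rfl | hlt
  · rfl
  exfalso
  have hlta : ∀ {c : List ℕ}, c ∈ quartList → ∀ m ∈ c, m < 16777216 := by
    intro c hc
    have := quart_canon hc
    simp only [canon, Bool.and_eq_true, List.all_eq_true, Nat.blt_eq] at this
    exact this.2
  obtain ⟨m, hm, rfl⟩ := mem_fam.1 htA
  obtain ⟨n, hn, rfl⟩ := mem_fam.1 huA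
  obtain ⟨m', hm', e⟩ := mem_fam.1 htB
  obtain ⟨n', hn', e'⟩ := mem_fam.1 huB
  obtain rfl := eq_of_toSet_eq (hlta hb m' hm') (hlta ha m hm) e
  obtain rfl := eq_of_toSet_eq (hlta hb n' hn') (hlta ha n hn) e'
  have h1 : m' ∈ a.filter fun t => b.elem t := List.mem_filter.2 ⟨hm, by simpa using hm'⟩
  have h2 : n' ∈ a.filter fun t => b.elem t := List.mem_filter.2 ⟨hn, by simpa using hn'⟩
  match hL : a.filter (fun t => b.elem t), h1, h2, hlt with
  | [], h1, _, _ => simp at h1
  | [x], h1, h2, _ =>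
    simp only [List.mem_singleton] at h1 h2
    exact hne (by rw [h1, h2])
  | _ :: _ :: _, _, _, hlt => simp at hlt

theorem hexadsOn_smul {σ : Equiv.Perm GolayPt} (hσ : σ ∈ M24) {d h : Finset GolayPt}
    (hh : h ∈ hexadsOn d) : σ • h ∈ hexadsOn (σ • d) := by
  obtain ⟨h6, o, ho, rfl⟩ := hh
  exact ⟨by rw [Finset.card_smul_finset, h6], σ • o, smul_mem_octads hσ ho,
    (Finset.smul_finset_inter).symm⟩

theorem quartets_smul {σ : Equiv.Perm GolayPt} (hσ : σ ∈ M24) {d : Finset GolayPt}
    {A : Finset (Finset GolayPt)} (hA : A ∈ quartets d) : σ • A ∈ quartets (σ • d) := by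
  obtain ⟨h4, h3, h6⟩ := hA
  refine ⟨by rw [Finset.card_smul_finset, h4], ?_, ?_⟩
  · intro t ht
    obtain ⟨x, hx, rfl⟩ := Finset.mem_smul_finset.1 ht
    exact ⟨by rw [Finset.card_smul_finset, (h3 x hx).1],
      Finset.smul_finset_subset_smul_finset (h3 x hx).2⟩
  · intro t ht u hu hne
    obtain ⟨x, hx, rfl⟩ := Finset.mem_smul_finset.1 ht
    obtain ⟨y, hy, rfl⟩ := Finset.mem_smul_finset.1 hu
    rw [← Finset.smul_finset_union]
    exact hexadsOn_smul hσ (h6 x hx y hy fun e => hne (by rw [e]))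

theorem quartets_image {σ : Equiv.Perm GolayPt} (hσ : σ ∈ M24) (d : Finset GolayPt) :
    quartets (σ • d) = (fun A : Finset (Finset GolayPt) => σ • A) '' quartets d := by
  ext A
  constructor
  · intro hA
    refine ⟨σ⁻¹ • A, ?_, smul_inv_smul σ A⟩
    have := quartets_smul (inv_mem hσ) hA
    rwa [inv_smul_smul] at this
  · rintro ⟨B, hB, rfl⟩
    exact quartets_smul hσ hB

theorem quart_unique {d : Finset GolayPt} (hd : d ∈ dodecads) {A B : Finset (Finset GolayPt)}
    (hA : A ∈ quartets d) (hB : B ∈ quartets d) {t u : Finset GolayPt} (htA : t ∈ A) (huA : u ∈ A)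
    (htB : t ∈ B) (huB : u ∈ B) (hne : t ≠ u) : A = B := by
  obtain ⟨σ, hσ, rfl⟩ := M24_trans_dodecads d0_dodecad hd
  rw [quartets_image hσ] at hA hB
  obtain ⟨A', hA', rfl⟩ := hA
  obtain ⟨B', hB', rfl⟩ := hB
  obtain ⟨t', ht', rfl⟩ := Finset.mem_smul_finset.1 htA
  obtain ⟨u', hu', rfl⟩ := Finset.mem_smul_finset.1 huA
  rw [quart_unique_d0 hA' hB' ht' hu' (Finset.smul_mem_smul_finset_iff σ |>.1 htB)
    (Finset.smul_mem_smul_finset_iff σ |>.1 huB) fun e => hne (by rw [e])]

theorem quartets_ncard {d : Finset GolayPt} (hd : d ∈ dodecads) : (quartets d).ncard = 220 := by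
  obtain ⟨σ, hσ, rfl⟩ := M24_trans_dodecads d0_dodecad hd
  rw [quartets_image hσ, Set.ncard_image_of_injective _ (MulAction.injective σ),
    quartets_d0_ncard]

/-- Five points of a dodecad and the hexad through them determine the image of the hexad. -/
theorem hexad_pair_trans {d : Finset GolayPt} (hd : d ∈ dodecads) {t u t' u' : Finset GolayPt}
    (ht : t.card = 3) (hu : u.card = 3) (htu : Disjoint t u) (hh : t ∪ u ∈ hexadsOn d)
    (ht' : t'.card = 3) (hu' : u'.card = 3) (htu' : Disjoint t' u') (hh' : t' ∪ u' ∈ hexadsOn d) :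
    ∃ g ∈ stSet d, g • t = t' ∧ g • u = u' := by
  classical
  obtain ⟨a, b, c, hab, hac, hbc, rfl⟩ := Finset.card_eq_three.1 ht
  obtain ⟨e, f, k, hef, hek, hfk, rfl⟩ := Finset.card_eq_three.1 hu
  obtain ⟨a', b', c', hab', hac', hbc', rfl⟩ := Finset.card_eq_three.1 ht'
  obtain ⟨e', f', k', hef', hek', hfk', rfl⟩ := Finset.card_eq_three.1 hu'
  obtain ⟨h6, o, ho, heq⟩ := hh
  obtain ⟨h6', o', ho', heq'⟩ := hh'
  have hsub : ({a, b, c} ∪ {e, f, k} : Finset GolayPt) ⊆ d := heq ▸ Finset.inter_subset_right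
  have hsub' : ({a', b', c'} ∪ {e', f', k'} : Finset GolayPt) ⊆ d :=
    heq' ▸ Finset.inter_subset_right
  simp only [Finset.disjoint_insert_left, Finset.disjoint_singleton_left, Finset.mem_insert,
    Finset.mem_singleton, not_or] at htu htu'
  simp only [Finset.union_subset_iff, Finset.insert_subset_iff, Finset.singleton_subset_iff]
    at hsub hsub'
  obtain ⟨g, hg, he⟩ := stSet_five hd ![a, b, c, e, f] ![a', b', c', e', f']
    (by intro i j hij; fin_cases i <;> fin_cases j <;> simp at hij ⊢ <;> grind)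
    (by intro i j hij; fin_cases i <;> fin_cases j <;> simp at hij ⊢ <;> grind)
    (by intro i; fin_cases i <;> simp <;> grind)
    (by intro i; fin_cases i <;> simp <;> grind)
  have e1 : g a = a' := he 0
  have e2 : g b = b' := he 1
  have e3 : g c = c' := he 2
  have e4 : g e = e' := he 3
  have e5 : g f = f' := he 4
  have hgd : g • d = d := (Subgroup.mem_inf.1 hg).2
  have hT : g • ({a, b, c} : Finset GolayPt) = {a', b', c'} := by
    simp [Finset.smul_finset_insert, e1, e2, e3]
  have hU : g • ({e, f, k} : Finset GolayPt) = {e', f', g k} := by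
    simp [Finset.smul_finset_insert, e4, e5]
  have hoo : g • o = o' := by
    refine octad_eq_of_five (smul_mem_octads (Subgroup.mem_inf.1 hg).1 ho) ho' ?_
    have h5 : ({a', b', c', e', f'} : Finset GolayPt).card = 5 := by
      simp [Finset.card_insert_of_notMem, hab', hac', hbc', hef', htu'.1, htu'.2.1, htu'.2.2]
    rw [← h5]
    refine Finset.card_le_card (Finset.subset_inter ?_ ?_)
    · have : g • (({a, b, c} ∪ {e, f, k} : Finset GolayPt)) ⊆ g • o :=
        Finset.smul_finset_subset_smul_finset (heq ▸ Finset.inter_subset_left)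
      rw [Finset.smul_finset_union, hT, hU] at this
      refine subset_trans ?_ this
      intro x; simp; grind
    · have : ({a', b', c'} ∪ {e', f', k'} : Finset GolayPt) ⊆ o' :=
        heq' ▸ Finset.inter_subset_left
      refine subset_trans ?_ this
      intro x; simp; grind
  have hkk : g k = k' := by
    have hk : g k ∈ ({a', b', c'} ∪ {e', f', k'} : Finset GolayPt) := by
      rw [← heq', ← hoo, ← hgd, ← Finset.smul_finset_inter, heq]
      exact Finset.smul_mem_smul_finset (by simp)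
    simp only [Finset.mem_union, Finset.mem_insert, Finset.mem_singleton] at hk
    have hne : ∀ {x y : GolayPt}, g x = y → k ≠ x → g k ≠ y := fun h hne e =>
      hne (g.injective (e.trans h.symm))
    rcases hk with (h | h | h) | h | h | h
    · exact absurd h (hne e1 (by grind))
    · exact absurd h (hne e2 (by grind))
    · exact absurd h (hne e3 (by grind))
    · exact absurd h (hne e4 (by grind))
    · exact absurd h (hne e5 (by grind))
    · exact h
  exact ⟨g, hg, hT, by rw [hU, hkk]⟩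

theorem quart_disjoint {d : Finset GolayPt} {Q : Finset (Finset GolayPt)} (hQ : Q ∈ quartets d)
    {x y : Finset GolayPt} (hx : x ∈ Q) (hy : y ∈ Q) (hne : x ≠ y) : Disjoint x y := by
  have := (hQ.2.2 x hx y hy hne).1
  have hu := Finset.card_union_add_card_inter x y
  rw [(hQ.2.1 x hx).1, (hQ.2.1 y hy).1] at hu
  exact Finset.disjoint_iff_inter_eq_empty.2 (Finset.card_eq_zero.1 (by omega))

theorem quartets_exists {d : Finset GolayPt} (hd : d ∈ dodecads) {t u : Finset GolayPt}
    (ht : t.card = 3) (hu : u.card = 3) (htu : Disjoint t u) (hh : t ∪ u ∈ hexadsOn d) :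
    ∃ Q ∈ quartets d, t ∈ Q ∧ u ∈ Q := by
  obtain ⟨Q, hQ⟩ := Set.nonempty_of_ncard_ne_zero (s := quartets d) (by
    rw [quartets_ncard hd]; norm_num)
  obtain ⟨x, hx, y, hy, hne⟩ := Finset.one_lt_card.1 (show 1 < Q.card by rw [hQ.1]; norm_num)
  obtain ⟨g, hg, h1, h2⟩ := hexad_pair_trans hd (hQ.2.1 x hx).1 (hQ.2.1 y hy).1
    (quart_disjoint hQ hx hy hne) (hQ.2.2 x hx y hy hne) ht hu htu hh
  refine ⟨g • Q, ?_, h1 ▸ Finset.smul_mem_smul_finset hx, h2 ▸ Finset.smul_mem_smul_finset hy⟩
  have := quartets_smul (Subgroup.mem_inf.1 hg).1 hQ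
  rwa [(Subgroup.mem_inf.1 hg).2] at this

theorem quartets_trans {d : Finset GolayPt} (hd : d ∈ dodecads) {Q Q' : Finset (Finset GolayPt)}
    (hQ : Q ∈ quartets d) (hQ' : Q' ∈ quartets d) :
    ∃ g ∈ M24, g • d = d ∧ g • Q = Q' := by
  obtain ⟨x, hx, y, hy, hne⟩ := Finset.one_lt_card.1 (show 1 < Q.card by rw [hQ.1]; norm_num)
  obtain ⟨x', hx', y', hy', hne'⟩ :=
    Finset.one_lt_card.1 (show 1 < Q'.card by rw [hQ'.1]; norm_num)
  obtain ⟨g, hg, h1, h2⟩ := hexad_pair_trans hd (hQ.2.1 x hx).1 (hQ.2.1 y hy).1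
    (quart_disjoint hQ hx hy hne) (hQ.2.2 x hx y hy hne) (hQ'.2.1 x' hx').1 (hQ'.2.1 y' hy').1
    (quart_disjoint hQ' hx' hy' hne') (hQ'.2.2 x' hx' y' hy' hne')
  obtain ⟨hg1, hg2⟩ := Subgroup.mem_inf.1 hg
  refine ⟨g, hg1, hg2, ?_⟩
  have hgQ : g • Q ∈ quartets d := by
    have := quartets_smul hg1 hQ
    rwa [hg2] at this
  exact quart_unique hd hgQ hQ' (h1 ▸ Finset.smul_mem_smul_finset hx)
    (h2 ▸ Finset.smul_mem_smul_finset hy) hx' hy' hne'

end Cfsg.Agent.Lib.Golay
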