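import Mathlib.Data.Nat.Notation

/-! # Kernel and generators for the action of a sextet stabiliser on its tetrads -/

set_option autoImplicit false

namespace Cfsg.Agent.Lib.Golay

def sexInvol : List ℕ := [
  984818244535754528103549039458486304,
  720981692062171673584743151055243296,
  590072960059042287979885064796342304,
  220213109803259289183002082616117280,
  963721886883755259286232606933354528,
  718712872302102422341373956619077664,
  610933131142657984725827468219484192,
  222718116131712103283380056249960480,
  967812279691448225500382947153381408,
  714779504765739530547128581499226144,
  596693935057177821627616253167372320,
  236800286945862178090600553424980000,
  970499966350631336865513127433832480,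
  735457312421301346770266117170628640,
  593770854087813340775841408049317920,
  216357873600481717532560151321610272,
  970408745037899174542809581725223937,
  735548533734033527546468929854573569,
  594097469710726884127915119936080897,
  216031257977568192633985706410183681,
  967903976387209248756639995823983617,
  714687808069978514226414409217018881,
  596366844051235442731031181682347009,
  237127377951804563922728501298400257,
  964048898635769892387945499611696129,
  718385860550087782304118187552214017,
  610842305959026912152763103302454273,
  222808941315343168920901544778468353,
  984490757400711034068282643818023937,
  721309179197215149166510279720242177,
  590164260625702196097460789311507457,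
  220121809236599362611927091125488641,
  967616069900692509306086327477895266,
  714818689285165176928702861026558050,
  596654750537752186788767474980520034,
  236996496736617905827622674440945762,
  970538992418718774876113737513730146,
  735260944179207422204995828047708258,
  593967222329907279187428339195347042,
  216318847532394293368276183264821346,
  984778822338565988800583747246260322,
  721178456433366701745969262992851042,
  589876195687847248275933451517984866,
  220252532000447816943241873487593570,
  963918492803612076772893908740898914,
  718673291653575672363843854276788322,
  610972711791184720857040928538394722,
  222521510211855271950402112419037282,
  964009317987243155104936468951336003,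
  718582466469944612485300561041687619,
  610645700039170093514306231153460291,
  222848521963869917746636076779308099,
  984687521771906074924029827437560899,
  721269757000026622558066059189945411,
  590203682822890736552221651864912963,
  219925044865404335602496549529060419,
  970212376795805237283018220920374339,
  735587559802120952862548468252542019,
  594058443642639447269110080197362755,
  216227626219662118351051565874283587,
  967943160906634882443693203669386307,
  714491598279222785337596717859603523,
  596563053841991157773532231016383555,
  237088193432378916389358651429618755]

def sexRot : ℕ := 714698224992095160392432169783430208

def sexConj : List ℕ := [0, 3, 1, 2, 12, 15, 13, 14, 4, 7, 5, 6, 8, 11, 9, 10, 32, 35, 33, 34, 44, 47, 45, 46, 36, 39, 37, 38, 40, 43, 41, 42, 48, 51, 49, 50, 60, 63, 61, 62, 52, 55, 53, 54, 56, 59, 57, 58, 16, 19, 17, 18, 28, 31, 29, 30, 20, 23, 21, 22, 24, 27, 25, 26]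

def sexSwaps : List ℕ := [
  222727811678106860694652076160166028,
  970215585531238403022166211430548544,
  720775459218620059622942262958294019,
  981602045239503495595543055184168034,
  404254432763532903252011575769333827]

end Cfsg.Agent.Lib.Golay
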