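import Cfsg.Agent.Lib.Golay.Families
import Cfsg.Agent.Lib.Golay.SextetStabData

/-! # The action of a sextet stabiliser on the six tetrads -/

set_option autoImplicit false
set_option maxRecDepth 100000

namespace Cfsg.Agent.Lib.Golay

open Cfsg
open scoped Pointwise

/-- The standard sextet. -/
def sex0 : List ℕ := [15, 5264, 622848, 3416064, 4196928, 8536096]

theorem sex0_mem : fam sex0 ∈ sextets := by
  have hc : canon sex0 = true := by decide +kernel
  have h4 : (sex0.all fun t => pc t == 4) = true := by decide +kernel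
  have h8 : (sex0.all fun t => sex0.all fun u =>
      t == u || (isCode (t ||| u) && pc (t ||| u) == 8)) = true := by decide +kernel
  simp only [List.all_eq_true, beq_iff_eq, Bool.or_eq_true, Bool.and_eq_true] at h4 h8
  refine ⟨by rw [card_fam hc]; rfl, ?_, ?_⟩
  · intro t ht
    obtain ⟨m, hm, rfl⟩ := mem_fam.1 ht
    rw [card_toSet]; exact h4 m hm
  · intro t ht u hu hne
    obtain ⟨m, hm, rfl⟩ := mem_fam.1 ht
    obtain ⟨m', hm', rfl⟩ := mem_fam.1 hu
    rcases h8 m hm m' hm' with rfl | ⟨hcode, hpc⟩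
    · exact absurd rfl hne
    · rw [← toSet_or]; exact mem_octads.2 ⟨_, mem_octList.2 ⟨hcode, hpc⟩, rfl⟩

/-- The elements of the code's group fixing each member of a family. -/
def famKer (S : Finset (Finset GolayPt)) : Subgroup (Equiv.Perm GolayPt) where
  carrier := {g | g ∈ M24 ∧ ∀ t ∈ S, g • t = t}
  one_mem' := ⟨one_mem _, fun t _ => one_smul _ t⟩
  mul_mem' := fun ⟨a1, a2⟩ ⟨b1, b2⟩ =>
    ⟨mul_mem a1 b1, fun t ht => by rw [mul_smul, b2 t ht, a2 t ht]⟩
  inv_mem' := fun ⟨a1, a2⟩ => ⟨inv_mem a1, fun t ht => inv_smul_eq_iff.2 (a2 t ht).symm⟩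

theorem mem_famKer {S : Finset (Finset GolayPt)} {g : Equiv.Perm GolayPt} :
    g ∈ famKer S ↔ g ∈ M24 ∧ ∀ t ∈ S, g • t = t := Iff.rfl

theorem famKer_conj {σ : Equiv.Perm GolayPt} (hσ : σ ∈ M24) (S : Finset (Finset GolayPt))
    {g : Equiv.Perm GolayPt} : g ∈ famKer (σ • S) ↔ σ⁻¹ * g * σ ∈ famKer S := by
  simp only [mem_famKer]
  constructor
  · rintro ⟨h1, h2⟩
    refine ⟨mul_mem (mul_mem (inv_mem hσ) h1) hσ, fun t ht => ?_⟩
    rw [mul_smul, mul_smul, h2 _ (Finset.smul_mem_smul_finset ht), inv_smul_smul]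
  · rintro ⟨h1, h2⟩
    refine ⟨by simpa [mul_assoc] using mul_mem (mul_mem hσ h1) (inv_mem hσ), fun t ht => ?_⟩
    obtain ⟨u, hu, rfl⟩ := Finset.mem_smul_finset.1 ht
    have := h2 u hu
    rwa [mul_smul, mul_smul, inv_smul_eq_iff] at this

/-- The stabiliser in the code's group acts on the members of the family. -/
def famPermHom (S : Finset (Finset GolayPt)) : MulAction.stabilizer M24 S →* Equiv.Perm S where
  toFun g :=
    { toFun := fun t => ⟨((g : M24) : Equiv.Perm GolayPt) • (t : Finset GolayPt), by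
        have h : ((g : M24) : Equiv.Perm GolayPt) • S = S := g.2
        have h' := Finset.smul_mem_smul_finset (a := ((g : M24) : Equiv.Perm GolayPt)) t.2
        rwa [h] at h'⟩
      invFun := fun t => ⟨((g : M24) : Equiv.Perm GolayPt)⁻¹ • (t : Finset GolayPt), by
        have h : ((g : M24) : Equiv.Perm GolayPt) • S = S := g.2
        rw [Finset.inv_smul_mem_iff, h]; exact t.2⟩
      left_inv := fun t => Subtype.ext (inv_smul_smul _ _)
      right_inv := fun t => Subtype.ext (smul_inv_smul _ _) }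
  map_one' := Equiv.ext fun t => Subtype.ext (one_smul _ _)
  map_mul' a b := Equiv.ext fun t => Subtype.ext (mul_smul _ _ _)

theorem famPermHom_ker (S : Finset (Finset GolayPt)) :
    Nat.card (famPermHom S).ker = Nat.card (famKer S) := by
  refine Nat.card_congr
    { toFun := fun g => ⟨((g : MulAction.stabilizer M24 S) : M24), (g : _).1.1.2, fun t ht =>
        congrArg Subtype.val (DFunLike.congr_fun (MonoidHom.mem_ker.1 g.2) (⟨t, ht⟩ : S))⟩
      invFun := fun g => ⟨⟨⟨(g : Equiv.Perm GolayPt), g.2.1⟩, ?_⟩, ?_⟩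
      left_inv := fun _ => rfl
      right_inv := fun _ => rfl }
  · show (g : Equiv.Perm GolayPt) • S = S
    refine Finset.eq_of_subset_of_card_le ?_ (by rw [Finset.card_smul_finset])
    intro x hx
    obtain ⟨y, hy, rfl⟩ := Finset.mem_smul_finset.1 hx
    rwa [g.2.2 y hy]
  · exact MonoidHom.mem_ker.2 (Equiv.ext fun t => Subtype.ext (g.2.2 t t.2))

theorem sexInvol_ok : ((List.range 64).all fun i =>
    inM24 (sexInvol.getD i 0) && sex0.all (fun m => act (sexInvol.getD i 0) m == m) &&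
      (List.range 64).all fun j =>
        isComp (sexInvol.getD i 0) (sexInvol.getD j 0) (sexInvol.getD (i ^^^ j) 0)) = true := by
  decide +kernel

theorem sexInvol_zero : toPerm (sexInvol.getD 0 0) = 1 := by
  have hv : valid (sexInvol.getD 0 0) = true := by decide +kernel
  have h : (idx.all fun i => img (sexInvol.getD 0 0) i == i) = true := by decide +kernel
  ext p : 1
  rw [toPerm_apply hv, beq_iff_eq.1 (List.all_eq_true.1 h _ (mem_idx.2 (ix_lt p))), pt_ix]
  rfl

theorem sexInvol_inj : ((List.range 64).all fun i => (List.range 64).all fun j =>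
    i == j || idx.any fun k => img (sexInvol.getD i 0) k != img (sexInvol.getD j 0) k) = true := by
  decide +kernel

theorem sexRot_ok : (inM24 sexRot && sex0.all (fun m => act sexRot m == m) &&
    idx.any (fun k => img sexRot k != k) &&
    idx.all (fun k => img sexRot (img sexRot (img sexRot k)) == k) &&
    (List.range 64).all fun i => Nat.blt (sexConj.getD i 0) 64 && idx.all fun k =>
      img sexRot (img (sexInvol.getD i 0) k) == img (sexInvol.getD (sexConj.getD i 0) 0) (img sexRot k))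
      = true := by
  decide +kernel

theorem sexInvol_facts {i : ℕ} (hi : i < 64) :
    valid (sexInvol.getD i 0) = true ∧ toPerm (sexInvol.getD i 0) ∈ famKer (fam sex0) ∧
      ∀ j < 64, toPerm (sexInvol.getD i 0) * toPerm (sexInvol.getD j 0) =
        toPerm (sexInvol.getD (i ^^^ j) 0) := by
  have h := List.all_eq_true.1 sexInvol_ok i (List.mem_range.2 hi)
  simp only [Bool.and_eq_true, List.all_eq_true, beq_iff_eq, List.mem_range] at h
  obtain ⟨⟨h1, h2⟩, h3⟩ := h
  refine ⟨valid_of_inM24 h1, ⟨toPerm_mem_M24 h1, fun t ht => ?_⟩,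
    fun j hj => (toPerm_isComp (h3 j hj)).symm⟩
  obtain ⟨m, hm, rfl⟩ := mem_fam.1 ht
  rw [smul_toSet (valid_of_inM24 h1), h2 m hm]

/-- The elementary abelian subgroup of order 64. -/
def sexL : Subgroup (Equiv.Perm GolayPt) where
  carrier := {g | ∃ i < 64, toPerm (sexInvol.getD i 0) = g}
  one_mem' := ⟨0, by norm_num, sexInvol_zero⟩
  mul_mem' := by
    rintro _ _ ⟨i, hi, rfl⟩ ⟨j, hj, rfl⟩
    exact ⟨i ^^^ j, Nat.xor_lt_two_pow (n := 6) hi hj, ((sexInvol_facts hi).2.2 j hj).symm⟩
  inv_mem' := by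
    rintro _ ⟨i, hi, rfl⟩
    refine ⟨i, hi, ?_⟩
    rw [eq_comm, inv_eq_iff_mul_eq_one, (sexInvol_facts hi).2.2 i hi, Nat.xor_self]
    exact sexInvol_zero

theorem sexL_le : sexL ≤ famKer (fam sex0) := by
  rintro _ ⟨i, hi, rfl⟩
  exact (sexInvol_facts hi).2.1

theorem sexL_sq {g : Equiv.Perm GolayPt} (hg : g ∈ sexL) : g * g = 1 := by
  obtain ⟨i, hi, rfl⟩ := hg
  rw [(sexInvol_facts hi).2.2 i hi, Nat.xor_self]
  exact sexInvol_zero

theorem sexL_card : Nat.card sexL = 64 := by
  have he : (sexL : Set (Equiv.Perm GolayPt)) =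
      (fun i => toPerm (sexInvol.getD i 0)) '' ↑(Finset.range 64) := by
    ext g
    simp only [Set.mem_image, Finset.coe_range, Set.mem_Iio]
    rfl
  rw [show Nat.card sexL = Nat.card ↥(sexL : Set (Equiv.Perm GolayPt)) from rfl, he,
    Nat.card_coe_set_eq, Set.ncard_image_of_injOn, Set.ncard_coe_finset, Finset.card_range]
  intro i hi j hj e
  simp only [Finset.coe_range, Set.mem_Iio] at hi hj
  have h := List.all_eq_true.1 (List.all_eq_true.1 sexInvol_inj i (List.mem_range.2 hi)) j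
    (List.mem_range.2 hj)
  simp only [Bool.or_eq_true, beq_iff_eq, List.any_eq_true, bne_iff_ne, ne_eq] at h
  rcases h with h | ⟨k, hk, hne⟩
  · exact h
  · exfalso
    have := congrArg (fun σ : Equiv.Perm GolayPt => ix (σ (pt k))) e
    simp only [toPerm_pt (sexInvol_facts hi).1 (mem_idx.1 hk),
      toPerm_pt (sexInvol_facts hj).1 (mem_idx.1 hk)] at this
    have l1 : img (sexInvol.getD i 0) k < 24 := img_lt (sexInvol_facts hi).1 (mem_idx.1 hk)
    have l2 : img (sexInvol.getD j 0) k < 24 := img_lt (sexInvol_facts hj).1 (mem_idx.1 hk)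
    rw [ix_pt l1, ix_pt l2] at this
    exact hne this

theorem sexSwaps_ok : ((List.range 5).all fun i =>
    inM24 (sexSwaps.getD i 0) && (List.range 6).all fun k =>
      act (sexSwaps.getD i 0) (sex0.getD k 0) ==
        sex0.getD (if k == i then i + 1 else if k == i + 1 then i else k) 0) = true := by
  decide +kernel

theorem sex0_surj : Function.Surjective (famPermHom (fam sex0)) := by
  have hlt : ∀ k : Fin 6, sex0.getD k 0 < 16777216 := by decide
  have hmem : ∀ k : Fin 6, toSet (sex0.getD k 0) ∈ fam sex0 := fun k =>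
    mem_fam.2 ⟨_, by revert k; decide, rfl⟩
  have hinj : Function.Injective fun k : Fin 6 => (⟨toSet (sex0.getD k 0), hmem k⟩ : fam sex0) := by
    intro a b e
    have : ∀ a b : Fin 6, sex0.getD a 0 = sex0.getD b 0 → a = b := by decide
    exact this a b (eq_of_toSet_eq (hlt a) (hlt b) (congrArg Subtype.val e))
  let e6 : Fin 6 ≃ fam sex0 := Equiv.ofBijective _
    ((Fintype.bijective_iff_injective_and_card _).2 ⟨hinj, by
      rw [Fintype.card_fin, Fintype.card_coe, sex0_mem.1]⟩)
  have hgen : ∀ i : Fin 5, ∃ g, famPermHom (fam sex0) g =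
      e6.permCongrHom (Equiv.swap i.castSucc i.succ) := by
    intro i
    have h := List.all_eq_true.1 sexSwaps_ok i (List.mem_range.2 i.2)
    simp only [Bool.and_eq_true, List.all_eq_true, beq_iff_eq, List.mem_range] at h
    obtain ⟨h1, h2⟩ := h
    have hv := valid_of_inM24 h1
    have hact : ∀ k : Fin 6, toPerm (sexSwaps.getD i 0) • toSet (sex0.getD k 0) =
        toSet (sex0.getD (Equiv.swap i.castSucc i.succ k : Fin 6) 0) := by
      intro k
      have key : ∀ (i : Fin 5) (k : Fin 6),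
          ((Equiv.swap i.castSucc i.succ k : Fin 6) : ℕ) =
            (if (k : ℕ) = i then (i : ℕ) + 1 else if (k : ℕ) = i + 1 then (i : ℕ) else k) := by
        decide
      rw [smul_toSet hv, h2 k k.2, key]
    have hfix : (⟨toPerm (sexSwaps.getD i 0), toPerm_mem_M24 h1⟩ : M24) ∈
        MulAction.stabilizer M24 (fam sex0) := by
      show toPerm (sexSwaps.getD i 0) • fam sex0 = fam sex0
      refine Finset.eq_of_subset_of_card_le ?_ (by rw [Finset.card_smul_finset])
      intro x hx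
      obtain ⟨y, hy, rfl⟩ := Finset.mem_smul_finset.1 hx
      obtain ⟨k, hk⟩ := e6.surjective ⟨y, hy⟩
      have hy' : y = toSet (sex0.getD k 0) := (congrArg Subtype.val hk).symm
      rw [hy', hact]
      exact hmem _
    refine ⟨⟨_, hfix⟩, Equiv.ext fun t => ?_⟩
    obtain ⟨k, rfl⟩ := e6.surjective t
    show _ = e6 (Equiv.swap i.castSucc i.succ (e6.symm (e6 k)))
    rw [e6.symm_apply_apply]
    exact Subtype.ext (hact k)
  intro e
  have htop : e6.permCongrHom.symm e ∈
      Submonoid.closure (Set.range fun i : Fin 5 => Equiv.swap i.castSucc i.succ) := by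
    rw [Equiv.Perm.mclosure_swap_castSucc_succ]; trivial
  suffices h : ∀ p ∈ Submonoid.closure (Set.range fun i : Fin 5 => Equiv.swap i.castSucc i.succ),
      e6.permCongrHom p ∈ (famPermHom (fam sex0)).range by
    have := h _ htop
    rw [MulEquiv.apply_symm_apply] at this
    exact this
  intro p hp
  induction hp using Submonoid.closure_induction with
  | mem x hx =>
    obtain ⟨i, rfl⟩ := hx
    exact hgen i
  | one => rw [map_one]; exact one_mem _
  | mul x y _ _ hx hy => rw [map_mul]; exact mul_mem hx hy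

theorem sextet_induce {S : Finset (Finset GolayPt)} (hS : S ∈ sextets) (e : Equiv.Perm S) :
    ∃ g ∈ MulAction.stabilizer M24 S, ∀ t : S,
      ((g : M24) : Equiv.Perm GolayPt) • (t : Finset GolayPt) = ((e t : S) : Finset GolayPt) := by
  obtain ⟨σ, hσ, rfl⟩ := M24_trans_sextets sex0_mem hS
  let f : fam sex0 ≃ ↥(σ • fam sex0) :=
    { toFun := fun t => ⟨σ • t.1, Finset.smul_mem_smul_finset t.2⟩
      invFun := fun t => ⟨σ⁻¹ • t.1, by rw [Finset.inv_smul_mem_iff]; exact t.2⟩
      left_inv := fun t => Subtype.ext (inv_smul_smul _ _)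
      right_inv := fun t => Subtype.ext (smul_inv_smul _ _) }
  obtain ⟨g, hg⟩ := sex0_surj (f.permCongr.symm e)
  refine ⟨⟨σ, hσ⟩ * (g : M24) * ⟨σ, hσ⟩⁻¹, ?_, fun t => ?_⟩
  · show (σ * ((g : M24) : Equiv.Perm GolayPt) * σ⁻¹) • (σ • fam sex0) = σ • fam sex0
    rw [mul_smul, mul_smul, inv_smul_smul]
    exact congrArg (σ • ·) g.2
  · obtain ⟨u, rfl⟩ := f.surjective t
    have := congrArg Subtype.val (DFunLike.congr_fun hg u)
    show (σ * ((g : M24) : Equiv.Perm GolayPt) * σ⁻¹) • (σ • u.1) = _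
    rw [mul_smul, mul_smul, inv_smul_smul]
    refine (congrArg (σ • ·) this).trans ?_
    show (f ((f.permCongr.symm e) u)).1 = _
    simp [Equiv.permCongr_symm, Equiv.permCongr_apply]

theorem sextet_famKer_card {S : Finset (Finset GolayPt)} (hS : S ∈ sextets) :
    Nat.card (famKer S) = 192 := by
  have hstab : Nat.card (MulAction.stabilizer M24 S) = 138240 := by
    have h := card_eq_orbit_mul M24 S sextets (fun σ hσ => smul_mem_sextets hσ hS)
      (fun S' hS' => M24_trans_sextets hS hS')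
    rw [M24_card, sextets_ncard] at h
    rw [Nat.card_congr (stabEquiv M24 S).toEquiv]
    omega
  have hsurj : Function.Surjective (famPermHom S) := fun e => by
    obtain ⟨g, hg, he⟩ := sextet_induce hS e
    exact ⟨⟨g, hg⟩, Equiv.ext fun t => Subtype.ext (he t)⟩
  have h := Subgroup.card_mul_index (famPermHom S).ker
  rw [Subgroup.index_ker, MonoidHom.range_eq_top_of_surjective _ hsurj, Subgroup.card_top,
    famPermHom_ker, hstab, Nat.card_perm, Nat.card_eq_fintype_card (α := ↥S), Fintype.card_coe,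
    hS.1] at h
  rw [show Nat.factorial 6 = 720 from rfl] at h
  omega

/-- The involutions of the kernel form the subgroup of order 64. -/
theorem sexL_iff {g : Equiv.Perm GolayPt} :
    g ∈ sexL ↔ g ∈ famKer (fam sex0) ∧ g * g = 1 := by
  refine ⟨fun hg => ⟨sexL_le hg, sexL_sq hg⟩, fun ⟨hK, hsq⟩ => ?_⟩
  have h := sexRot_ok
  simp only [Bool.and_eq_true, List.all_eq_true, List.any_eq_true, bne_iff_ne, ne_eq, beq_iff_eq,
    Nat.blt_eq, List.mem_range] at h
  obtain ⟨⟨⟨⟨h1, h2⟩, k0, hk0, hne⟩, h3⟩, hconj⟩ := h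
  have hv := valid_of_inM24 h1
  set c := toPerm sexRot with hc
  have hcK : c ∈ famKer (fam sex0) := ⟨toPerm_mem_M24 h1, fun t ht => by
    obtain ⟨m, hm, rfl⟩ := mem_fam.1 ht
    rw [smul_toSet hv, h2 m hm]⟩
  have hc3 : c * c * c = 1 := by
    ext p : 1
    simp only [Equiv.Perm.mul_apply, hc, toPerm_apply hv, Equiv.Perm.one_apply]
    have l1 := img_lt hv (ix_lt p)
    rw [ix_pt l1, ix_pt (img_lt hv l1), h3 _ (mem_idx.2 (ix_lt p)), pt_ix]
  have hcne : c ≠ 1 := by
    intro e
    have := congrArg (fun σ : Equiv.Perm GolayPt => ix (σ (pt k0))) e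
    simp only [hc, toPerm_pt hv (mem_idx.1 hk0), Equiv.Perm.one_apply] at this
    rw [ix_pt (img_lt hv (mem_idx.1 hk0)), ix_pt (mem_idx.1 hk0)] at this
    exact hne this
  have hcL : c ∉ sexL := fun hm => hcne (by
    have := sexL_sq hm
    rw [this, one_mul] at hc3
    exact hc3)
  have hnorm : ∀ n ∈ sexL, c * n * c⁻¹ ∈ sexL := by
    rintro _ ⟨i, hi, rfl⟩
    obtain ⟨hj, hk⟩ := hconj i hi
    refine ⟨_, hj, ?_⟩
    rw [eq_mul_inv_iff_mul_eq]
    ext p : 1
    simp only [Equiv.Perm.mul_apply, hc, toPerm_apply hv, toPerm_apply (sexInvol_facts hi).1,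
      toPerm_apply (sexInvol_facts hj).1]
    rw [ix_pt (img_lt (sexInvol_facts hi).1 (ix_lt p)), ix_pt (img_lt hv (ix_lt p)),
      hk _ (mem_idx.2 (ix_lt p))]
  set K := famKer (fam sex0) with hKdef
  set L' := sexL.subgroupOf K with hL'
  have hcard : Nat.card L' = 64 := by
    rw [hL', Nat.card_congr (Subgroup.subgroupOfEquivOfLe sexL_le).toEquiv, sexL_card]
  have hKcard : Nat.card K = 192 := sextet_famKer_card sex0_mem
  have hcN : (⟨c, hcK⟩ : K) ∈ Subgroup.normalizer (L' : Set K) := by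
    have hfin : Finite K := inferInstance
    rw [Subgroup.mem_normalizer_iff]
    intro x
    simp only [hL', SetLike.mem_coe, Subgroup.mem_subgroupOf, Subgroup.coe_mul, Subgroup.coe_inv]
    refine ⟨fun hx => hnorm _ hx, fun hx => ?_⟩
    have h' := hnorm _ (hnorm _ hx)
    have hinv : c⁻¹ = c * c := inv_eq_of_mul_eq_one_left hc3
    have e : c * (c * (c * (x : Equiv.Perm GolayPt) * c⁻¹) * c⁻¹) * c⁻¹ =
        (c * c * c) * x * (c * c * c)⁻¹ := by group
    rw [e, hc3] at h'
    simpa using h'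
  have hLN : L' ≤ Subgroup.normalizer (L' : Set K) := Subgroup.le_normalizer
  have htop : Subgroup.normalizer (L' : Set K) = ⊤ := by
    refine Subgroup.eq_top_of_card_eq _ ?_
    obtain ⟨a, ha⟩ := Subgroup.card_dvd_of_le hLN
    have hd : Nat.card (Subgroup.normalizer (L' : Set K)) ∣ 192 :=
      hKcard ▸ Subgroup.card_subgroup_dvd_card _
    have hlt : Nat.card L' < Nat.card (Subgroup.normalizer (L' : Set K)) := by
      refine lt_of_le_of_ne (Subgroup.card_le_of_le hLN) fun e => hcL ?_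
      have := Subgroup.eq_of_le_of_card_ge hLN e.ge
      have hmem : (⟨c, hcK⟩ : K) ∈ L' := this ▸ hcN
      exact Subgroup.mem_subgroupOf.1 hmem
    rw [hKcard]
    rw [hcard] at ha hlt
    rw [ha] at hd hlt ⊢
    have : a ∣ 3 := Nat.dvd_of_mul_dvd_mul_left (by norm_num : 0 < 64) hd
    rcases (Nat.dvd_prime Nat.prime_three).1 this with rfl | rfl <;> omega
  have hN : L'.Normal := Subgroup.normalizer_eq_top_iff.1 htop
  have hidx : L'.index = 3 := by
    have := Subgroup.card_mul_index L'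
    rw [hcard, hKcard] at this
    omega
  have h1' : (QuotientGroup.mk (⟨g, hK⟩ : K) : K ⧸ L') = 1 := by
    set q : K ⧸ L' := QuotientGroup.mk (⟨g, hK⟩ : K)
    have hq2 : q * q = 1 := by
      rw [← QuotientGroup.mk_mul, show (⟨g, hK⟩ : K) * ⟨g, hK⟩ = 1 from Subtype.ext hsq]; rfl
    have hq3 : q ^ 3 = 1 := by
      rw [← hidx, Subgroup.index]
      exact pow_card_eq_one'
    calc q = q ^ 3 := by rw [pow_succ, pow_two, hq2, one_mul]
      _ = 1 := hq3
  exact Subgroup.mem_subgroupOf.1 ((QuotientGroup.eq_one_iff _).1 h1')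

theorem sextet_inv_subgroup {S : Finset (Finset GolayPt)} (hS : S ∈ sextets) :
    ∃ N : Subgroup (MulAction.stabilizer M24 S), N.Normal ∧ Nat.card N = 64 ∧
      ∀ x ∈ N, x * x = 1 := by
  obtain ⟨σ, hσ, rfl⟩ := M24_trans_sextets sex0_mem hS
  set G := MulAction.stabilizer M24 (σ • fam sex0) with hG
  let ι : G →* Equiv.Perm GolayPt := M24.subtype.comp G.subtype
  let L : Subgroup (Equiv.Perm GolayPt) := sexL.map (MulAut.conj σ).toMonoidHom
  have hmem : ∀ g, g ∈ L ↔ g ∈ famKer (σ • fam sex0) ∧ g * g = 1 := by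
    intro g
    rw [famKer_conj hσ]
    constructor
    · rintro ⟨x, hx, rfl⟩
      obtain ⟨h1, h2⟩ := sexL_iff.1 hx
      refine ⟨by simpa [mul_assoc] using h1, ?_⟩
      rw [← map_mul, h2, map_one]
    · rintro ⟨h1, h2⟩
      refine ⟨σ⁻¹ * g * σ, sexL_iff.2 ⟨h1, ?_⟩, by simp [mul_assoc]⟩
      rw [show σ⁻¹ * g * σ * (σ⁻¹ * g * σ) = σ⁻¹ * (g * g) * σ by group, h2]; simp
  refine ⟨L.comap ι, ⟨fun n hn g => ?_⟩, ?_, fun x hx => ?_⟩
  · rw [Subgroup.mem_comap, hmem] at hn ⊢
    obtain ⟨⟨h1, h2⟩, h3⟩ := hn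
    refine ⟨⟨((g * n * g⁻¹ : G) : M24).2, fun t ht => ?_⟩, ?_⟩
    · have hgS : ((g : M24) : Equiv.Perm GolayPt) • (σ • fam sex0) = σ • fam sex0 := g.2
      have ht' : ((g : M24) : Equiv.Perm GolayPt)⁻¹ • t ∈ σ • fam sex0 := by
        rw [Finset.inv_smul_mem_iff, hgS]; exact ht
      rw [map_mul, map_mul, map_inv, mul_smul, mul_smul]
      show ι g • ι n • ((g : M24) : Equiv.Perm GolayPt)⁻¹ • t = t
      rw [h2 _ ht']
      exact smul_inv_smul _ _
    · rw [← map_mul, show g * n * g⁻¹ * (g * n * g⁻¹) = g * (n * n) * g⁻¹ by group, map_mul,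
        map_mul ι g, map_mul ι n n, h3]
      simp
  · have e1 : Nat.card (L.comap ι) = Nat.card L := by
      refine Nat.card_congr (Equiv.ofBijective (fun x => ⟨ι x.1, x.2⟩) ⟨fun a b h => ?_, fun y => ?_⟩)
      · exact Subtype.ext (Subtype.ext (Subtype.ext (congrArg (fun z : L => (z : Equiv.Perm GolayPt)) h)))
      · obtain ⟨hy1, -⟩ := (hmem _).1 y.2
        refine ⟨⟨⟨⟨y.1, hy1.1⟩, ?_⟩, y.2⟩, rfl⟩
        show (y : Equiv.Perm GolayPt) • (σ • fam sex0) = σ • fam sex0
        refine Finset.eq_of_subset_of_card_le ?_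
          (by simp only [Finset.card_smul_finset]; exact le_rfl)
        intro x hx
        obtain ⟨z, hz, rfl⟩ := Finset.mem_smul_finset.1 hx
        rwa [hy1.2 z hz]
    rw [e1, ← sexL_card]
    exact (Nat.card_congr (sexL.equivMapOfInjective _ (MulAut.conj σ).injective).toEquiv).symm
  · have := ((hmem _).1 hx).2
    exact Subtype.ext (Subtype.ext this)

end Cfsg.Agent.Lib.Golay
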