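import Cfsg.Agent.Lib.Block.SingleBlockCrit
import Cfsg.Agent.Lib.Golay.OuterGroups
import Cfsg.Agent.Lib.Golay.SingleBlockData
import Cfsg.Agent.S5607

/-! # The 2-blocks of two groups of the code: local conditions and elements of order three -/

set_option autoImplicit false
set_option maxRecDepth 100000

namespace Cfsg.Agent.Lib.Golay

open Cfsg
open scoped Pointwise

/-! ### Self-centralising normal 2-subgroups of centralisers of involutions -/

/-- The centraliser of `x` in `K` has a self-centralising normal elementary 2-subgroup. -/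
def LocalTwo (K : Subgroup (Equiv.Perm GolayPt)) (x : Equiv.Perm GolayPt) : Prop :=
  ∃ Q : Subgroup (Equiv.Perm GolayPt), Q ≤ K ∧ (∀ q ∈ Q, q * q = 1 ∧ q * x = x * q) ∧
    (∀ g ∈ K, g * x = x * g → ∀ q ∈ Q, g * q * g⁻¹ ∈ Q) ∧
    ∀ z ∈ K, z * x = x * z → (∀ q ∈ Q, z * q = q * z) → z ∈ Q

theorem LocalTwo.of_conj {K : Subgroup (Equiv.Perm GolayPt)} {c x b : Equiv.Perm GolayPt}
    (hc : c ∈ K) (h : c * x * c⁻¹ = b) (hb : LocalTwo K b) : LocalTwo K x := by
  obtain ⟨Q, hQK, hQ, hn, hz⟩ := hb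
  subst h
  have mem : ∀ q, q ∈ Q.map (MulAut.conj c⁻¹).toMonoidHom ↔ c * q * c⁻¹ ∈ Q := by
    intro q
    rw [Subgroup.mem_map]
    constructor
    · rintro ⟨r, hr, rfl⟩
      rw [MulEquiv.coe_toMonoidHom, MulAut.conj_apply]
      convert hr using 1
      group
    · intro hq
      exact ⟨_, hq, by rw [MulEquiv.coe_toMonoidHom, MulAut.conj_apply]; group⟩
  refine ⟨Q.map (MulAut.conj c⁻¹).toMonoidHom, fun q hq => ?_, fun q hq => ?_,
    fun g hg hgx q hq => ?_, fun z hzK hzx hzq => ?_⟩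
  · have := mul_mem (mul_mem (inv_mem hc) (hQK ((mem q).1 hq))) hc
    simpa [mul_assoc] using this
  · obtain ⟨h1, h2⟩ := hQ _ ((mem q).1 hq)
    constructor
    · calc q * q = c⁻¹ * (c * q * c⁻¹ * (c * q * c⁻¹)) * c := by group
        _ = 1 := by rw [h1]; group
    · calc q * x = c⁻¹ * (c * q * c⁻¹ * (c * x * c⁻¹)) * c := by group
        _ = x * q := by rw [h2]; group
  · rw [mem]
    have := hn (c * g * c⁻¹) (mul_mem (mul_mem hc hg) (inv_mem hc))
      (by calc c * g * c⁻¹ * (c * x * c⁻¹) = c * (g * x) * c⁻¹ := by group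
            _ = _ := by rw [hgx]; group) _ ((mem q).1 hq)
    convert this using 1
    group
  · rw [mem]
    refine hz _ (mul_mem (mul_mem hc hzK) (inv_mem hc))
      (by calc c * z * c⁻¹ * (c * x * c⁻¹) = c * (z * x) * c⁻¹ := by group
            _ = _ := by rw [hzx]; group) fun r hr => ?_
    have e := hzq (c⁻¹ * r * c) ((mem _).2 (by convert hr using 1; group))
    calc c * z * c⁻¹ * r = c * (z * (c⁻¹ * r * c)) * c⁻¹ := by group
      _ = r * (c * z * c⁻¹) := by rw [e]; group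

theorem exists_local_subgroup {K : Subgroup (Equiv.Perm GolayPt)}
    (h : ∀ x ∈ K, orderOf x = 2 → LocalTwo K x) (x : K) (hx : orderOf x = 2) :
    ∃ Q : Subgroup K, IsPGroup 2 Q ∧
      Q ≤ Subgroup.centralizer ({x} : Set K) ∧
      Subgroup.centralizer ({x} : Set K) ≤ Subgroup.normalizer (Q : Set K) ∧
      Subgroup.centralizer ({x} : Set K) ⊓ Subgroup.centralizer (Q : Set K) ≤ Q := by
  obtain ⟨Q, hQK, hQ, hn, hz⟩ := h _ x.2 (by rw [Subgroup.orderOf_coe, hx])
  refine ⟨Q.subgroupOf K, ?_, fun q hq => ?_, fun g hg => ?_, fun z hz' => ?_⟩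
  · intro q
    refine ⟨1, Subtype.ext (Subtype.ext ?_)⟩
    rw [pow_one, pow_two]
    exact (hQ _ q.2).1
  · exact Subgroup.mem_centralizer_singleton_iff.2 (Subtype.ext (hQ _ hq).2)
  · rw [Subgroup.mem_centralizer_singleton_iff] at hg
    have hg' : (g : Equiv.Perm GolayPt) * x = x * g := congrArg Subtype.val hg
    have hg'' : (g : Equiv.Perm GolayPt)⁻¹ * x = x * (g : Equiv.Perm GolayPt)⁻¹ :=
      ((show Commute (g : Equiv.Perm GolayPt) x from hg').inv_left).eq
    refine Subgroup.mem_normalizer_iff.2 fun q => ⟨fun hq => hn g g.2 hg' _ hq, fun hq => ?_⟩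
    have := hn (g : Equiv.Perm GolayPt)⁻¹ (inv_mem g.2) hg'' _ hq
    simpa [mul_assoc, Subgroup.mem_subgroupOf] using this
  · obtain ⟨h1, h2⟩ := Subgroup.mem_inf.1 hz'
    rw [Subgroup.mem_centralizer_singleton_iff] at h1
    exact hz _ z.2 (congrArg Subtype.val h1) fun q hq =>
      (congrArg Subtype.val (Subgroup.mem_centralizer_iff.1 h2 ⟨q, hQK hq⟩ hq)).symm

/-- A listed pointwise stabiliser of an octad, regular on the remaining points. -/
def fixerOK (F o i0 : ℕ) (E : List ℕ) (b : ℕ) : Bool :=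
  inStab [] F b && (fixMask b == o) && (F &&& o == F) && Nat.blt F 16777216 && Nat.blt i0 24 &&
    !o.testBit i0 && rigid (o ||| 1 <<< i0) && rigid (FULL ^^^ o) &&
    E.all (fun e => inStab [] o e && powId 2 e) && (keySet (fun c => img c i0) E == FULL ^^^ o) &&
    E.all fun u => E.all fun v => idx.all fun i => img u (img v i) == img v (img u i)

theorem localTwo_of_fixer {F o i0 b : ℕ} {E : List ℕ} (h : fixerOK F o i0 E b = true) :
    LocalTwo (stabM [] F) (toPerm b) := by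
  simp only [fixerOK, Bool.and_eq_true, Bool.not_eq_true', List.all_eq_true, beq_iff_eq,
    Nat.blt_eq] at h
  obtain ⟨⟨⟨⟨⟨⟨⟨⟨⟨⟨hb, hbo⟩, hFo⟩, hFlt⟩, hi0⟩, hi0o⟩, hr1⟩, hr2⟩, hE⟩, hkey⟩, hcomm⟩ := h
  obtain ⟨hbM, hbv⟩ := inStab_spec hb
  have hsub : toSet F ⊆ toSet o := (toSet_subset hFlt).2 hFo
  have hp0 : pt i0 ∉ toSet o := by rw [mem_toSet, ix_pt hi0, hi0o]; simp
  have hfix : fixedPts (toPerm b) = toSet o := by rw [fixedPts_toPerm hbv, hbo]
  have hev : ∀ e ∈ E, toPerm e ∈ stabM [] o ∧ valid e = true ∧ toPerm e * toPerm e = 1 := by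
    intro e he
    obtain ⟨hm, hv⟩ := inStab_spec (hE e he).1
    exact ⟨hm, hv, by rw [← pow_two]; exact pow_eq_one_of_powId hv (hE e he).2⟩
  have htrans : ∀ r, r ∉ toSet o → ∃ e ∈ E, toPerm e (pt i0) = r := by
    intro r hr
    rw [← toSet_compl' o, mem_toSet, ← hkey, testBit_keySet] at hr
    obtain ⟨e, he, hei⟩ := hr
    exact ⟨e, he, by rw [toPerm_pt (hev e he).2.1 hi0, hei, pt_ix]⟩
  have hlist : ∀ q ∈ stabM [] o, ∃ e ∈ E, toPerm e = q := by
    intro q hq
    obtain ⟨hqM, -, hqo⟩ := mem_stabM.1 hq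
    obtain ⟨e, he, hee⟩ := htrans (q (pt i0)) fun hmem => hp0 (by
      have := q.injective (hqo _ hmem)
      rwa [this] at hmem)
    obtain ⟨hem, hev', -⟩ := hev e he
    obtain ⟨heM, -, heo⟩ := mem_stabM.1 hem
    refine ⟨e, he, (inv_mul_eq_one.1 (eq_one_of_rigid (mul_mem (inv_mem heM) hqM) hr1
      fun p hp => ?_))⟩
    rw [Equiv.Perm.mul_apply, Equiv.Perm.inv_eq_iff_eq]
    rw [mem_toSet, Nat.testBit_or, Bool.or_eq_true, Nat.one_shiftLeft, Nat.testBit_two_pow,
      decide_eq_true_eq] at hp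
    rcases hp with hp | hp
    · rw [hqo p (mem_toSet.2 hp), heo p (mem_toSet.2 hp)]
    · rw [show p = pt i0 by rw [hp, pt_ix], hee]
  have hab : ∀ u ∈ E, ∀ v ∈ E, toPerm u * toPerm v = toPerm v * toPerm u := by
    intro u hu v hv
    refine Equiv.ext fun r => ?_
    have := hcomm u hu v hv (ix r) (mem_idx.2 (ix_lt r))
    rw [Equiv.Perm.mul_apply, Equiv.Perm.mul_apply, toPerm_apply (hev v hv).2.1,
      toPerm_pt (hev u hu).2.1 (img_lt (hev v hv).2.1 (ix_lt r)), this,
      toPerm_apply (hev u hu).2.1, toPerm_pt (hev v hv).2.1 (img_lt (hev u hu).2.1 (ix_lt r))]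
  obtain ⟨hbM24, -, -⟩ := mem_stabM.1 hbM
  have hbQ : toPerm b ∈ stabM [] o := mem_stabM.2 ⟨hbM24, by simp, fun p hp => by
    rw [← hfix] at hp; exact mem_fixedPts.1 hp⟩
  refine ⟨stabM [] o, fun q hq => ?_, fun q hq => ?_, fun g hg hgb q hq => ?_,
    fun z hz hzb hzq => ?_⟩
  · obtain ⟨hqM, -, hqo⟩ := mem_stabM.1 hq
    exact mem_stabM.2 ⟨hqM, by simp, fun p hp => hqo p (hsub hp)⟩
  · obtain ⟨e, he, rfl⟩ := hlist q hq
    obtain ⟨e', he', hb'⟩ := hlist _ hbQ
    exact ⟨(hev e he).2.2, by rw [← hb']; exact hab e he e' he'⟩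
  · obtain ⟨hgM, -, -⟩ := mem_stabM.1 hg
    obtain ⟨hqM, -, hqo⟩ := mem_stabM.1 hq
    refine mem_stabM.2 ⟨mul_mem (mul_mem hgM hqM) (inv_mem hgM), by simp, fun p hp => ?_⟩
    have hp' : g⁻¹ p ∈ toSet o := by
      rw [← hfix, mem_fixedPts] at hp ⊢
      have e := DFunLike.congr_fun ((show Commute g (toPerm b) from hgb).inv_left).eq p
      simp only [Equiv.Perm.mul_apply] at e
      rw [← e, hp]
    rw [Equiv.Perm.mul_apply, Equiv.Perm.mul_apply, hqo _ hp', Equiv.Perm.coe_inv,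
      Equiv.apply_symm_apply]
  · obtain ⟨hzM, -, -⟩ := mem_stabM.1 hz
    have hz0 : z (pt i0) ∉ toSet o := fun hmem => hp0 (by
      rw [← hfix, mem_fixedPts] at hmem ⊢
      have e := DFunLike.congr_fun hzb (pt i0)
      simp only [Equiv.Perm.mul_apply] at e
      rw [hmem] at e
      exact z.injective e)
    obtain ⟨e1, he1, he1'⟩ := htrans _ hz0
    have he1M := (hev e1 he1).1
    suffices z = toPerm e1 by rw [this]; exact he1M
    refine (inv_mul_eq_one.1 (eq_one_of_rigid (mul_mem (inv_mem (mem_stabM.1 he1M).1) hzM) hr2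
      fun r hr => ?_)).symm
    rw [toSet_compl'] at hr
    obtain ⟨e, he, rfl⟩ := htrans r hr
    rw [Equiv.Perm.mul_apply, Equiv.Perm.inv_eq_iff_eq]
    have e2 := DFunLike.congr_fun (hzq _ (hev e he).1) (pt i0)
    simp only [Equiv.Perm.mul_apply] at e2
    have e3 := DFunLike.congr_fun (hab e he e1 he1) (pt i0)
    simp only [Equiv.Perm.mul_apply] at e3
    rw [e2, ← he1', e3]

theorem fixer24_ok : fixerOK 0 5279 ((idx.filter fun i => !(5279 : ℕ).testBit i).headD 0)
    octFix24 rep2A = true := by decide +kernel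

theorem fixer22_ok : fixerOK (1 <<< 23 ||| 1) 13636881
    ((idx.filter fun i => !(13636881 : ℕ).testBit i).headD 0) octFix22 o22B = true := by
  decide +kernel

/-- Every map in the kernel on the six tetrads is an involution or trivial. -/
def kerPairs : Bool :=
  cent2BTrans.all fun t => cent2BList.all fun s =>
    !(cent2BSextet.all fun m => act t (act s m) == m) ||
      idx.all fun i => img t (img s (img t (img s i))) == i

theorem kerPairs_ok : kerPairs = true := by decide +kernel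

/-- The separating elements of the kernel. -/
def kerSepOK : Bool :=
  kerSep.all (fun q => inM24 q && commJ rep2B [rep2B] q && cent2BSextet.all fun m => act q m == m) &&
    cent2BSextet.all fun m => cent2BSextet.all fun n => (m == n) ||
      kerSep.any fun q => fixesMask m q && !fixesMask n q

theorem kerSep_ok : kerSepOK = true := by decide +kernel

theorem cent2B_decomp {x : Equiv.Perm GolayPt} (hx : x ∈ cent2B) :
    ∃ t ∈ cent2BTrans, ∃ s ∈ cent2BList, valid t = true ∧ valid s = true ∧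
      toPerm t * toPerm s = x := by
  obtain ⟨-, -, -, hall, hkey, -⟩ := cent2B_facts
  have hv : valid rep2B = true := (rep_valid (by simp)).2
  obtain ⟨c, hc, he⟩ := (testBit_keySet (fun c => img c 0) cent2BTrans (ix (x (pt 0)))).1
    (by rw [hkey]; exact testBit_full _ (ix_lt _))
  have hcc := List.all_eq_true.1 hall c hc
  simp only [Bool.and_eq_true] at hcc
  have hcv := valid_of_inM24 hcc.1
  have hcm : toPerm c ∈ cent2B := mem_cent2B.2 ⟨toPerm_mem_M24 hcc.1,
    (twines_single _).1 ((commJ_iff hv hcv (by simpa using hv)).1 hcc.2)⟩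
  have hy : (toPerm c)⁻¹ * x ∈ cent2B ⊓ MulAction.stabilizer (Equiv.Perm GolayPt) (pt 0) := by
    refine Subgroup.mem_inf.2 ⟨mul_mem (inv_mem hcm) hx, ?_⟩
    rw [MulAction.mem_stabilizer_iff, mul_smul, inv_smul_eq_iff, Equiv.Perm.smul_def,
      Equiv.Perm.smul_def, toPerm_pt hcv (by norm_num : 0 < 24), he, pt_ix]
  obtain ⟨s, hs, hse⟩ := (cent2B_stab _).1 hy
  have hsv : valid s = true := by
    have := List.all_eq_true.1 cent2B_facts.1 s hs
    simp only [Bool.and_eq_true] at this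
    exact valid_of_inM24 this.1.1
  exact ⟨c, hc, s, hs, hcv, hsv, by rw [hse, mul_inv_cancel_left]⟩

theorem localTwo_rep2B : LocalTwo M24 (toPerm rep2B) := by
  have hv2B : valid rep2B = true := (rep_valid (by simp)).2
  have hlt : ∀ m ∈ cent2BSextet, m < 16777216 := by decide +kernel
  refine ⟨stabM cent2BSextet 0 ⊓ cent2B, fun q hq => (mem_cent2B.1 (Subgroup.mem_inf.1 hq).2).1,
    fun q hq => ?_, fun g hg hgx q hq => ?_, fun z hz hzx hzq => ?_⟩
  · obtain ⟨hqS, hqC⟩ := Subgroup.mem_inf.1 hq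
    refine ⟨?_, (mem_cent2B.1 hqC).2⟩
    obtain ⟨t, ht, s, hs, htv, hsv, he⟩ := cent2B_decomp hqC
    have hp := List.all_eq_true.1 (List.all_eq_true.1 kerPairs_ok t ht) s hs
    simp only [Bool.or_eq_true, Bool.not_eq_true', List.all_eq_true, beq_iff_eq] at hp
    rcases hp with hp | hp
    · exfalso
      obtain ⟨-, hfixS, -⟩ := mem_stabM.1 hqS
      rw [List.all_eq_false] at hp
      obtain ⟨m, hm, hne⟩ := hp
      apply hne
      rw [beq_iff_eq]
      refine eq_of_toSet_eq (act_lt htv _) (hlt m hm) ?_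
      rw [← smul_toSet htv, ← smul_toSet hsv, ← mul_smul, he]
      exact hfixS m hm
    · rw [← he]
      refine Equiv.ext fun r => ?_
      have hr := hp (ix r) (mem_idx.2 (ix_lt r))
      have h1 := img_lt hsv (ix_lt r)
      have h2 := img_lt htv h1
      simp only [Equiv.Perm.mul_apply, Equiv.Perm.one_apply]
      rw [toPerm_apply hsv r, toPerm_pt htv h1, toPerm_pt hsv h2, toPerm_pt htv (img_lt hsv h2), hr,
        pt_ix]
  · obtain ⟨hqS, hqC⟩ := Subgroup.mem_inf.1 hq
    obtain ⟨hqM, hfixS, -⟩ := mem_stabM.1 hqS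
    have hgC : g ∈ cent2B := mem_cent2B.2 ⟨hg, hgx⟩
    refine Subgroup.mem_inf.2 ⟨mem_stabM.2 ⟨mul_mem (mul_mem hg hqM) (inv_mem hg), fun m hm => ?_,
      by simp [toSet_zero]⟩, mul_mem (mul_mem hgC hqC) (inv_mem hgC)⟩
    obtain ⟨n, hn, hne⟩ : ∃ n ∈ cent2BSextet, toSet n = g⁻¹ • toSet m := by
      refine mem_fam.1 ?_
      rw [← S5607.cent_sextet (inv_mem hgC)]
      exact Finset.smul_mem_smul_finset (mem_fam.2 ⟨m, hm, rfl⟩)
    rw [mul_smul, mul_smul, ← hne, hfixS n hn, hne, smul_inv_smul]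
  · have hzC : z ∈ cent2B := mem_cent2B.2 ⟨hz, hzx⟩
    have hsep := kerSep_ok
    simp only [kerSepOK, Bool.and_eq_true, List.all_eq_true, List.any_eq_true, Bool.or_eq_true,
      beq_iff_eq, Bool.not_eq_true'] at hsep
    refine Subgroup.mem_inf.2 ⟨mem_stabM.2 ⟨hz, fun m hm => ?_, by simp [toSet_zero]⟩, hzC⟩
    obtain ⟨n, hn, hne⟩ : ∃ n ∈ cent2BSextet, toSet n = z • toSet m := by
      refine mem_fam.1 ?_
      rw [← S5607.cent_sextet hzC]
      exact Finset.smul_mem_smul_finset (mem_fam.2 ⟨m, hm, rfl⟩)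
    rcases hsep.2 m hm n hn with rfl | ⟨q, hq, hqm, hqn⟩
    · exact hne.symm
    exfalso
    obtain ⟨⟨hqM, hqc⟩, hqS⟩ := hsep.1 q hq
    have hqv := valid_of_inM24 hqM
    have hqQ : toPerm q ∈ stabM cent2BSextet 0 ⊓ cent2B := by
      refine Subgroup.mem_inf.2 ⟨mem_stabM.2 ⟨toPerm_mem_M24 hqM, fun l hl => by
          rw [smul_toSet hqv, hqS l hl], by simp [toSet_zero]⟩,
        mem_cent2B.2 ⟨toPerm_mem_M24 hqM,
          (twines_single _).1 ((commJ_iff hv2B hqv (by simpa using hv2B)).1 hqc)⟩⟩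
    have hall : ∀ p ∈ toSet n, toPerm q p = p := by
      intro p hp
      rw [hne] at hp
      obtain ⟨r, hr, rfl⟩ := Finset.mem_smul_finset.1 hp
      have e := DFunLike.congr_fun (hzq _ hqQ) r
      simp only [Equiv.Perm.mul_apply] at e
      rw [Equiv.Perm.smul_def, ← e, fixesMask_spec hqv hqm hr]
    have : fixesMask n q = true := by
      simp only [fixesMask, List.all_eq_true, Bool.or_eq_true, bne_iff_ne, ne_eq, beq_iff_eq]
      intro i hi
      by_cases hbit : (n >>> i) &&& 1 = 1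
      · right
        have hi' := mem_idx.1 hi
        have h := hall (pt i) (mem_toSet.2 (by rw [ix_pt hi']; exact (shift_and_one _ _).1 hbit))
        rw [toPerm_pt hqv hi'] at h
        rw [← ix_pt (img_lt hqv hi'), h, ix_pt hi']
      · exact Or.inl hbit
    rw [this] at hqn
    exact absurd hqn (by decide)

theorem localTwo_M24 : ∀ x ∈ M24, orderOf x = 2 → LocalTwo M24 x := by
  intro x hx ho
  obtain ⟨c, hc, ⟨-, he⟩ | ⟨-, he⟩⟩ := inv_classes hx ho
  · refine LocalTwo.of_conj hc he ?_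
    rw [← stabM_nil]
    exact localTwo_of_fixer fixer24_ok
  · exact LocalTwo.of_conj hc he localTwo_rep2B

theorem localTwo_M22 : ∀ x ∈ gM22, orderOf x = 2 → LocalTwo gM22 x := by
  intro x hx ho
  obtain ⟨r, hr, c, hc, he⟩ := sylCheck_spec syl22_check (by rw [gM22_card]; decide +kernel)
    (by rw [gM22_card]; decide +kernel) hx ho
  rw [List.mem_singleton.1 hr] at he
  exact LocalTwo.of_conj hc he (localTwo_of_fixer fixer22_ok)

end Cfsg.Agent.Lib.Golay
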