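import Cfsg.Agent.Lib.Golay.SingleBlockCentB

/-! # The centralisers of the elements of order three -/

set_option autoImplicit false
set_option maxRecDepth 100000

namespace Cfsg.Agent.Lib.Golay

open Cfsg
open scoped Pointwise

theorem toSet_one_iff : ∀ p : GolayPt, p ∈ toSet 1 ↔ p = pt 0 := by decide +kernel

theorem baseMask_two : ∀ p : GolayPt, p ∈ toSet (baseMask 2) ↔ p = pt 0 ∨ p = pt 1 := by
  decide +kernel

theorem baseMask_three :
    ∀ p : GolayPt, p ∈ toSet (baseMask 3) ↔ p = pt 0 ∨ p = pt 1 ∨ p = pt 2 := by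
  decide +kernel

theorem mem_cent3A_two (x : Equiv.Perm GolayPt) :
    x ∈ codeCent cent3ARep ∧ x (pt 0) = pt 0 ∧ x (pt 1) = pt 1 ↔
      ∃ p ∈ cent3AList, toPerm p = x := by
  rw [← search_exact (J := [cent3ARep]) cent3A_facts.2.2.2.1
    (by simpa using cent3A_facts.2.2.2.1) (n := 5) (k := 2) rfl cent3A_search cent3A_facts.1 x,
    mem_codeCent, mem_level]
  simp only [baseMask_two, Twines, List.mem_singleton, exists_eq_left]
  constructor
  · rintro ⟨⟨h1, h2⟩, h3, h4⟩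
    exact ⟨⟨h1, by rintro p (rfl | rfl) <;> assumption⟩, h2⟩
  · rintro ⟨⟨h1, h3⟩, h2⟩
    exact ⟨⟨h1, h2⟩, h3 _ (Or.inl rfl), h3 _ (Or.inr rfl)⟩

theorem card_cent3A : Nat.card (codeCent cent3ARep) = 1080 := by
  obtain ⟨-, hc, hlen, hv, hw, hw', h6, h5, h01, -⟩ := cent3A_facts
  have h0 : pt 0 ∈ toSet (fixMask cent3ARep) := by
    rw [mem_toSet, ix_pt (by norm_num)]
    exact (shift_and_one _ 0).1 (by simpa using h01)
  have hinv : ∀ σ ∈ codeCent cent3ARep, ∀ p ∈ toSet (fixMask cent3ARep),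
      σ p ∈ toSet (fixMask cent3ARep) := by
    intro σ hσ p hp
    rw [← fixedPts_toPerm hv, mem_fixedPts] at hp ⊢
    have e := DFunLike.congr_fun (mem_codeCent.1 hσ).2 p
    simp only [Equiv.Perm.mul_apply] at e
    rw [← e, hp]
  have e1 := card_eq_orbit_mul (codeCent cent3ARep) (pt 0)
    (toSet (fixMask cent3ARep) : Set GolayPt) (fun σ hσ => hinv σ hσ _ h0) fun q hq => by
      obtain ⟨σ, hσ, -, he⟩ := witness_spec hv (by norm_num) hw hq
      exact ⟨σ, hσ, he⟩
  set K := codeCent cent3ARep ⊓ MulAction.stabilizer (Equiv.Perm GolayPt) (pt 0)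
  have hset : ∀ q, q ∈ toSet (fixMask cent3ARep ^^^ 1) ↔
      q ∈ toSet (fixMask cent3ARep) ∧ q ≠ pt 0 := by decide +kernel
  have h1 : pt 1 ∈ toSet (fixMask cent3ARep) ∧ pt 1 ≠ pt 0 := by decide +kernel
  have e2 := card_eq_orbit_mul K (pt 1) (toSet (fixMask cent3ARep ^^^ 1) : Set GolayPt)
    (fun σ hσ => by
      obtain ⟨hσ1, hσ2⟩ := Subgroup.mem_inf.1 hσ
      rw [Finset.mem_coe, hset]
      refine ⟨hinv σ hσ1 _ h1.1, fun e => h1.2 (σ.injective ?_)⟩
      exact e.trans (show σ (pt 0) = pt 0 from hσ2).symm) fun q hq => by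
      obtain ⟨σ, hσ, hfix, he⟩ := witness_spec hv (by norm_num) hw' hq
      exact ⟨σ, Subgroup.mem_inf.2 ⟨hσ, hfix _ ((toSet_one_iff _).2 rfl)⟩, he⟩
  rw [e1, e2, Set.ncard_coe_finset, Set.ncard_coe_finset, card_toSet, card_toSet, h6, h5,
    ← SetLike.coe_sort_coe, Nat.card_coe_set_eq, ncard_coded hc (L := cent3AList) (fun x => by
      rw [← mem_cent3A_two]
      simp only [K, SetLike.mem_coe, Subgroup.mem_inf, MulAction.mem_stabilizer_iff,
        Equiv.Perm.smul_def, and_assoc]), hlen]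

theorem mem_cent3B_zero (x : Equiv.Perm GolayPt) :
    x ∈ codeCent cent3BRep ∧ x (pt 0) = pt 0 ↔ ∃ p ∈ cent3BList, toPerm p = x := by
  obtain ⟨hin, -, -, hv, -, i1, i2, -⟩ := cent3B_facts
  rw [← search_exact (J := [cent3BRep]) hv (by simpa using hv) (n := 4) (k := 3) rfl cent3B_search
    hin x, mem_codeCent, mem_level]
  simp only [baseMask_three, Twines, List.mem_singleton, exists_eq_left]
  constructor
  · rintro ⟨⟨h1, h2⟩, h3⟩
    refine ⟨⟨h1, ?_⟩, h2⟩
    have s1 : x (pt 1) = pt 1 := by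
      have e := DFunLike.congr_fun h2 (pt 0)
      simp only [Equiv.Perm.mul_apply] at e
      rw [h3, toPerm_pt hv (by norm_num : 0 < 24), i1] at e
      exact e
    have s2 : x (pt 2) = pt 2 := by
      have e := DFunLike.congr_fun h2 (pt 1)
      simp only [Equiv.Perm.mul_apply] at e
      rw [s1, toPerm_pt hv (by norm_num : 1 < 24), i2] at e
      exact e
    rintro p (rfl | rfl | rfl) <;> assumption
  · rintro ⟨⟨h1, h3⟩, h2⟩
    exact ⟨⟨h1, h2⟩, h3 _ (Or.inl rfl)⟩

theorem card_cent3B : Nat.card (codeCent cent3BRep) = 504 := by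
  obtain ⟨-, hc, hlen, hv, hw, -, -, -⟩ := cent3B_facts
  have e1 := card_eq_orbit_mul (codeCent cent3BRep) (pt 0) Set.univ (fun _ _ => Set.mem_univ _)
    fun q _ => by
      obtain ⟨σ, hσ, -, he⟩ := witness_spec hv (by norm_num) hw
        (q := q) (by rw [toSet_full]; exact Finset.mem_univ q)
      exact ⟨σ, hσ, he⟩
  rw [e1, Set.ncard_univ, Nat.card_eq_fintype_card (α := GolayPt),
    ← SetLike.coe_sort_coe, Nat.card_coe_set_eq, ncard_coded hc (L := cent3BList) (fun x => by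
      rw [← mem_cent3B_zero]
      simp only [SetLike.mem_coe, Subgroup.mem_inf, MulAction.mem_stabilizer_iff,
        Equiv.Perm.smul_def]), hlen]
  rfl

/-- Conjugate elements have centralisers of the same order. -/
theorem card_codeCent_conj {c r s : ℕ} (h : isConj c r s = true) :
    Nat.card (codeCent s) = Nat.card (codeCent r) := by
  obtain ⟨hcM, he⟩ := isConj_spec h
  set g := toPerm c
  refine Nat.card_congr
    { toFun := fun x => ⟨g⁻¹ * x.1 * g, ?_⟩
      invFun := fun x => ⟨g * x.1 * g⁻¹, ?_⟩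
      left_inv := fun x => Subtype.ext (by group)
      right_inv := fun x => Subtype.ext (by group) }
  · obtain ⟨hx, hc⟩ := mem_codeCent.1 x.2
    refine mem_codeCent.2 ⟨mul_mem (mul_mem (inv_mem hcM) hx) hcM, ?_⟩
    calc g⁻¹ * x.1 * g * toPerm r = g⁻¹ * (x.1 * (g * toPerm r * g⁻¹)) * g := by group
      _ = g⁻¹ * (g * toPerm r * g⁻¹ * x.1) * g := by rw [he, hc]
      _ = _ := by group
  · obtain ⟨hx, hc⟩ := mem_codeCent.1 x.2
    refine mem_codeCent.2 ⟨mul_mem (mul_mem hcM hx) (inv_mem hcM), ?_⟩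
    rw [← he]
    calc g * x.1 * g⁻¹ * (g * toPerm r * g⁻¹) = g * (x.1 * toPerm r) * g⁻¹ := by group
      _ = g * (toPerm r * x.1) * g⁻¹ := by rw [hc]
      _ = _ := by group

end Cfsg.Agent.Lib.Golay
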