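import Cfsg.Agent.Lib.Golay.SingleBlockCentBase

/-! # The search for the first class -/

set_option autoImplicit false
set_option maxRecDepth 100000

namespace Cfsg.Agent.Lib.Golay

open Cfsg
open scoped Pointwise

theorem cent3A_search : search cent3ARep [cent3ARep] 5 2 idCode = cent3AList := by decide +kernel

theorem cent3A_facts :
    cent3AList.all (fun p => inM24 p && fixesMask (baseMask 2) p &&
      commJ cent3ARep [cent3ARep] p) = true ∧
      codedOK cent3AList = true ∧ cent3AList.length = 36 ∧ valid cent3ARep = true ∧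
      witnessOK cent3ARep 0 (fixMask cent3ARep) 0 cent3ATrans = true ∧
      witnessOK cent3ARep 1 (fixMask cent3ARep ^^^ 1) 1 cent3ATransB = true ∧
      pc (fixMask cent3ARep) = 6 ∧ pc (fixMask cent3ARep ^^^ 1) = 5 ∧
      fixMask cent3ARep &&& 1 = 1 ∧ isConj cent3AConj cent3ARep rep3A = true := by
  refine ⟨?_, ?_, ?_, ?_, ?_, ?_, ?_, ?_, ?_, ?_⟩ <;> decide +kernel

end Cfsg.Agent.Lib.Golay
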