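import Cfsg.Agent.Lib.Golay.SingleBlockCentA

/-! # The search for the second class -/

set_option autoImplicit false
set_option maxRecDepth 100000

namespace Cfsg.Agent.Lib.Golay

open Cfsg
open scoped Pointwise

theorem cent3B_search : search cent3BRep [cent3BRep] 4 3 idCode = cent3BList := by decide +kernel

theorem cent3B_facts :
    cent3BList.all (fun p => inM24 p && fixesMask (baseMask 3) p &&
      commJ cent3BRep [cent3BRep] p) = true ∧
      codedOK cent3BList = true ∧ cent3BList.length = 21 ∧ valid cent3BRep = true ∧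
      witnessOK cent3BRep 0 FULL 0 cent3BTrans = true ∧
      img cent3BRep 0 = 1 ∧ img cent3BRep 1 = 2 ∧ isConj cent3BConj cent3BRep rep3B = true := by
  refine ⟨?_, ?_, ?_, ?_, ?_, ?_, ?_, ?_⟩ <;> decide +kernel

end Cfsg.Agent.Lib.Golay
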