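import Cfsg.Agent.Lib.Golay.SingleBlock

/-! # Centralisers of coded maps -/

set_option autoImplicit false
set_option maxRecDepth 100000

namespace Cfsg.Agent.Lib.Golay

open Cfsg
open scoped Pointwise

/-- The centraliser of a coded map in the group of the code. -/
noncomputable def codeCent (r : ℕ) : Subgroup (Equiv.Perm GolayPt) :=
  M24 ⊓ Subgroup.centralizer {toPerm r}

theorem mem_codeCent {r : ℕ} {x : Equiv.Perm GolayPt} :
    x ∈ codeCent r ↔ x ∈ M24 ∧ x * toPerm r = toPerm r * x := by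
  simp only [codeCent, Subgroup.mem_inf, Subgroup.mem_centralizer_singleton_iff]

/-- Witnesses of transitivity on the points of `O`, fixing the points of `F`. -/
def witnessOK (r F O i0 : ℕ) (W : List ℕ) : Bool :=
  W.all (fun c => inM24 c && commJ r [r] c && fixesMask F c) &&
    (keySet (fun c => img c i0) W == O)

theorem witness_spec {r F O i0 : ℕ} {W : List ℕ} (hr : valid r = true) (hi : i0 < 24)
    (h : witnessOK r F O i0 W = true) {q : GolayPt} (hq : q ∈ toSet O) :
    ∃ σ ∈ codeCent r, (∀ p ∈ toSet F, σ p = p) ∧ σ (pt i0) = q := by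
  simp only [witnessOK, Bool.and_eq_true, List.all_eq_true, beq_iff_eq] at h
  rw [mem_toSet, ← h.2, testBit_keySet] at hq
  obtain ⟨c, hc, he⟩ := hq
  obtain ⟨⟨hcM, hcc⟩, hcF⟩ := h.1 c hc
  have hcv := valid_of_inM24 hcM
  refine ⟨toPerm c, mem_codeCent.2 ⟨toPerm_mem_M24 hcM, ?_⟩,
    fun p hp => fixesMask_spec hcv hcF hp, by rw [toPerm_pt hcv hi, he, pt_ix]⟩
  have := (commJ_iff hr hcv (by simpa using hr)).1 hcc
  simpa [Twines] using this

end Cfsg.Agent.Lib.Golay
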