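import Cfsg.Agent.Lib.Golay.SingleBlockCent

/-! # No character of defect zero for two groups of the code -/

set_option autoImplicit false
set_option maxRecDepth 100000

namespace Cfsg.Agent.Lib.Golay

open Cfsg
open Cfsg.Agent.Lib
open scoped Pointwise ComplexConjugate

/-! ### Centralisers of the elements of order three -/

theorem card_centralizer_sub (K : Subgroup (Equiv.Perm GolayPt)) (r : K) :
    Nat.card (Subgroup.centralizer ({r} : Set K)) =
      {x : Equiv.Perm GolayPt | x ∈ K ∧ x * r = r * x}.ncard := by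
  rw [← Nat.card_coe_set_eq]
  exact Nat.card_congr
    { toFun := fun g => ⟨((g : K) : Equiv.Perm GolayPt), (g : K).2,
        congrArg Subtype.val (Subgroup.mem_centralizer_singleton_iff.1 g.2)⟩
      invFun := fun g => ⟨⟨g.1, g.2.1⟩,
        Subgroup.mem_centralizer_singleton_iff.2 (Subtype.ext g.2.2)⟩
      left_inv := fun _ => rfl
      right_inv := fun _ => rfl }

theorem fixMask_lt (c : ℕ) : fixMask c < 16777216 := by
  refine Nat.lt_pow_two_of_testBit (n := 24) _ fun i hi => ?_
  have key : ∀ L : List ℕ, (∀ j ∈ L, j < 24) → (L.foldr (fun j acc =>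
      if img c j = j then 1 <<< j ||| acc else acc) 0).testBit i = false := by
    intro L hL
    induction L with
    | nil => simp
    | cons j L ih =>
      have hj := hL j (by simp)
      simp only [List.foldr_cons]
      split_ifs
      · rw [Nat.testBit_or, ih fun k hk => hL k (List.mem_cons_of_mem _ hk), Nat.one_shiftLeft,
          Nat.testBit_two_pow]
        simp; omega
      · exact ih fun k hk => hL k (List.mem_cons_of_mem _ hk)
  exact key idx fun j hj => mem_idx.1 hj

/-! ### Listed subgroups -/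

/-- A list closed under composition. -/
def closedOK (L : List ℕ) : Bool :=
  L.elem idCode && L.all valid && L.all fun a => L.all fun b => L.elem (comp a b)

theorem exists_listGroup {K : Subgroup (Equiv.Perm GolayPt)} {L : List ℕ}
    (hok : closedOK L = true) (hK : ∀ c ∈ L, toPerm c ∈ K) :
    ∃ P : Subgroup K, ∀ g : K, g ∈ P ↔ ∃ c ∈ L, toPerm c = (g : Equiv.Perm GolayPt) := by
  simp only [closedOK, Bool.and_eq_true, List.all_eq_true, List.elem_eq_mem,
    decide_eq_true_eq] at hok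
  obtain ⟨⟨hid, hv⟩, hmul⟩ := hok
  let S : Set K := {g | ∃ c ∈ L, toPerm c = (g : Equiv.Perm GolayPt)}
  have hm : ∀ a b : K, a ∈ S → b ∈ S → a * b ∈ S := by
    rintro a b ⟨c, hc, ha⟩ ⟨d, hd, hb⟩
    exact ⟨comp c d, hmul c hc d hd, by
      rw [(comp_spec (hv c hc) (hv d hd)).2, ha, hb]; rfl⟩
  let Sm : Submonoid K :=
    { carrier := S, mul_mem' := fun {a b} ha hb => hm a b ha hb,
      one_mem' := ⟨idCode, hid, toPerm_idCode⟩ }
  refine ⟨{ Sm with inv_mem' := fun {x} hx => ?_ }, fun g => Iff.rfl⟩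
  obtain ⟨n, hn⟩ := (IsOfFinOrder.mem_powers_iff_mem_zpowers (isOfFinOrder_of_finite x)).2
    (inv_mem (Subgroup.mem_zpowers x))
  show x⁻¹ ∈ Sm
  rw [← show x ^ n = x⁻¹ from hn]
  exact Submonoid.pow_mem _ hx n

open scoped Classical in
/-- The listed elements in the group. -/
noncomputable def inGroup (K : Subgroup (Equiv.Perm GolayPt)) (c : ℕ) : K :=
  if h : toPerm c ∈ K then ⟨toPerm c, h⟩ else 1

theorem coe_inGroup {K : Subgroup (Equiv.Perm GolayPt)} {c : ℕ} (h : toPerm c ∈ K) :
    (inGroup K c : Equiv.Perm GolayPt) = toPerm c := by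
  simp [inGroup, dif_pos h]

/-- The sum of the values over a listed subgroup. -/
theorem dvd_list_sum {K : Subgroup (Equiv.Perm GolayPt)} {L : List ℕ} (hok : closedOK L = true)
    (hc : codedOK L = true) (hK : ∀ c ∈ L, toPerm c ∈ K) {χ : K → ℂ} (hχ : IsCharacter K χ)
    (w : ℕ → ℤ) (hw : ∀ c ∈ L, χ (inGroup K c) = (w c : ℂ)) :
    (L.length : ℤ) ∣ ∑ c ∈ L.toFinset, w c := by
  classical
  have := Fintype.ofFinite K
  obtain ⟨P, hP⟩ := exists_listGroup hok hK
  have hmem : ∀ g : K, g ∈ L.toFinset.image (inGroup K) ↔ g ∈ P := by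
    intro g
    simp only [hP, Finset.mem_image, List.mem_toFinset]
    refine exists_congr fun c => and_congr_right fun hc' => ?_
    rw [← coe_inGroup (hK c hc'), Subtype.coe_inj]
  have hinj : Set.InjOn (inGroup K) (L.toFinset : Set ℕ) := by
    intro a ha b hb e
    simp only [Finset.mem_coe, List.mem_toFinset] at ha hb
    refine codedOK_inj hc ha hb ?_
    rw [← coe_inGroup (hK a ha), e, coe_inGroup (hK b hb)]
  have hcard : Nat.card P = L.length := by
    have hnd : L.Nodup := by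
      simp only [codedOK, Bool.and_eq_true] at hc
      exact nodup_of_distinct hc.1
    rw [← List.toFinset_card_of_nodup hnd, ← Finset.card_image_of_injOn hinj,
      ← Set.ncard_coe_finset, ← Nat.card_coe_set_eq]
    exact Nat.card_congr (Equiv.subtypeEquivRight fun g => (hmem g).symm)
  rw [← hcard]
  refine Block.card_dvd_sum_values hχ P _ hmem ?_
  rw [Finset.sum_image hinj, Int.cast_sum]
  exact Finset.sum_congr rfl fun c hc' => hw c (List.mem_toFinset.1 hc')

theorem orderOf_listed {K : Subgroup (Equiv.Perm GolayPt)} {c : ℕ} (hm : toPerm c ∈ K)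
    (hv : valid c = true) (hp : powId 3 c = true) (hne : fixMask c ≠ FULL) :
    orderOf (inGroup K c) = 3 := by
  have : Fact (Nat.Prime 3) := ⟨Nat.prime_three⟩
  rw [← Subgroup.orderOf_coe, coe_inGroup hm]
  refine orderOf_eq_prime (pow_eq_one_of_powId hv hp) fun e => hne ?_
  refine eq_of_toSet_eq (fixMask_lt c) (by norm_num) ?_
  rw [← fixedPts_toPerm hv, e, toSet_full]
  exact Finset.eq_univ_of_forall fun x => mem_fixedPts.2 rfl

/-! ### The group of the code -/

theorem syl3_list_facts : closedOK syl30 = true ∧ codedOK syl30 = true ∧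
    syl30.all (fun c => inM24 c && powId 3 c && ((c == idCode) || (fixMask c != FULL))) = true ∧
    syl30.length = 27 ∧
    (syl30.toFinset.filter fun c => c = idCode).card = 1 ∧
    (syl30.toFinset.filter fun c => c ≠ idCode ∧ fixMask c ≠ 0).card = 14 ∧
    (syl30.toFinset.filter fun c => c ≠ idCode ∧ ¬ fixMask c ≠ 0).card = 12 := by
  refine ⟨?_, ?_, ?_, ?_, ?_, ?_, ?_⟩ <;> decide +kernel

theorem arith24 : ∀ k : Fin 16, ∀ i : Fin 9, ∀ j : Fin 5, (k : ℕ) % 2 = 1 →
    (1024 * (k : ℤ) + 14 * (8 * ((i : ℤ) - 4)) + 12 * (8 * ((j : ℤ) - 2))) % 27 = 0 →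
    244823040 < (1024 * (k : ℤ)) ^ 2 + 226688 * (8 * ((i : ℤ) - 4)) ^ 2 +
      485760 * (8 * ((j : ℤ) - 2)) ^ 2 := by
  decide +kernel

theorem M24_no_defect_zero (χ : IrrCharacter M24) :
    (charDegree (χ : M24 → ℂ)).factorization 2 ≠ (Nat.card M24).factorization 2 := by
  intro hd
  classical
  have := Fintype.ofFinite M24
  obtain ⟨hA, hB⟩ := And.intro (rep_valid (r := rep3A) (by simp)) (rep_valid (r := rep3B) (by simp))
  have hcls : ∀ g : M24, orderOf g = 3 →
      ((fixedPts (g : Equiv.Perm GolayPt)).card = 6 ∧ IsConj g (inGroup M24 rep3A)) ∨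
      ((fixedPts (g : Equiv.Perm GolayPt)).card = 0 ∧ IsConj g (inGroup M24 rep3B)) := by
    intro g hg
    obtain ⟨c, hc, ⟨h, he⟩ | ⟨h, he⟩⟩ := three_classes g.2 (by rw [Subgroup.orderOf_coe, hg])
    · exact Or.inl ⟨h, isConj_iff.2 ⟨⟨c, hc⟩, Subtype.ext (by rw [coe_inGroup hA.1]; exact he)⟩⟩
    · exact Or.inr ⟨h, isConj_iff.2 ⟨⟨c, hc⟩, Subtype.ext (by rw [coe_inGroup hB.1]; exact he)⟩⟩
  have hinvfix : ∀ g : Equiv.Perm GolayPt, fixedPts g⁻¹ = fixedPts g := fun g => by
    ext p
    rw [mem_fixedPts, mem_fixedPts, Equiv.Perm.inv_eq_iff_eq, eq_comm]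
  obtain ⟨-, -, -, -, h6, h0, -, -, p3A, p3B⟩ := rep_facts
  have oA : orderOf (inGroup M24 rep3A) = 3 :=
    orderOf_listed hA.1 hA.2 p3A (fun e => by rw [e] at h6; exact absurd h6 (by decide +kernel))
  have oB : orderOf (inGroup M24 rep3B) = 3 :=
    orderOf_listed hB.1 hB.2 p3B (fun e => by rw [e] at h0; exact absurd h0 (by decide +kernel))
  have fA : (fixedPts ((inGroup M24 rep3A : M24) : Equiv.Perm GolayPt)).card = 6 := by
    rw [coe_inGroup hA.1, fixedPts_toPerm hA.2, card_toSet, h6]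
  have fB : (fixedPts ((inGroup M24 rep3B : M24) : Equiv.Perm GolayPt)).card = 0 := by
    rw [coe_inGroup hB.1, fixedPts_toPerm hB.2, card_toSet, h0]; rfl
  have cA : IsConj (inGroup M24 rep3A) (inGroup M24 rep3A)⁻¹ := by
    rcases hcls _ (by rw [orderOf_inv, oA]) with ⟨-, h⟩ | ⟨h, -⟩
    · exact h.symm
    · rw [Subgroup.coe_inv, hinvfix, fA] at h; omega
  have cB : IsConj (inGroup M24 rep3B) (inGroup M24 rep3B)⁻¹ := by
    rcases hcls _ (by rw [orderOf_inv, oB]) with ⟨h, -⟩ | ⟨-, h⟩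
    · rw [Subgroup.coe_inv, hinvfix, fB] at h; omega
    · exact h.symm
  have hχ := Char.isCharacter_of_isIrr χ.2
  obtain ⟨x, hx⟩ := Block.exists_int_of_three hχ (by rw [← oA]; exact pow_orderOf_eq_one _) cA
  obtain ⟨y, hy⟩ := Block.exists_int_of_three hχ (by rw [← oB]; exact pow_orderOf_eq_one _) cB
  set d := charDegree (χ : M24 → ℂ) with hdd
  -- the degree
  have hpos : 0 < d := CharAux.charDegree_pos χ.2
  have hf : (Nat.card M24).factorization 2 = 10 := by
    rw [M24_card]
    have h1 := (Nat.prime_two.pow_dvd_iff_le_factorization (n := 244823040) (by norm_num)).1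
      (show 2 ^ 10 ∣ 244823040 by norm_num)
    have h2 := mt (Nat.prime_two.pow_dvd_iff_le_factorization (n := 244823040) (by norm_num)).2
      (show ¬ 2 ^ 11 ∣ 244823040 by norm_num)
    omega
  rw [hf] at hd
  have hd1 : 2 ^ 10 ∣ d := (Nat.prime_two.pow_dvd_iff_le_factorization hpos.ne').2 hd.ge
  have hd2 : ¬ 2 ^ 11 ∣ d := fun h => by
    have := (Nat.prime_two.pow_dvd_iff_le_factorization hpos.ne').1 h
    omega
  -- the centralisers
  have hset : ∀ c : ℕ, {x : Equiv.Perm GolayPt | x ∈ M24 ∧ x * toPerm c = toPerm c * x}.ncard =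
      Nat.card (codeCent c) := fun c => by
    rw [← SetLike.coe_sort_coe, Nat.card_coe_set_eq]
    exact congrArg Set.ncard (Set.ext fun x => mem_codeCent.symm)
  have iA : (Subgroup.centralizer ({inGroup M24 rep3A} : Set M24)).index = 226688 := by
    have hc := Subgroup.card_mul_index (Subgroup.centralizer ({inGroup M24 rep3A} : Set M24))
    rw [card_centralizer_sub, coe_inGroup hA.1, hset,
      card_codeCent_conj cent3A_facts.2.2.2.2.2.2.2.2.2, card_cent3A, M24_card] at hc
    omega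
  have iB : (Subgroup.centralizer ({inGroup M24 rep3B} : Set M24)).index = 485760 := by
    have hc := Subgroup.card_mul_index (Subgroup.centralizer ({inGroup M24 rep3B} : Set M24))
    rw [card_centralizer_sub, coe_inGroup hB.1, hset,
      card_codeCent_conj cent3B_facts.2.2.2.2.2.2.2, card_cent3B, M24_card] at hc
    omega
  have dA := Block.dvd_classSize_mul χ.2 hx iA
  have dB := Block.dvd_classSize_mul χ.2 hy iB
  rw [← hdd] at dA dB
  -- the Sylow subgroup
  obtain ⟨hclosed, hcoded, hall, hlen, n1, nA, nB⟩ := syl3_list_facts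
  simp only [List.all_eq_true, Bool.and_eq_true, Bool.or_eq_true, beq_iff_eq, bne_iff_ne,
    ne_eq] at hall
  have hsum := dvd_list_sum hclosed hcoded (fun c hc => toPerm_mem_M24 (hall c hc).1.1) hχ
    (fun c => if c = idCode then (d : ℤ) else if fixMask c ≠ 0 then x else y) (fun c hc => by
      obtain ⟨⟨hcM, hc3⟩, hcne⟩ := hall c hc
      by_cases hid : c = idCode
      · subst hid
        rw [show inGroup M24 idCode = 1 from Subtype.ext (by
          rw [coe_inGroup (toPerm_mem_M24 hcM), toPerm_idCode]; rfl),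
          CharAux.charDegree_eq hχ, if_pos rfl, Int.cast_natCast]
      · rw [if_neg hid]
        have hv := valid_of_inM24 hcM
        have ho := orderOf_listed (K := M24) (toPerm_mem_M24 hcM) hv hc3 (hcne.resolve_left hid)
        have hfix : fixedPts ((inGroup M24 c : M24) : Equiv.Perm GolayPt) = toSet (fixMask c) := by
          rw [coe_inGroup (toPerm_mem_M24 hcM), fixedPts_toPerm hv]
        rcases hcls _ ho with ⟨h, hcj⟩ | ⟨h, hcj⟩ <;> rw [hfix] at h
        · rw [if_pos (fun e => by rw [e, toSet_zero] at h; simp at h), ← hx]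
          obtain ⟨k, hk⟩ := isConj_iff.1 hcj
          rw [← hk, Char.isClassFunction_of_isCharacter hχ]
        · rw [if_neg (not_not.2 (eq_of_toSet_eq (fixMask_lt c) (by norm_num)
            (by rw [toSet_zero]; exact Finset.card_eq_zero.1 h))), ← hy]
          obtain ⟨k, hk⟩ := isConj_iff.1 hcj
          rw [← hk, Char.isClassFunction_of_isCharacter hχ])
  rw [hlen, Finset.sum_ite, Finset.sum_ite, Finset.sum_const, Finset.sum_const, Finset.sum_const,
    Finset.filter_filter, Finset.filter_filter, nA, nB, n1] at hsum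
  simp only [nsmul_eq_mul, Nat.cast_ofNat, Nat.cast_one, one_mul] at hsum
  -- the norm
  have hAB : ¬ IsConj (inGroup M24 rep3A) (inGroup M24 rep3B) := fun h => by
    obtain ⟨k, hk⟩ := isConj_iff.1 h
    rw [← hk, Subgroup.coe_mul, Subgroup.coe_mul, Subgroup.coe_inv, fixedPts_card_conj, fA] at fB
    omega
  have h1A : (1 : M24) ≠ inGroup M24 rep3A := fun e => by rw [← e, orderOf_one] at oA; omega
  have h1B : (1 : M24) ≠ inGroup M24 rep3B := fun e => by rw [← e, orderOf_one] at oB; omega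
  have hnAB : inGroup M24 rep3A ≠ inGroup M24 rep3B := fun e => hAB (e ▸ IsConj.refl _)
  have hnorm := Block.sum_sq_classes_le χ.2 {1, inGroup M24 rep3A, inGroup M24 rep3B} (by
    intro a ha b hb hab
    simp only [Finset.mem_insert, Finset.mem_singleton] at ha hb
    rcases ha with rfl | rfl | rfl <;> rcases hb with rfl | rfl | rfl <;> try rfl
    · exact (isConj_one_right.1 hab).symm
    · exact (isConj_one_right.1 hab).symm
    · exact isConj_one_left.1 hab
    · exact absurd hab hAB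
    · exact isConj_one_left.1 hab
    · exact absurd hab.symm hAB)
  rw [Finset.sum_insert (by simp [h1A, h1B]), Finset.sum_pair hnAB, hx, hy,
    CharAux.charDegree_eq hχ, iA, iB, ← hdd, M24_card] at hnorm
  have h11 : (Subgroup.centralizer ({1} : Set M24)).index = 1 := by
    rw [Subgroup.index_eq_one]
    refine Subgroup.ext fun g => ?_
    simp [Subgroup.mem_centralizer_singleton_iff]
  rw [h11] at hnorm
  simp only [Complex.normSq_intCast, Complex.normSq_natCast, Nat.cast_one, one_mul] at hnorm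
  push_cast at hnorm
  have hN : (d : ℤ) ^ 2 + 226688 * x ^ 2 + 485760 * y ^ 2 ≤ 244823040 := by
    have : ((d : ℝ) ^ 2 + 226688 * (x : ℝ) ^ 2 + 485760 * (y : ℝ) ^ 2) ≤ 244823040 := by
      nlinarith [hnorm]
    exact_mod_cast this
  -- the contradiction
  obtain ⟨k, hk⟩ := hd1
  have hkodd : k % 2 = 1 := by
    by_contra hne
    exact hd2 ⟨k / 2, by omega⟩
  have hkle : k < 16 := by
    by_contra hne
    have : (16384 : ℤ) ≤ d := by omega
    nlinarith [sq_nonneg x, sq_nonneg y]
  obtain ⟨x', rfl⟩ : (8 : ℤ) ∣ x := by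
    have h := dvd_trans (Int.natCast_dvd_natCast.2 ⟨k, hk⟩) dA
    norm_num at h
    omega
  obtain ⟨y', rfl⟩ : (8 : ℤ) ∣ y := by
    have h := dvd_trans (Int.natCast_dvd_natCast.2 ⟨k, hk⟩) dB
    norm_num at h
    omega
  have hxb : -4 ≤ x' ∧ x' ≤ 4 := by constructor <;> nlinarith [sq_nonneg (y' : ℤ), sq_nonneg (d : ℤ)]
  have hyb : -2 ≤ y' ∧ y' ≤ 2 := by constructor <;> nlinarith [sq_nonneg (x' : ℤ), sq_nonneg (d : ℤ)]
  obtain ⟨i, hi⟩ : ∃ i : Fin 9, x' = (i : ℤ) - 4 :=
    ⟨⟨(x' + 4).toNat, by omega⟩, by show x' = ((x' + 4).toNat : ℤ) - 4; omega⟩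
  obtain ⟨j, hj⟩ : ∃ j : Fin 5, y' = (j : ℤ) - 2 :=
    ⟨⟨(y' + 2).toNat, by omega⟩, by show y' = ((y' + 2).toNat : ℤ) - 2; omega⟩
  have hdk : (d : ℤ) = 1024 * k := by omega
  have key := arith24 ⟨k, hkle⟩ i j hkodd (by
    rw [← hi, ← hj]
    refine Int.emod_eq_zero_of_dvd ?_
    rw [hdk] at hsum
    convert hsum using 1
    ring)
  rw [← hi, ← hj] at key
  rw [hdk] at hN
  push_cast at key
  omega

/-! ### The two-point stabiliser -/

theorem syl3M22_facts : closedOK syl3M22 = true ∧ codedOK syl3M22 = true ∧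
    syl3M22.all (inStab [] (1 <<< 23 ||| 1)) = true ∧ syl3M22.length = 9 ∧
    (syl3M22.toFinset.filter fun c => c = idCode).card = 1 ∧
    (syl3M22.toFinset.filter fun c => ¬ c = idCode).card = 8 ∧
    (syl3M22.filter fun c => c != idCode).all (fun c =>
      (syl3M22Conj.map Prod.fst).elem c) = true ∧
    syl3M22Conj.all (fun e => conjIn [] (1 <<< 23 ||| 1) e.2 e.1 rep3M22) = true ∧
    syl3M22.elem rep3M22 = true ∧ powId 3 rep3M22 = true ∧ fixMask rep3M22 ≠ FULL ∧
    inM24 to3A = true ∧ isConj to3A rep3M22 cent3ARep = true ∧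
    img to3A 23 = 0 ∧ img to3A 0 = 1 := by
  refine ⟨?_, ?_, ?_, ?_, ?_, ?_, ?_, ?_, ?_, ?_, ?_, ?_, ?_, ?_, ?_⟩ <;> decide +kernel

theorem card_cent3M22 : {x : Equiv.Perm GolayPt |
    x ∈ gM22 ∧ x * toPerm rep3M22 = toPerm rep3M22 * x}.ncard = 36 := by
  obtain ⟨-, -, -, -, -, -, -, -, -, -, -, hgi, hconj, i23, i0⟩ := syl3M22_facts
  obtain ⟨hgM, hge⟩ := isConj_spec hconj
  have hgv := valid_of_inM24 hgi
  set g := toPerm to3A
  have g23 : g (pt 23) = pt 0 := by rw [toPerm_pt hgv (by norm_num), i23]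
  have g0 : g (pt 0) = pt 1 := by rw [toPerm_pt hgv (by norm_num), i0]
  have gi0 : g⁻¹ (pt 0) = pt 23 := by rw [Equiv.Perm.inv_eq_iff_eq, g23]
  have gi1 : g⁻¹ (pt 1) = pt 0 := by rw [Equiv.Perm.inv_eq_iff_eq, g0]
  have hF : ∀ r : GolayPt, r ∈ toSet (1 <<< 23 ||| 1) ↔ r = pt 23 ∨ r = pt 0 := by decide +kernel
  set S := {x : Equiv.Perm GolayPt | x ∈ gM22 ∧ x * toPerm rep3M22 = toPerm rep3M22 * x}
  rw [← cent3A_facts.2.2.1, ← Set.ncard_image_of_injective S (MulAut.conj g).injective]
  refine ncard_coded cent3A_facts.2.1 fun y => ?_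
  rw [← mem_cent3A_two, mem_codeCent]
  constructor
  · rintro ⟨x, ⟨hx, hxc⟩, rfl⟩
    obtain ⟨hxM, -, hxF⟩ := mem_stabM.1 hx
    simp only [MulAut.conj_apply]
    refine ⟨⟨mul_mem (mul_mem hgM hxM) (inv_mem hgM), ?_⟩, ?_, ?_⟩
    · rw [← hge]
      calc g * x * g⁻¹ * (g * toPerm rep3M22 * g⁻¹) = g * (x * toPerm rep3M22) * g⁻¹ := by group
        _ = _ := by rw [hxc]; group
    · rw [Equiv.Perm.mul_apply, Equiv.Perm.mul_apply, gi0, hxF _ ((hF _).2 (Or.inl rfl)), g23]
    · rw [Equiv.Perm.mul_apply, Equiv.Perm.mul_apply, gi1, hxF _ ((hF _).2 (Or.inr rfl)), g0]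
  · rintro ⟨⟨hyM, hyc⟩, hy0, hy1⟩
    refine ⟨g⁻¹ * y * g, ⟨mem_stabM.2 ⟨mul_mem (mul_mem (inv_mem hgM) hyM) hgM, by simp,
      fun r hr => ?_⟩, ?_⟩, by rw [MulAut.conj_apply]; group⟩
    · rcases (hF r).1 hr with rfl | rfl
      · rw [Equiv.Perm.mul_apply, Equiv.Perm.mul_apply, g23, hy0, gi0]
      · rw [Equiv.Perm.mul_apply, Equiv.Perm.mul_apply, g0, hy1, gi1]
    · rw [show toPerm rep3M22 = g⁻¹ * toPerm cent3ARep * g by rw [← hge]; group]
      calc g⁻¹ * y * g * (g⁻¹ * toPerm cent3ARep * g) = g⁻¹ * (y * toPerm cent3ARep) * g := by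
            group
        _ = _ := by rw [hyc]; group

theorem M22_no_defect_zero (χ : IrrCharacter gM22) :
    (charDegree (χ : gM22 → ℂ)).factorization 2 ≠ (Nat.card gM22).factorization 2 := by
  intro hd
  classical
  have := Fintype.ofFinite gM22
  obtain ⟨hclosed, hcoded, hall, hlen, n1, n8, hlist, hconj, hr, hr3, hrne, -, -, -, -⟩ :=
    syl3M22_facts
  rw [List.all_eq_true] at hall hlist hconj
  have hrS := inStab_spec (hall _ (by simpa using hr))
  set r := inGroup gM22 rep3M22
  have ho : orderOf r = 3 := orderOf_listed hrS.1 hrS.2 hr3 hrne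
  have hcj : ∀ c ∈ syl3M22, c ≠ idCode → IsConj (inGroup gM22 c) r := by
    intro c hc hne
    have := hlist c (List.mem_filter.2 ⟨hc, by simpa using hne⟩)
    simp only [List.elem_eq_mem, decide_eq_true_eq, List.mem_map] at this
    obtain ⟨e, he, rfl⟩ := this
    obtain ⟨hk, hke⟩ := conjIn_spec (hconj e he)
    exact isConj_iff.2 ⟨⟨_, hk⟩, Subtype.ext (by
      simp only [Subgroup.coe_mul, Subgroup.coe_inv, r,
        coe_inGroup (inStab_spec (hall _ hc)).1, coe_inGroup hrS.1]
      exact hke)⟩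
  have hinv : IsConj r r⁻¹ := by
    obtain ⟨P, hP⟩ := exists_listGroup hclosed fun c hc => (inStab_spec (hall c hc)).1
    obtain ⟨c, hc, hce⟩ := (hP r⁻¹).1 (inv_mem ((hP r).2 ⟨_, by simpa using hr, (coe_inGroup hrS.1).symm⟩))
    have e : inGroup gM22 c = r⁻¹ :=
      Subtype.ext ((coe_inGroup (inStab_spec (hall _ hc)).1).trans hce)
    rw [← e]
    refine (hcj c hc ?_).symm
    rintro rfl
    rw [toPerm_idCode, ← Subgroup.coe_one, Subtype.coe_inj] at hce
    rw [inv_eq_one.1 hce.symm, orderOf_one] at ho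
    omega
  have hχ := Char.isCharacter_of_isIrr χ.2
  obtain ⟨t, ht⟩ := Block.exists_int_of_three hχ (by rw [← ho]; exact pow_orderOf_eq_one _) hinv
  set d := charDegree (χ : gM22 → ℂ) with hdd
  have hpos : 0 < d := CharAux.charDegree_pos χ.2
  have hf : (Nat.card gM22).factorization 2 = 7 := by
    rw [gM22_card]
    have h1 := (Nat.prime_two.pow_dvd_iff_le_factorization (n := 443520) (by norm_num)).1
      (show 2 ^ 7 ∣ 443520 by norm_num)
    have h2 := mt (Nat.prime_two.pow_dvd_iff_le_factorization (n := 443520) (by norm_num)).2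
      (show ¬ 2 ^ 8 ∣ 443520 by norm_num)
    omega
  rw [hf] at hd
  have hd1 : 2 ^ 7 ∣ d := (Nat.prime_two.pow_dvd_iff_le_factorization hpos.ne').2 hd.ge
  have hd2 : ¬ 2 ^ 8 ∣ d := fun h => by
    have := (Nat.prime_two.pow_dvd_iff_le_factorization hpos.ne').1 h
    omega
  have it : (Subgroup.centralizer ({r} : Set gM22)).index = 12320 := by
    have hc := Subgroup.card_mul_index (Subgroup.centralizer ({r} : Set gM22))
    rw [card_centralizer_sub, coe_inGroup hrS.1, card_cent3M22, gM22_card] at hc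
    omega
  have dt := Block.dvd_classSize_mul χ.2 ht it
  rw [← hdd] at dt
  have hsum := dvd_list_sum hclosed hcoded (fun c hc => (inStab_spec (hall c hc)).1) hχ
    (fun c => if c = idCode then (d : ℤ) else t) (fun c hc => by
      by_cases hid : c = idCode
      · subst hid
        rw [show inGroup gM22 idCode = 1 from Subtype.ext (by
          rw [coe_inGroup (inStab_spec (hall _ hc)).1, toPerm_idCode]; rfl),
          CharAux.charDegree_eq hχ, if_pos rfl, Int.cast_natCast]
      · rw [if_neg hid, ← ht]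
        obtain ⟨k, hk⟩ := isConj_iff.1 (hcj c hc hid)
        rw [← hk, Char.isClassFunction_of_isCharacter hχ])
  rw [hlen, Finset.sum_ite, Finset.sum_const, Finset.sum_const, n1, n8] at hsum
  simp only [nsmul_eq_mul, Nat.cast_ofNat, Nat.cast_one, one_mul] at hsum
  have hnorm := Block.sum_sq_classes_le χ.2 {1, r} (by
    intro a ha b hb hab
    simp only [Finset.mem_insert, Finset.mem_singleton] at ha hb
    rcases ha with rfl | rfl <;> rcases hb with rfl | rfl <;> try rfl
    · exact (isConj_one_right.1 hab).symm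
    · exact isConj_one_left.1 hab)
  rw [Finset.sum_pair (fun e => by rw [← e, orderOf_one] at ho; omega), ht,
    CharAux.charDegree_eq hχ, it, ← hdd, gM22_card] at hnorm
  have h11 : (Subgroup.centralizer ({1} : Set gM22)).index = 1 := by
    rw [Subgroup.index_eq_one]
    refine Subgroup.ext fun g => ?_
    simp [Subgroup.mem_centralizer_singleton_iff]
  rw [h11] at hnorm
  simp only [Complex.normSq_intCast, Complex.normSq_natCast, Nat.cast_one, one_mul] at hnorm
  push_cast at hnorm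
  have hN : (d : ℤ) ^ 2 + 12320 * t ^ 2 ≤ 443520 := by
    have : ((d : ℝ) ^ 2 + 12320 * (t : ℝ) ^ 2) ≤ 443520 := by nlinarith [hnorm]
    exact_mod_cast this
  obtain ⟨k, hk⟩ := hd1
  have hkodd : k % 2 = 1 := by
    by_contra hne
    exact hd2 ⟨k / 2, by omega⟩
  have hkle : k ≤ 5 := by
    by_contra hne
    have : (768 : ℤ) ≤ d := by omega
    nlinarith [sq_nonneg t]
  have h4 : (4 : ℤ) ∣ t := by
    have h := dvd_trans (Int.natCast_dvd_natCast.2 ⟨k, hk⟩) dt
    norm_num at h
    omega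
  have htb : -6 ≤ t ∧ t ≤ 6 := by constructor <;> nlinarith [sq_nonneg (d : ℤ)]
  obtain ⟨z, hz⟩ := hsum
  obtain ⟨htl, htu⟩ := htb
  interval_cases t <;> interval_cases k <;> omega

theorem sameBlock_M24 {M : Ideal AlgInt} (hM : IsPModular 2 M) (χ ψ : IrrCharacter M24) :
    SameBlock M (χ : M24 → ℂ) (ψ : M24 → ℂ) :=
  Block.sameBlock_of_constrained hM (exists_local_subgroup localTwo_M24) M24_no_defect_zero χ ψ

theorem sameBlock_M22 {M : Ideal AlgInt} (hM : IsPModular 2 M) (χ ψ : IrrCharacter gM22) :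
    SameBlock M (χ : gM22 → ℂ) (ψ : gM22 → ℂ) :=
  Block.sameBlock_of_constrained hM (exists_local_subgroup localTwo_M22) M22_no_defect_zero χ ψ

end Cfsg.Agent.Lib.Golay
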