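import Cfsg.Agent.Lib.Golay.OctadFix
import Cfsg.Agent.Lib.Golay.Counts
import Cfsg.Prelude.Def_SporadicCombinatorics

/-! # Stabilisers acting faithfully on six points -/

set_option autoImplicit false

namespace Cfsg.Agent.Lib.Golay

open Cfsg
open scoped Pointwise

/-- Below level 6 only the transversal is left. -/
theorem level6_eq {σ : Equiv.Perm GolayPt} (hσ : σ ∈ level 6) :
    ∃ t ∈ transversals.getD 6 [], valid t = true ∧ toPerm t = σ := by
  have horb := level_orbit (k := 6) (by norm_num) hσ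
  rw [mem_toSet, levelOrbit, testBit_keySet] at horb
  obtain ⟨t, ht, hte⟩ := horb
  obtain ⟨ht1, htv⟩ := transversal_mem (by norm_num) ht
  refine ⟨t, ht, htv, ?_⟩
  have h7 : (toPerm t)⁻¹ * σ ∈ level 7 := by
    rw [← level_succ 6 (by norm_num)]
    refine Subgroup.mem_inf.2 ⟨mul_mem (inv_mem ht1.1) hσ, ?_⟩
    rw [MulAction.mem_stabilizer_iff, mul_smul, inv_smul_eq_iff, Equiv.Perm.smul_def,
      Equiv.Perm.smul_def, toPerm_pt htv (by decide), hte, pt_ix]
  rw [level_seven, Subgroup.mem_bot, inv_mul_eq_one] at h7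
  exact h7

theorem baseMask_six : baseMask 6 = 159 := by decide

/-- Preserving one extra set, only the identity is left below level 6. -/
theorem six_rigid {m : ℕ} (hm : m < 16777216)
    (hall : ((transversals.getD 6 []).all fun t => act t m != m || t == idCode) = true)
    {g : Equiv.Perm GolayPt} (hg : g ∈ M24) (hfix : ∀ p ∈ toSet 159, g p = p)
    (hgm : g • toSet m = toSet m) : g = 1 := by
  obtain ⟨t, ht, htv, rfl⟩ := level6_eq (mem_level.2 ⟨hg, baseMask_six ▸ hfix⟩)
  have := List.all_eq_true.1 hall t ht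
  simp only [Bool.or_eq_true, bne_iff_ne, ne_eq, beq_iff_eq] at this
  rcases this with h | h
  · refine absurd (eq_of_toSet_eq (act_lt htv m) hm ?_) h
    rw [← smul_toSet htv, hgm]
  · rw [h, toPerm_idCode]

/-- A group of order 720 faithful on an invariant six-set is the symmetric group. -/
theorem iso_sym_six {H : Subgroup (Equiv.Perm GolayPt)} (hH : Nat.card H = 720)
    {D : Finset GolayPt} (hD : D.card = 6) (hinv : ∀ g ∈ H, g • D = D)
    (hfaith : ∀ g ∈ H, (∀ p ∈ D, g p = p) → g = 1) : Nonempty (H ≃* Equiv.Perm (Fin 6)) := by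
  let f : H →* Equiv.Perm D :=
    MonoidHom.mk' (fun g => (g : Equiv.Perm GolayPt).subtypePerm (smul_mem_iff_of_fix (hinv g g.2)))
      (fun a b => Equiv.ext fun x => Subtype.ext rfl)
  have hinj : Function.Injective f := by
    refine (injective_iff_map_eq_one f).2 fun g hg => Subtype.ext (hfaith g g.2 fun p hp => ?_)
    exact congrArg Subtype.val (DFunLike.congr_fun hg (⟨p, hp⟩ : D))
  have hbij : Function.Bijective f := by
    refine hinj.bijective_of_nat_card_le ?_
    rw [hH, Nat.card_perm, Nat.card_eq_fintype_card, Fintype.card_coe, hD]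
    decide
  exact ⟨(MulEquiv.ofBijective f hbij).trans (D.equivFinOfCardEq hD).permCongrHom⟩

theorem smul_sdiff_fix {g : Equiv.Perm GolayPt} {a b : Finset GolayPt} (ha : g • a = a)
    (hb : g • b = b) : g • (a \ b) = a \ b := by rw [Finset.smul_finset_sdiff, ha, hb]

/-! ### Two octads meeting in two points -/

/-- An octad meeting the standard one in `{10, 12}`. -/
def o2std : ℕ := 504864

theorem o2std_facts : o2std ∈ octList ∧ o2std < 16777216 ∧ toSet o0 \ toSet o2std = toSet 159 ∧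
    (toSet o0 ∩ toSet o2std).card = 2 ∧
    ((transversals.getD 6 []).all fun t => act t o2std != o2std || t == idCode) = true := by
  refine ⟨mem_octList.2 (by decide +kernel), by decide +kernel, by decide +kernel,
    by decide +kernel, by decide +kernel⟩

theorem oct_oct_count {o : Finset GolayPt} (ho : o ∈ octads) :
    {o' : Finset GolayPt | o' ∈ octads ∧ (o ∩ o').card = 2}.ncard = 448 := by
  have hcount : (octList.filter (octClass o0 2 0 0)).length = 448 := by decide +kernel
  rw [ncard_transfer (M24_trans_octads o0_octad ho)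
    (P := fun d x => x ∈ octads ∧ (d ∩ x).card = 2)]
  · rw [← hcount]
    exact ncard_octClass o0 2 0 0 _ fun m _ => by simp
  · rintro σ hσ a b ⟨h1, h2⟩
    exact ⟨smul_mem_octads hσ h1, by rw [smul_inter_card, h2]⟩

theorem octad_two_card {o o' : Finset GolayPt} (ho : o ∈ octads) (ho' : o' ∈ octads)
    (h : (o ∩ o').card = 2) :
    Nat.card ↥(stSet o ⊓ MulAction.stabilizer (Equiv.Perm GolayPt) o') = 720 := by
  have h1 := card_eq_orbit_mul (stSet o) o' {x | x ∈ octads ∧ (o ∩ x).card = 2}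
    (fun σ hσ => ⟨smul_mem_octads hσ.1 ho', by
      have h2 := smul_inter_card σ o o'
      rw [show σ • o = o from hσ.2, h] at h2
      exact h2⟩)
    (fun b hb => by
      obtain ⟨σ, hσ, e1, e2⟩ := octad_pairs ho ho' hb.1 (h.trans hb.2.symm)
      exact ⟨σ, ⟨hσ, e1⟩, e2⟩)
  rw [stSet_octad_card ho, oct_oct_count ho] at h1
  omega

theorem octad_two_faith {o o' : Finset GolayPt} (ho : o ∈ octads) (ho' : o' ∈ octads)
    (h : (o ∩ o').card = 2) {g : Equiv.Perm GolayPt} (hg : g ∈ M24) (hgo' : g • o' = o')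
    (hfix : ∀ p ∈ o \ o', g p = p) : g = 1 := by
  obtain ⟨hm, hlt, hdiff, hcard, hall⟩ := o2std_facts
  obtain ⟨σ, hσ, rfl⟩ := M24_trans_octads o0_octad ho
  obtain ⟨τ, hτ, he1, he2⟩ := octad_pairs (o := σ • toSet o0) ho
    (smul_mem_octads hσ (mem_octads.2 ⟨_, hm, rfl⟩)) ho' (by rw [smul_inter_card, hcard, h])
  set ρ := τ * σ with hρ
  have hρ0 : ρ • toSet o0 = σ • toSet o0 := by rw [hρ, mul_smul, he1]
  have hρ1 : ρ • toSet o2std = o' := by rw [hρ, mul_smul, he2]
  have hρM : ρ ∈ M24 := mul_mem hτ hσ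
  refine (conj_eq_one_iff (a := ρ⁻¹)).1 (six_rigid hlt hall (g := ρ⁻¹ * g * ρ⁻¹⁻¹)
    (mul_mem (mul_mem (inv_mem hρM) hg) (inv_mem (inv_mem hρM))) ?_ ?_)
  · intro p hp
    rw [← hdiff] at hp
    have h2 := hfix (ρ p) (by
      have := Finset.smul_mem_smul_finset (a := ρ) hp
      rwa [Finset.smul_finset_sdiff, hρ0, hρ1] at this)
    simp [h2]
  · rw [mul_smul, mul_smul, inv_inv, hρ1, hgo', ← hρ1, inv_smul_smul]

/-! ### A dodecad and one of its hexads -/

/-- A dodecad meeting the standard octad in six points. -/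
def d6std : ℕ := 499903

theorem d6std_facts : d6std ∈ dodList ∧ d6std < 16777216 ∧ toSet o0 ∩ toSet d6std = toSet 159 ∧
    (toSet 159).card = 6 ∧
    ((transversals.getD 6 []).all fun t => act t d6std != d6std || t == idCode) = true := by
  refine ⟨mem_dodList.2 (by decide +kernel), by decide +kernel, by decide +kernel,
    by decide +kernel, by decide +kernel⟩

theorem hexad_smul {σ : Equiv.Perm GolayPt} (hσ : σ ∈ M24) {d C : Finset GolayPt}
    (hC : C ∈ hexadsOn d) : σ • C ∈ hexadsOn (σ • d) := by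
  obtain ⟨h6, o, ho, rfl⟩ := hC
  exact ⟨by rw [Finset.card_smul_finset]; exact h6, σ • o, smul_mem_octads hσ ho,
    Finset.smul_finset_inter.symm⟩

theorem hexad_subset {d C : Finset GolayPt} (hC : C ∈ hexadsOn d) : C ⊆ d := by
  obtain ⟨-, o, -, rfl⟩ := hC
  exact Finset.inter_subset_right

theorem hexad_eq {d C C' : Finset GolayPt} (hC : C ∈ hexadsOn d) (hC' : C' ∈ hexadsOn d)
    (h5 : 5 ≤ (C ∩ C').card) : C = C' := by
  obtain ⟨-, o, ho, rfl⟩ := hC
  obtain ⟨-, o', ho', rfl⟩ := hC'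
  rw [octad_eq_of_five ho ho' (h5.trans (Finset.card_le_card
    (Finset.inter_subset_inter Finset.inter_subset_left Finset.inter_subset_left)))]

theorem hexads_trans {d C C' : Finset GolayPt} (hd : d ∈ dodecads) (hC : C ∈ hexadsOn d)
    (hC' : C' ∈ hexadsOn d) : ∃ σ ∈ stSet d, σ • C = C' := by
  obtain ⟨s, hs, hs5⟩ := Finset.exists_subset_card_eq (s := C) (n := 5) (by rw [hC.1]; norm_num)
  obtain ⟨t, ht, ht5⟩ := Finset.exists_subset_card_eq (s := C') (n := 5) (by rw [hC'.1]; norm_num)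
  let x : Fin 5 → GolayPt := fun i => (s.equivFinOfCardEq hs5).symm i
  let y : Fin 5 → GolayPt := fun i => (t.equivFinOfCardEq ht5).symm i
  obtain ⟨σ, hσ, he⟩ := stSet_five hd x y
    (fun i j h => (s.equivFinOfCardEq hs5).symm.injective (Subtype.ext h))
    (fun i j h => (t.equivFinOfCardEq ht5).symm.injective (Subtype.ext h))
    (fun i => hexad_subset hC (hs (Finset.coe_mem _)))
    (fun i => hexad_subset hC' (ht (Finset.coe_mem _)))
  refine ⟨σ, hσ, ?_⟩
  have hσC : σ • C ∈ hexadsOn d := by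
    have := hexad_smul hσ.1 hC
    rwa [show σ • d = d from hσ.2] at this
  refine hexad_eq hσC hC' ?_
  rw [← hs5, ← Finset.card_smul_finset σ s]
  refine Finset.card_le_card (Finset.subset_inter (Finset.smul_finset_subset_smul_finset hs) ?_)
  intro q hq
  obtain ⟨p, hp, rfl⟩ := Finset.mem_smul_finset.1 hq
  have := he (s.equivFinOfCardEq hs5 ⟨p, hp⟩)
  simp only [x, Equiv.symm_apply_apply] at this
  rw [Equiv.Perm.smul_def, this]
  exact ht (Finset.coe_mem _)

theorem hexads_ncard {d : Finset GolayPt} (hd : d ∈ dodecads) : (hexadsOn d).ncard = 132 := by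
  have himg : hexadsOn d = (fun o => o ∩ d) '' {o | o ∈ octads ∧ (o ∩ d).card = 6} := by
    ext C
    simp only [hexadsOn, Set.mem_ofPred_eq, Set.mem_image]
    constructor
    · rintro ⟨h6, o, ho, rfl⟩; exact ⟨o, ⟨ho, h6⟩, rfl⟩
    · rintro ⟨o, ⟨ho, h6⟩, rfl⟩; exact ⟨h6, o, ho, rfl⟩
  rw [himg, Set.InjOn.ncard_image ?_, oct_dod_count hd 6, oct_dod_counts.1]
  rintro o ⟨ho, h6⟩ o' ⟨ho', -⟩ he
  have he' : o ∩ d = o' ∩ d := he
  refine octad_eq_of_five ho ho' ?_
  have h : o ∩ d ⊆ o ∩ o' :=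
    Finset.subset_inter Finset.inter_subset_left (he' ▸ Finset.inter_subset_left)
  have := Finset.card_le_card h
  omega

theorem hexad_card {d C : Finset GolayPt} (hd : d ∈ dodecads) (hC : C ∈ hexadsOn d) :
    Nat.card ↥(stSet d ⊓ MulAction.stabilizer (Equiv.Perm GolayPt) C) = 720 := by
  have h1 := card_eq_orbit_mul (stSet d) C (hexadsOn d)
    (fun σ hσ => by
      have := hexad_smul hσ.1 hC
      rwa [show σ • d = d from hσ.2] at this)
    (fun b hb => hexads_trans hd hC hb)
  rw [stSet_dodecad_card hd, hexads_ncard hd] at h1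
  omega

theorem hexad_faith {d C : Finset GolayPt} (hd : d ∈ dodecads) (hC : C ∈ hexadsOn d)
    {g : Equiv.Perm GolayPt} (hg : g ∈ stSet d) (hfix : ∀ p ∈ C, g p = p) : g = 1 := by
  obtain ⟨hm, hlt, hint, h6, hall⟩ := d6std_facts
  obtain ⟨σ, hσ, rfl⟩ := M24_trans_dodecads (mem_dodecads.2 ⟨_, hm, rfl⟩) hd
  have hC0 : σ • toSet 159 ∈ hexadsOn (σ • toSet d6std) :=
    hexad_smul hσ ⟨h6, toSet o0, o0_octad, hint⟩
  obtain ⟨τ, hτ, rfl⟩ := hexads_trans hd hC0 hC
  obtain ⟨hgM, hgd⟩ := hg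
  set ρ := τ * σ with hρ
  have hρd : ρ • toSet d6std = σ • toSet d6std := by
    rw [hρ, mul_smul]; exact hτ.2
  have hρM : ρ ∈ M24 := mul_mem hτ.1 hσ
  refine (conj_eq_one_iff (a := ρ⁻¹)).1 (six_rigid hlt hall (g := ρ⁻¹ * g * ρ⁻¹⁻¹)
    (mul_mem (mul_mem (inv_mem hρM) hgM) (inv_mem (inv_mem hρM))) ?_ ?_)
  · intro p hp
    have h2 := hfix (ρ p) (by
      have := Finset.smul_mem_smul_finset (a := ρ) hp
      rwa [hρ, mul_smul τ σ (toSet 159)] at this)
    simp [h2]
  · rw [mul_smul, mul_smul, inv_inv, hρd, show g • σ • toSet d6std = σ • toSet d6std from hgd,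
      ← hρd, inv_smul_smul]

/-- The complementary hexad. -/
theorem hexad_compl {d C : Finset GolayPt} (hd : d ∈ dodecads) (hC : C ∈ hexadsOn d) :
    d \ C ∈ hexadsOn d := by
  obtain ⟨h6, o, ho, rfl⟩ := hC
  refine ⟨?_, symmDiff o d, ⟨codeSets_symmDiff ho.1 hd.1, ?_⟩, ?_⟩
  · rw [Finset.card_sdiff_of_subset Finset.inter_subset_right, h6, dodecads_card hd]
  · rw [show symmDiff o d = (o \ d) ∪ (d \ o) from rfl,
      Finset.card_union_of_disjoint disjoint_sdiff_sdiff, Finset.card_sdiff, Finset.card_sdiff,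
      octads_card ho, dodecads_card hd, Finset.inter_comm d o, h6]
  · ext p
    simp only [Finset.mem_inter, Finset.mem_symmDiff, Finset.mem_sdiff]
    tauto

end Cfsg.Agent.Lib.Golay
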