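import Cfsg.Prelude.Def_SporadicCombinatorics

/-! # The ternary code of length twelve by enumeration of its 729 words -/

set_option autoImplicit false
set_option maxRecDepth 100000

namespace Cfsg.Agent.Lib.Golay

open Cfsg

/-- The position of a point of the array. -/
def arrIx (p : ArrayPt) : ℕ := 3 * (p.1 : ℕ) + p.2.val

/-- A basis of the ternary code, as rows. -/
def ternRows : List (List (ZMod 3)) :=
  [[1, 0, 0, 0, 0, 1, 0, 0, 1, 1, 1, 2], [0, 1, 0, 0, 0, 1, 0, 2, 2, 2, 0, 2],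
   [0, 0, 1, 0, 0, 1, 0, 1, 0, 2, 1, 1], [0, 0, 0, 1, 0, 2, 0, 2, 1, 2, 1, 0],
   [0, 0, 0, 0, 1, 2, 0, 1, 2, 0, 1, 2], [0, 0, 0, 0, 0, 0, 1, 1, 1, 2, 2, 2]]

/-- A basis word. -/
def ternB (j : Fin 6) (p : ArrayPt) : ZMod 3 := (ternRows.getD j []).getD (arrIx p) 0

/-- The word with given information coordinates. -/
def tEnc (f : Fin 6 → ZMod 3) : ArrayPt → ZMod 3 := fun p => ∑ j, f j * ternB j p

/-- The information coordinates. -/
def tInfo (x : ArrayPt → ZMod 3) : Fin 6 → ZMod 3 :=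
  fun j => x (![(0, 0), (0, 1), (0, 2), (1, 0), (1, 1), (2, 0)] j)

/-- A word supported off the information coordinates. -/
def tRest (f : Fin 6 → ZMod 3) : ArrayPt → ZMod 3 := fun p =>
  if p = (1, 2) then f 0 else if p = (2, 1) then f 1 else if p = (2, 2) then f 2
  else if p = (3, 0) then f 3 else if p = (3, 1) then f 4 else if p = (3, 2) then f 5 else 0

/-- The explicit form of the defining conditions. -/
def IsTW (x : ArrayPt → ZMod 3) : Prop :=
  ∃ s : ZMod 3, (∀ i : Fin 4, ∑ r : ZMod 3, x (i, r) = -s) ∧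
    ∀ a b : ZMod 3, ∑ i : Fin 4, x (i, a * ![0, 1, 1, 1] i + b * ![1, 0, 1, 2] i) = s

instance (x : ArrayPt → ZMod 3) : Decidable (IsTW x) := by unfold IsTW; infer_instance

theorem mem_tcode {x : ArrayPt → ZMod 3} : x ∈ ternaryGolayCode ↔ IsTW x := by
  show IsTernaryGolayWord x ↔ _
  refine exists_congr fun s => and_congr_right fun _ => ?_
  simp only [tetracode, Submodule.mem_span_pair]
  constructor
  · intro h a b
    exact h (fun i => a * ![0, 1, 1, 1] i + b * ![1, 0, 1, 2] i) ⟨a, b, rfl⟩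
  · rintro h t ⟨a, b, rfl⟩
    exact h a b

theorem tEnc_add (f g : Fin 6 → ZMod 3) : tEnc (f + g) = tEnc f + tEnc g := by
  funext p
  simp [tEnc, add_mul, Finset.sum_add_distrib]

theorem tBasis_mem : ∀ j : Fin 6, IsTW (ternB j) := by decide +kernel

theorem tEnc_mem (f : Fin 6 → ZMod 3) : tEnc f ∈ ternaryGolayCode := by
  have h : tEnc f = ∑ j, f j • (ternB j) := by
    funext p; simp [tEnc]
  rw [h]
  exact Submodule.sum_mem _ fun j _ => Submodule.smul_mem _ _ (mem_tcode.2 (tBasis_mem j))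

theorem tInfo_enc : ∀ f : Fin 6 → ZMod 3, tInfo (tEnc f) = f := by decide +kernel

theorem tRest_zero : ∀ f : Fin 6 → ZMod 3, IsTW (tRest f) → f = 0 := by decide +kernel

theorem tcode_eq {x : ArrayPt → ZMod 3} : x ∈ ternaryGolayCode ↔ ∃ f, tEnc f = x := by
  refine ⟨fun hx => ⟨tInfo x, ?_⟩, fun ⟨f, hf⟩ => hf ▸ tEnc_mem f⟩
  have hy := ternaryGolayCode.sub_mem hx (tEnc_mem (tInfo x))
  set y := x - tEnc (tInfo x) with hydef
  have h0 : ∀ j, tInfo y j = 0 := by
    intro j
    have := congrFun (tInfo_enc (tInfo x)) j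
    simp only [tInfo] at this ⊢
    rw [hydef, Pi.sub_apply, this, sub_self]
  let f : Fin 6 → ZMod 3 :=
    ![y (1, 2), y (2, 1), y (2, 2), y (3, 0), y (3, 1), y (3, 2)]
  have hyf : y = tRest f := by
    have h : ∀ p : ArrayPt, p = (1, 2) ∨ p = (2, 1) ∨ p = (2, 2) ∨ p = (3, 0) ∨ p = (3, 1) ∨
        p = (3, 2) ∨ p = (0, 0) ∨ p = (0, 1) ∨ p = (0, 2) ∨ p = (1, 0) ∨ p = (1, 1) ∨
        p = (2, 0) := by decide
    funext p
    have e0 := h0 0
    have e1 := h0 1
    have e2 := h0 2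
    have e3 := h0 3
    have e4 := h0 4
    have e5 := h0 5
    simp only [tInfo] at e0 e1 e2 e3 e4 e5
    rcases h p with rfl | rfl | rfl | rfl | rfl | rfl | rfl | rfl | rfl | rfl | rfl | rfl <;>
      simp +decide [tRest, f] <;> assumption
  have hf0 : f = 0 := tRest_zero f (mem_tcode.1 (hyf ▸ hy))
  have hy0 : y = 0 := by
    rw [hyf, hf0]; funext p; simp [tRest]
  exact (sub_eq_zero.1 hy0).symm

theorem tEnc_injective : Function.Injective tEnc :=
  Function.LeftInverse.injective tInfo_enc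

theorem tcode_ncard (P : (ArrayPt → ZMod 3) → Prop) [DecidablePred P] :
    {x | x ∈ ternaryGolayCode ∧ P x}.ncard =
      (Finset.univ.filter fun f => P (tEnc f)).card := by
  classical
  have : {x | x ∈ ternaryGolayCode ∧ P x} =
      ↑((Finset.univ.filter fun f => P (tEnc f)).image tEnc) := by
    ext x
    simp only [Finset.coe_image, Set.mem_image, Finset.coe_filter, Finset.mem_univ, true_and,
      Set.mem_ofPred_eq, tcode_eq]
    constructor
    · rintro ⟨⟨f, rfl⟩, h⟩; exact ⟨f, h, rfl⟩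
    · rintro ⟨f, h, rfl⟩; exact ⟨⟨f, rfl⟩, h⟩
  rw [this, Set.ncard_coe_finset, Finset.card_image_of_injective _ tEnc_injective]

theorem tWeights : ∀ f : Fin 6 → ZMod 3, f ≠ 0 →
    (ternarySupport (tEnc f)).card = 6 ∨ (ternarySupport (tEnc f)).card = 9 ∨
      (ternarySupport (tEnc f)).card = 12 := by decide +kernel

theorem tcount : (Finset.univ.filter fun f => (ternarySupport (tEnc f)).card = 6).card = 264 ∧
    (Finset.univ.filter fun f => (ternarySupport (tEnc f)).card = 9).card = 440 ∧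
    (Finset.univ.filter fun f => (ternarySupport (tEnc f)).card = 12).card = 24 := by
  decide +kernel

theorem tBasis_orth : ∀ i j : Fin 6, ∑ p, ternB i p * ternB j p = 0 := by decide +kernel

theorem tcode_orth {x y : ArrayPt → ZMod 3} (hx : x ∈ ternaryGolayCode)
    (hy : y ∈ ternaryGolayCode) : ∑ p, x p * y p = 0 := by
  obtain ⟨f, rfl⟩ := tcode_eq.1 hx
  obtain ⟨g, rfl⟩ := tcode_eq.1 hy
  simp only [tEnc, Finset.sum_mul_sum]
  rw [Finset.sum_comm]
  refine Finset.sum_eq_zero fun i _ => ?_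
  rw [Finset.sum_comm]
  refine Finset.sum_eq_zero fun j _ => ?_
  rw [Finset.sum_congr rfl (g := fun p => f i * g j * (ternB i p * ternB j p)) (fun p _ => by ring),
    ← Finset.mul_sum, tBasis_orth, mul_zero]

/-- The hexads: supports of the words of weight six. -/
def hexads12 : Finset (Finset ArrayPt) :=
  ((Finset.univ : Finset (Fin 6 → ZMod 3)).image fun f => ternarySupport (tEnc f)).filter
    fun h => h.card = 6

theorem hexads12_eq : {h : Finset ArrayPt | ∃ x ∈ ternaryGolayCode, ternarySupport x = h ∧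
    h.card = 6} = ↑hexads12 := by
  ext h
  simp only [hexads12, Finset.coe_filter, Finset.mem_image, Finset.mem_univ, true_and,
    Set.mem_ofPred_eq]
  constructor
  · rintro ⟨x, hx, hs, hc⟩
    obtain ⟨f, rfl⟩ := tcode_eq.1 hx
    exact ⟨⟨f, hs⟩, hc⟩
  · rintro ⟨⟨f, hs⟩, hc⟩
    exact ⟨_, tEnc_mem f, hs, hc⟩

theorem mem_hexads12 {h : Finset ArrayPt} :
    h ∈ hexads12 ↔ (∃ f : Fin 6 → ZMod 3, ternarySupport (tEnc f) = h) ∧ h.card = 6 := by
  simp only [hexads12, Finset.mem_filter, Finset.mem_image, Finset.mem_univ, true_and]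

attribute [irreducible] hexads12 tEnc

end Cfsg.Agent.Lib.Golay
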