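import Cfsg.Agent.Lib.Golay.Ternary
import Cfsg.Agent.Lib.Golay.TernaryAutData
import Cfsg.Agent.Lib.Steiner.Unique12
import Cfsg.Agent.S1592

/-! # Signed automorphisms of the ternary code of length twelve -/

set_option autoImplicit false
set_option maxRecDepth 100000

namespace Cfsg.Agent.Lib.Golay

open Cfsg
open scoped Pointwise

/-- The hexads of the ternary code. -/
def tHex : Set (Finset ArrayPt) :=
  {h | ∃ x ∈ ternaryGolayCode, ternarySupport x = h ∧ h.card = 6}

/-- The signed permutation preserves the code. -/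
def TPres (σ : Equiv.Perm ArrayPt) (c : ArrayPt → (ZMod 3)ˣ) : Prop :=
  ∀ x ∈ ternaryGolayCode, monomialMap σ c x ∈ ternaryGolayCode

theorem tmono_mul (σ τ : Equiv.Perm ArrayPt) (c d : ArrayPt → (ZMod 3)ˣ) (x : ArrayPt → ZMod 3) :
    monomialMap σ c (monomialMap τ d x) = monomialMap (σ * τ) (fun i => c i * d (σ.symm i)) x := by
  funext i
  simp [monomialMap, mul_assoc, Equiv.Perm.mul_def]

theorem TPres.mul {σ τ : Equiv.Perm ArrayPt} {c d : ArrayPt → (ZMod 3)ˣ} (h : TPres σ c)
    (h' : TPres τ d) : TPres (σ * τ) (fun i => c i * d (σ.symm i)) := fun x hx => by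
  rw [← tmono_mul]; exact h _ (h' x hx)

theorem tpres_of_basis {σ : Equiv.Perm ArrayPt} {c : ArrayPt → (ZMod 3)ˣ}
    (h : ∀ j, monomialMap σ c (ternB j) ∈ ternaryGolayCode) : TPres σ c := by
  intro x hx
  obtain ⟨f, rfl⟩ := tcode_eq.1 hx
  have : monomialMap σ c (tEnc f) = ∑ j, f j • monomialMap σ c (ternB j) := by
    funext i
    rw [Finset.sum_apply]
    unfold tEnc monomialMap
    rw [Finset.mul_sum]
    refine Finset.sum_congr rfl fun j _ => ?_
    simp only [Pi.smul_apply, smul_eq_mul]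
    ring
  rw [this]
  exact Submodule.sum_mem _ fun j _ => ternaryGolayCode.smul_mem _ (h j)

theorem tsupp_mono (σ : Equiv.Perm ArrayPt) (c : ArrayPt → (ZMod 3)ˣ) (x : ArrayPt → ZMod 3) :
    ternarySupport (monomialMap σ c x) = (ternarySupport x).image σ := by
  ext i
  rw [Finset.mem_image]
  constructor
  · intro h
    have h' := (Finset.mem_filter.1 h).2
    refine ⟨σ.symm i, Finset.mem_filter.2 ⟨Finset.mem_univ _, fun e => h' ?_⟩, σ.apply_symm_apply i⟩
    simp [monomialMap, e]
  · rintro ⟨a, ha, rfl⟩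
    refine Finset.mem_filter.2 ⟨Finset.mem_univ _, ?_⟩
    show (c (σ a) : ZMod 3) * x (σ.symm (σ a)) ≠ 0
    rw [σ.symm_apply_apply]
    exact mul_ne_zero (Units.ne_zero _) (Finset.mem_filter.1 ha).2

theorem TPres.mem_aut {σ : Equiv.Perm ArrayPt} {c : ArrayPt → (ZMod 3)ˣ} (h : TPres σ c) :
    σ ∈ setSystemAut tHex := by
  refine Steiner.mem_aut_of_le ?_
  rintro _ ⟨x, hx, rfl, h6⟩
  exact ⟨_, h x hx, tsupp_mono σ c x, by rw [Finset.card_image_of_injective _ σ.injective, h6]⟩

theorem tpres_units : ∀ u : (ZMod 3)ˣ, TPres 1 (fun _ => u) := fun u x hx => by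
  have : monomialMap (1 : Equiv.Perm ArrayPt) (fun _ => u) x = (u : ZMod 3) • x := rfl
  rw [this]; exact ternaryGolayCode.smul_mem _ hx

theorem tweight {x : ArrayPt → ZMod 3} (hx : x ∈ ternaryGolayCode) (h0 : x ≠ 0) :
    6 ≤ (ternarySupport x).card := by
  obtain ⟨f, rfl⟩ := tcode_eq.1 hx
  rcases tWeights f (fun e => h0 (by
    subst e; funext p; unfold tEnc; simp)) with h | h | h <;> omega

theorem tHex_steiner : IsSteinerSystem 5 6 tHex := Cfsg.Agent.S1592.result.1

/-- A diagonal map preserving the code is a scalar. -/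
theorem tpres_diag {c : ArrayPt → (ZMod 3)ˣ} (h : TPres 1 c) (i j : ArrayPt) : c i = c j := by
  obtain ⟨s, hs, hs5⟩ := Finset.exists_subsuperset_card_eq (s := {i, j}) (t := Finset.univ) (n := 5)
    (Finset.subset_univ _) (le_trans Finset.card_le_two (by norm_num))
    (by rw [Finset.card_univ]; decide)
  obtain ⟨b, ⟨⟨x, hx, hxb, hb6⟩, hsb⟩, -⟩ := tHex_steiner.2 s hs5.2
  have hi : i ∈ ternarySupport x := hxb ▸ hsb (hs (by simp))
  have hj : j ∈ ternarySupport x := hxb ▸ hsb (hs (by simp))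
  by_contra hne
  set y := monomialMap 1 c x - (c i : ZMod 3) • x with hy
  have hyc : y ∈ ternaryGolayCode :=
    ternaryGolayCode.sub_mem (h x hx) (ternaryGolayCode.smul_mem _ hx)
  have hyp : ∀ p, y p = ((c p : ZMod 3) - c i) * x p := fun p => by
    simp [hy, monomialMap, sub_mul, Equiv.Perm.one_def]
  have hsub : ternarySupport y ⊆ (ternarySupport x).erase i := by
    intro p hp
    simp only [ternarySupport, Finset.mem_filter, Finset.mem_univ, true_and, Finset.mem_erase,
      hyp] at hp ⊢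
    exact ⟨fun e => hp (by rw [e, sub_self, zero_mul]), fun e => hp (by rw [e, mul_zero])⟩
  have hy0 : y ≠ 0 := by
    intro e
    have h0 := congrFun e j
    rw [hyp, Pi.zero_apply] at h0
    rcases mul_eq_zero.1 h0 with h1 | h1
    · exact hne (Units.ext (sub_eq_zero.1 h1).symm)
    · exact (Finset.mem_filter.1 hj).2 h1
  have := tweight hyc hy0
  have := Finset.card_le_card hsub
  rw [Finset.card_erase_of_mem hi, hxb, hb6] at this
  omega

theorem card_ArrayPt : Fintype.card ArrayPt = 12 := by decide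

/-- The point with a given number. -/
def arrPt (n : ℕ) : ArrayPt := (⟨n / 3 % 4, Nat.mod_lt _ (by norm_num)⟩, (n : ZMod 3))

theorem arrPt_ix : ∀ p : ArrayPt, arrPt (arrIx p) = p := by decide

/-- The forward function of an entry. -/
def entFun (p : List ℕ) (q : ArrayPt) : ArrayPt := arrPt (p.getD (arrIx q) 0)

/-- The backward function of an entry. -/
def entInv (p : List ℕ) (q : ArrayPt) : ArrayPt := arrPt (p.idxOf (arrIx q))

/-- The sign of an entry. -/
def entSign (s : List ℕ) (q : ArrayPt) : (ZMod 3)ˣ := if s.getD (arrIx q) 0 = 1 then 1 else -1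

/-- The validity of an entry. -/
def entOK (e : List ℕ × List ℕ) : Bool :=
  decide (∀ q, entInv e.1 (entFun e.1 q) = q ∧ entFun e.1 (entInv e.1 q) = q) &&
    decide (∀ j : Fin 6, IsTW (fun q => (entSign e.2 q : ZMod 3) * ternB j (entInv e.1 q)))

/-- The validity of the levels. -/
def levelsOK : Bool :=
  (List.range 5).all fun k =>
    ((ternLevels.getD k []).all fun e => entOK e &&
      (List.range k).all fun i => decide (entFun e.1 (arrPt i) = arrPt i)) &&
    (List.range 12).all fun t => Nat.blt t k ||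
      (ternLevels.getD k []).any fun e => decide (entFun e.1 (arrPt k) = arrPt t)

theorem levels_ok : levelsOK = true := by decide +kernel

theorem exists_entry {k t : ℕ} (hk : k < 5) (ht : t < 12) (hkt : k ≤ t) :
    ∃ σ c, TPres σ c ∧ (∀ i < k, σ (arrPt i) = arrPt i) ∧ σ (arrPt k) = arrPt t := by
  have h := levels_ok
  simp only [levelsOK, List.all_eq_true, List.any_eq_true, Bool.and_eq_true, Bool.or_eq_true,
    decide_eq_true_eq, List.mem_range] at h
  obtain ⟨h1, h2⟩ := h k hk
  rcases h2 t ht with h3 | ⟨e, he, het⟩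
  · simp at h3; omega
  · obtain ⟨hok, hfix⟩ := h1 e he
    simp only [entOK, Bool.and_eq_true, decide_eq_true_eq] at hok
    exact ⟨⟨entFun e.1, entInv e.1, fun q => (hok.1 q).1, fun q => (hok.1 q).2⟩, entSign e.2,
      tpres_of_basis fun j => mem_tcode.2 (hok.2 j), hfix, het⟩

theorem exists_tpres : ∀ k ≤ 5, ∀ x : ℕ → ArrayPt, (∀ i < k, ∀ j < k, x i = x j → i = j) →
    ∃ σ c, TPres σ c ∧ ∀ i < k, σ (arrPt i) = x i := by
  intro k
  induction k with
  | zero => exact fun _ _ _ => ⟨1, _, tpres_units 1, by omega⟩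
  | succ k ih =>
    intro hk x hx
    obtain ⟨σ, c, hσ, hσx⟩ := ih (by omega) x fun i hi j hj => hx i (by omega) j (by omega)
    set t := arrIx (σ.symm (x k)) with htd
    have hlt : t < 12 := by
      have : ∀ p : ArrayPt, arrIx p < 12 := by decide
      exact this _
    have hkt : k ≤ t := by
      by_contra hlt'
      push Not at hlt'
      have h2 : x t = x k := by rw [← hσx t hlt', htd, arrPt_ix, σ.apply_symm_apply]
      have := hx t (by omega) k (by omega) h2
      omega
    obtain ⟨τ, d, hτ, hfix, hτk⟩ := exists_entry (by omega : k < 5) hlt hkt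
    refine ⟨σ * τ, _, hσ.mul hτ, fun i hi => ?_⟩
    rw [Equiv.Perm.mul_apply]
    rcases Nat.lt_or_eq_of_le (Nat.le_of_lt_succ hi) with hik | rfl
    · rw [hfix i hik, hσx i hik]
    · rw [hτk, htd, arrPt_ix, σ.apply_symm_apply]

/-- The permutation parts. -/
theorem tperm_eq : {σ : Equiv.Perm ArrayPt | ∃ c, TPres σ c} =
    (setSystemAut tHex : Set (Equiv.Perm ArrayPt)) := by
  classical
  refine Set.Subset.antisymm (fun σ ⟨c, h⟩ => h.mem_aut) fun θ hθ => ?_
  obtain ⟨σ, c, hσ, he⟩ := exists_tpres 5 le_rfl (fun i => θ (arrPt i)) fun i hi j hj e => by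
    have : ∀ i < 5, ∀ j < 5, arrPt i = arrPt j → i = j := by decide
    exact this i hi j hj (θ.injective e)
  let b : Fin 5 ↪ ArrayPt := ⟨fun i => arrPt i, by decide⟩
  have h1 := Steiner.fix_five card_ArrayPt tHex_steiner (mul_mem (inv_mem hσ.mem_aut) hθ) b
    fun i => by
      show σ.symm (θ (arrPt i)) = arrPt i
      rw [← he i i.isLt, σ.symm_apply_apply]
  rw [inv_mul_eq_one] at h1
  exact ⟨c, h1 ▸ hσ⟩

theorem tfibre {σ : Equiv.Perm ArrayPt} {c₀ : ArrayPt → (ZMod 3)ˣ} (h₀ : TPres σ c₀)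
    (c : ArrayPt → (ZMod 3)ˣ) : TPres σ c ↔ ∃ u, c = fun i => u * c₀ i := by
  constructor
  · intro hc
    have hdiag : TPres 1 (fun i => c i / c₀ i) := by
      intro y hy
      let m : ternaryGolayCode → ternaryGolayCode := fun x => ⟨monomialMap σ c₀ x.1, h₀ _ x.2⟩
      have hm : Function.Injective m := fun a b e => Subtype.ext <| funext fun i => by
        have := congrFun (congrArg Subtype.val e) (σ i)
        simpa [m, monomialMap] using this
      obtain ⟨x, hx⟩ := (Finite.injective_iff_surjective.1 hm) ⟨y, hy⟩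
      have hxy : monomialMap σ c₀ x.1 = y := congrArg Subtype.val hx
      rw [← hxy]
      show monomialMap 1 _ (monomialMap σ c₀ x.1) ∈ _
      rw [tmono_mul, one_mul]
      convert hc _ x.2 using 2
      funext i
      simp [Equiv.Perm.one_def]
    refine ⟨c (0, 0) / c₀ (0, 0), funext fun i => ?_⟩
    have := tpres_diag hdiag i (0, 0)
    rw [← this, div_mul_cancel]
  · rintro ⟨u, rfl⟩
    have := (tpres_units u).mul h₀
    simpa [Equiv.Perm.one_symm] using this

theorem tmono_card : Nat.card {f : Equiv.Perm ArrayPt × (ArrayPt → (ZMod 3)ˣ) //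
    TPres f.1 f.2} = 190080 := by
  classical
  have hS : ∀ σ : setSystemAut tHex, ∃ c, TPres (σ : Equiv.Perm ArrayPt) c := fun σ =>
    (Set.ext_iff.1 tperm_eq _).2 σ.2
  choose c₀ hc₀ using hS
  obtain ⟨d, hd⟩ := Steiner.exists_dodecad
  obtain ⟨E⟩ := Steiner.aut12_equiv card_ArrayPt tHex_steiner hd
  let e : (setSystemAut tHex × (ZMod 3)ˣ) →
      {f : Equiv.Perm ArrayPt × (ArrayPt → (ZMod 3)ˣ) // TPres f.1 f.2} :=
    fun p => ⟨((p.1 : Equiv.Perm ArrayPt), fun i => p.2 * c₀ p.1 i),
      (tfibre (hc₀ p.1) _).2 ⟨p.2, rfl⟩⟩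
  have he : Function.Bijective e := by
    constructor
    · intro p q h
      simp only [e, Subtype.mk.injEq, Prod.mk.injEq] at h
      have h1 : p.1 = q.1 := Subtype.ext h.1
      have h2 := congrFun h.2 (0, 0)
      rw [h1] at h2
      exact Prod.ext h1 (mul_right_cancel h2)
    · rintro ⟨⟨σ, c⟩, hc⟩
      obtain ⟨u, hu⟩ := (tfibre (hc₀ ⟨σ, hc.mem_aut⟩) c).1 hc
      exact ⟨(⟨σ, hc.mem_aut⟩, u), Subtype.ext (Prod.ext rfl hu.symm)⟩
  rw [← Nat.card_congr (Equiv.ofBijective e he), Nat.card_prod, Nat.card_congr E.toEquiv,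
    stSet_dodecad_card hd, Nat.card_eq_fintype_card]
  rfl

end Cfsg.Agent.Lib.Golay
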