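import Mathlib

/-! # The stabiliser of a dodecad and three of its points -/

set_option autoImplicit false

namespace Cfsg.Agent.Lib.Golay

def threePtList : List ℕ := [
    984818244535754528103549039458486304,
    719923664328491199848526586197411872,
    608405391266436187982588441666881568,
    715872302521680643580706198532491296,
    970499966350631336865513127433832480,
    227578386318009578406903204956702752,
    609271311764373893382231684089481248,
    232652365823391711183829569059784736,
    486073779993727295785104656607348768,
    629863500390412654982178157189269536,
    648154481660236051385864952584734752,
    891440084380668137666183104591693856,
    487607080158395075740321133224921120,
    716016777081418520089506884598499360,
    719360590536681843314903822610073632,
    899189355044933402820830013086107680,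
    303972014349329906305369256209090592,
    796422664143520048046740322637776928,
    809127892823755776035426641505355808,
    313451266620471430272303061907212320,
    891385682027558266148352467872712736,
    898742143189044893377746329054414880,
    984769902586367543974814854303385632,
    970254902120350598020240965873371168,
    899214583888558003150069357295700000,
    233054687951835244750033064009402400,
    227468939079694360949178429167896608,
    928952864966028496604741530750814240,
    425260589770023667920228681599158304,
    944293816565412651426207388111472672,
    890954976140709938678640932563453984,
    438084364835391119001047119775926304,
    424698032726113400716592269113985056,
    849414919297944031155053626894092320,
    438228640608320839931147656307705888,
    970531819526550031117983620406741024,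
    630264916018297267747726081680246816,
    984534996141977609297800625156032544,
    648045425277649902928402440926824480,
    858934107515357207598970770041374752,
    928718206277989008510816407558424608,
    944569772236290697579231267829188640,
    849887890532701421127722391426172960,
    715461294005770680473893921775552544,
    796134455581813252778404696041064480,
    858502712789113075489201924125100064,
    808997782816701570676445371466909728,
    719748774308089385568610015441717280,
    809399594410595785774724965859756064,
    425085878865583144827023905643726880,
    608460305594945736333983948957190176,
    487655643029606470073469406179395616,
    486317894067777385906476470720956448,
    609718671646466476278175549440296992,
    437673696385666828435562741295908896,
    796025918939784314627536738561984544,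
    858988336336270505570052787752405024,
    304382488815307602047787978285647904,
    486349973926430203268823274221996064,
    849862808090484735685470734032308256,
    232783362388564428185213343297439776,
    227866200190482962309748417481934880,
    313626468097149398198142802389895200,
    487373122709212905255923294881187872,
    648441755269428208718993426702993440,
    607974513007959930786473204517505056,
    929000492124499343650182431580424224,
    313063593285160742836699179059316768,
    609744425604512129277147896769742880,
    304527279934878073638008567181674528,
    629994123837064240816195434993748000,
    944538627742660781242037951888164896]

def threePtNine : List ℕ := [
    984818244535754528103549039458486304,
    487607080158395075740321133224921120,
    984769902586367543974814854303385632,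
    928952864966028496604741530750814240,
    984534996141977609297800625156032544,
    928718206277989008510816407558424608,
    487655643029606470073469406179395616,
    487373122709212905255923294881187872,
    929000492124499343650182431580424224]

def threePtQuat : List ℕ := [
    984818244535754528103549039458486304,
    719923664328491199848526586197411872,
    970499966350631336865513127433832480,
    715872302521680643580706198532491296,
    608405391266436187982588441666881568,
    232652365823391711183829569059784736,
    609271311764373893382231684089481248,
    227578386318009578406903204956702752]

end Cfsg.Agent.Lib.Golay
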