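import Cfsg.Agent.Lib.Golay.Search
import Cfsg.Agent.Lib.Golay.Mathieu
import Cfsg.Agent.Lib.Golay.ThreePtData

/-! # The stabiliser of a dodecad and three of its points -/

set_option autoImplicit false
set_option maxRecDepth 100000

namespace Cfsg.Agent.Lib.Golay

open Cfsg
open scoped Pointwise

/-- The stabiliser of a dodecad and three points. -/
def st3 (d : Finset GolayPt) (p q r : GolayPt) : Subgroup (Equiv.Perm GolayPt) :=
  stSetPt d p ⊓ MulAction.stabilizer (Equiv.Perm GolayPt) q ⊓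
    MulAction.stabilizer (Equiv.Perm GolayPt) r

theorem mem_st3 {d : Finset GolayPt} {p q r : GolayPt} {g : Equiv.Perm GolayPt} :
    g ∈ st3 d p q r ↔ g ∈ M24 ∧ g • d = d ∧ g p = p ∧ g q = q ∧ g r = r :=
  ⟨fun ⟨⟨⟨⟨h1, h2⟩, h3⟩, h4⟩, h5⟩ => ⟨h1, h2, h3, h4, h5⟩,
    fun ⟨h1, h2, h3, h4, h5⟩ => ⟨⟨⟨⟨h1, h2⟩, h3⟩, h4⟩, h5⟩⟩

theorem stSet_three {d : Finset GolayPt} (hd : d ∈ dodecads) {p q r p' q' r' : GolayPt}
    (hp : p ∈ d) (hq : q ∈ d) (hr : r ∈ d) (hpq : p ≠ q) (hpr : p ≠ r) (hqr : q ≠ r)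
    (hp' : p' ∈ d) (hq' : q' ∈ d) (hr' : r' ∈ d) (hpq' : p' ≠ q') (hpr' : p' ≠ r')
    (hqr' : q' ≠ r') : ∃ σ ∈ stSet d, σ p = p' ∧ σ q = q' ∧ σ r = r' := by
  have hext : ∀ p q r : GolayPt, p ≠ q → p ≠ r → q ≠ r → p ∈ d → q ∈ d → r ∈ d →
      ∃ x : Fin 5 → GolayPt, Function.Injective x ∧ (∀ i, x i ∈ d) ∧
        x 0 = p ∧ x 1 = q ∧ x 2 = r := by
    intro p q r hpq hpr hqr hp hq hr
    obtain ⟨t, ht, ht2⟩ := Finset.exists_subset_card_eq (s := d \ {p, q, r}) (n := 2) (by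
      have h3 : ({p, q, r} : Finset GolayPt).card = 3 :=
        Finset.card_eq_three.2 ⟨p, q, r, hpq, hpr, hqr, rfl⟩
      rw [Finset.card_sdiff_of_subset (by simp [Finset.insert_subset_iff, hp, hq, hr]),
        dodecads_card hd, h3]
      norm_num)
    obtain ⟨a, b, hab, rfl⟩ := Finset.card_eq_two.1 ht2
    simp only [Finset.insert_subset_iff, Finset.singleton_subset_iff, Finset.mem_sdiff,
      Finset.mem_insert, Finset.mem_singleton, not_or] at ht
    obtain ⟨⟨had, hap, haq, har⟩, hbd, hbp, hbq, hbr⟩ := ht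
    refine ⟨![p, q, r, a, b], ?_, ?_, rfl, rfl, rfl⟩
    · intro i j
      fin_cases i <;> fin_cases j <;>
        simp [hpq, hpr, hqr, hab, hap, haq, har, hbp, hbq, hbr, Ne.symm hpq, Ne.symm hpr,
          Ne.symm hqr, Ne.symm hab, Ne.symm hap, Ne.symm haq, Ne.symm har, Ne.symm hbp,
          Ne.symm hbq, Ne.symm hbr]
    · intro i; fin_cases i <;> simp [hp, hq, hr, had, hbd]
  obtain ⟨x, hx, hxd, x0, x1, x2⟩ := hext p q r hpq hpr hqr hp hq hr
  obtain ⟨y, hy, hyd, y0, y1, y2⟩ := hext p' q' r' hpq' hpr' hqr' hp' hq' hr'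
  obtain ⟨σ, hσ, he⟩ := stSet_five hd x y hx hy hxd hyd
  exact ⟨σ, hσ, by rw [← x0, ← y0, he], by rw [← x1, ← y1, he], by rw [← x2, ← y2, he]⟩

theorem d0_pts : pt 0 ∈ toSet d0 ∧ pt 1 ∈ toSet d0 ∧ pt 2 ∈ toSet d0 ∧
    (pt 0 : GolayPt) ≠ pt 1 ∧ (pt 0 : GolayPt) ≠ pt 2 ∧ (pt 1 : GolayPt) ≠ pt 2 := by
  refine ⟨?_, ?_, ?_, ?_, ?_, ?_⟩ <;> decide +kernel

theorem st3_iso {d : Finset GolayPt} (hd : d ∈ dodecads) {p q r : GolayPt} (hp : p ∈ d)
    (hq : q ∈ d) (hr : r ∈ d) (hpq : p ≠ q) (hpr : p ≠ r) (hqr : q ≠ r) :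
    Nonempty (st3 (toSet d0) (pt 0) (pt 1) (pt 2) ≃* st3 d p q r) := by
  obtain ⟨σ, hσ, rfl⟩ := M24_trans_dodecads d0_dodecad hd
  obtain ⟨h0, h1, h2, n01, n02, n12⟩ := d0_pts
  have hmap : ∀ x ∈ toSet d0, σ x ∈ σ • toSet d0 := fun x hx => Finset.smul_mem_smul_finset hx
  obtain ⟨τ, hτ, e0, e1, e2⟩ := stSet_three hd (hmap _ h0) (hmap _ h1) (hmap _ h2)
    (σ.injective.ne n01) (σ.injective.ne n02) (σ.injective.ne n12) hp hq hr hpq hpr hqr
  have hρ : τ * σ ∈ M24 := mul_mem hτ.1 hσ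
  have hρd : (τ * σ) • toSet d0 = σ • toSet d0 := by rw [mul_smul]; exact hτ.2
  refine ⟨conjEquiv (τ * σ) fun g => ?_⟩
  show (((g ∈ stSetPt (toSet d0) (pt 0)) ∧ g ∈ MulAction.stabilizer (Equiv.Perm GolayPt) (pt 1)) ∧
      g ∈ MulAction.stabilizer (Equiv.Perm GolayPt) (pt 2)) ↔
    (((τ * σ * g * (τ * σ)⁻¹ ∈ stSetPt (σ • toSet d0) p) ∧
      τ * σ * g * (τ * σ)⁻¹ ∈ MulAction.stabilizer (Equiv.Perm GolayPt) q) ∧
      τ * σ * g * (τ * σ)⁻¹ ∈ MulAction.stabilizer (Equiv.Perm GolayPt) r)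
  rw [stSetPt_conj hρ, mem_stabilizer_conj (τ * σ) g (pt 1), mem_stabilizer_conj (τ * σ) g (pt 2),
    hρd, Equiv.Perm.smul_def, Equiv.Perm.smul_def, Equiv.Perm.mul_apply, Equiv.Perm.mul_apply,
    Equiv.Perm.mul_apply, e0, e1, e2]

theorem st3_card {d : Finset GolayPt} (hd : d ∈ dodecads) {p q r : GolayPt} (hp : p ∈ d)
    (hq : q ∈ d) (hr : r ∈ d) (hpq : p ≠ q) (hpr : p ≠ r) (hqr : q ≠ r) :
    Nat.card (st3 d p q r) = 72 := by
  have hin : ∀ g ∈ stSet d, ∀ x ∈ d, g x ∈ d := fun g hg x hx => apply_mem_of_smul hg.2 hx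
  have h1 := card_eq_orbit_mul (stSetPt d p) q ((d.erase p : Finset GolayPt) : Set GolayPt)
    (fun g hg => Finset.mem_coe.2 (Finset.mem_erase.2 ⟨fun e => hpq (g.injective
      ((show g p = p from hg.2).trans e.symm)), hin g hg.1 q hq⟩))
    (fun b hb => by
      rw [Finset.mem_coe, Finset.mem_erase] at hb
      obtain ⟨c, -, hc⟩ := Finset.exists_mem_notMem_of_card_lt_card
        (s := ({p, q, b} : Finset GolayPt)) (t := d)
        (lt_of_le_of_lt Finset.card_le_three (by rw [dodecads_card hd]; norm_num))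
      obtain ⟨z, hzd, hz⟩ : ∃ z ∈ d, z ∉ ({p, q, b} : Finset GolayPt) :=
        Finset.exists_mem_notMem_of_card_lt_card
          (lt_of_le_of_lt Finset.card_le_three (by rw [dodecads_card hd]; norm_num))
      simp only [Finset.mem_insert, Finset.mem_singleton, not_or] at hz
      obtain ⟨g, hg, e0, e1, -⟩ := stSet_three hd hp hq hzd hpq (Ne.symm hz.1) (Ne.symm hz.2.1)
        hp hb.2 hzd (Ne.symm hb.1) (Ne.symm hz.1) (Ne.symm hz.2.2)
      exact ⟨g, ⟨hg, e0⟩, e1⟩)
  rw [stSetPt_card hd hp, Set.ncard_coe_finset, Finset.card_erase_of_mem hp, dodecads_card hd] at h1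
  have h2 := card_eq_orbit_mul (stSetPt d p ⊓ MulAction.stabilizer (Equiv.Perm GolayPt) q) r
    (((d.erase p).erase q : Finset GolayPt) : Set GolayPt)
    (fun g hg => Finset.mem_coe.2 (Finset.mem_erase.2 ⟨fun e => hqr (g.injective
      ((show g q = q from hg.2).trans e.symm)), Finset.mem_erase.2 ⟨fun e => hpr (g.injective
      ((show g p = p from hg.1.2).trans e.symm)), hin g hg.1.1 r hr⟩⟩))
    (fun b hb => by
      rw [Finset.mem_coe, Finset.mem_erase, Finset.mem_erase] at hb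
      obtain ⟨g, hg, e0, e1, e2⟩ := stSet_three hd hp hq hr hpq hpr hqr
        hp hq hb.2.2 hpq (Ne.symm hb.2.1) (Ne.symm hb.1)
      exact ⟨g, ⟨⟨hg, e0⟩, e1⟩, e2⟩)
  rw [Set.ncard_coe_finset, Finset.card_erase_of_mem (Finset.mem_erase.2 ⟨hpq.symm, hq⟩),
    Finset.card_erase_of_mem hp, dodecads_card hd] at h2
  change 7920 = 11 * _ at h1
  change _ = 10 * Nat.card (st3 d p q r) at h2
  omega

theorem threePt_facts : threePtList.all (inStab [d0] 7) = true ∧ codedOK threePtList = true ∧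
    threePtList.length = 72 ∧ codedOK threePtNine = true ∧ threePtNine.length = 9 ∧
    threePtNine.all (fun p => threePtList.elem p && powId 3 p) = true ∧
    (threePtNine.all fun a => threePtNine.all fun b => threePtNine.elem (comp a b)) = true ∧
    threePtNine.elem idCode = true ∧
    (threePtList.all fun h => threePtNine.all fun n =>
      threePtNine.any fun n' => comp h n == comp n' h) = true ∧
    codedOK threePtQuat = true ∧ threePtQuat.length = 8 ∧
    threePtQuat.all (fun p => threePtList.elem p) = true := by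
  refine ⟨?_, ?_, ?_, ?_, ?_, ?_, ?_, ?_, ?_, ?_, ?_, ?_⟩ <;> decide +kernel

/-- The standard group. -/
abbrev K0 : Subgroup (Equiv.Perm GolayPt) := st3 (toSet d0) (pt 0) (pt 1) (pt 2)

theorem K0_card : Nat.card K0 = 72 :=
  st3_card d0_dodecad d0_pts.1 d0_pts.2.1 d0_pts.2.2.1 d0_pts.2.2.2.1 d0_pts.2.2.2.2.1
    d0_pts.2.2.2.2.2

theorem threePt_mem {x : ℕ} (hx : x ∈ threePtList) : valid x = true ∧ toPerm x ∈ K0 := by
  obtain ⟨hm, hv⟩ := inStab_spec (List.all_eq_true.1 threePt_facts.1 x hx)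
  obtain ⟨hM, hS, hF⟩ := mem_stabM.1 hm
  exact ⟨hv, mem_st3.2 ⟨hM, hS d0 (by simp), hF _ (by decide +kernel), hF _ (by decide +kernel),
    hF _ (by decide +kernel)⟩⟩

theorem K0_listed (g : K0) : ∃ x ∈ threePtList, toPerm x = (g : Equiv.Perm GolayPt) := by
  have hsub : (threePtList.toFinset.image toPerm : Set (Equiv.Perm GolayPt)) ⊆
      (K0 : Set (Equiv.Perm GolayPt)) := by
    intro y hy
    simp only [Finset.coe_image, Set.mem_image, List.coe_toFinset, Set.mem_ofPred_eq] at hy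
    obtain ⟨x, hx, rfl⟩ := hy
    exact (threePt_mem hx).2
  have hcard := ncard_coded threePt_facts.2.1
    (S := ((threePtList.toFinset.image toPerm : Finset _) : Set (Equiv.Perm GolayPt)))
    (fun x => by simp)
  have heq := Set.eq_of_subset_of_ncard_le hsub (by
    rw [← Nat.card_coe_set_eq, SetLike.coe_sort_coe, K0_card, hcard, threePt_facts.2.2.1])
    (Set.toFinite _)
  have hg : (g : Equiv.Perm GolayPt) ∈ (K0 : Set (Equiv.Perm GolayPt)) := g.2
  rw [← heq] at hg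
  simpa using hg

theorem nine_mem {x : ℕ} (hx : x ∈ threePtNine) : x ∈ threePtList := by
  have h := List.all_eq_true.1 threePt_facts.2.2.2.2.2.1 x hx
  simp only [Bool.and_eq_true, List.elem_eq_mem, decide_eq_true_eq] at h
  exact h.1

theorem nine_closed : ∃ N : Subgroup K0, N.Normal ∧ Nat.card N = 9 ∧
    ∀ x ∈ N, x ^ 3 = 1 := by
  obtain ⟨-, -, -, hok, hlen, hmem, hclosed, hid, hconj, -⟩ := threePt_facts
  simp only [List.all_eq_true, List.any_eq_true, List.elem_eq_mem, decide_eq_true_eq,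
    Bool.and_eq_true, beq_iff_eq] at hmem hclosed hid hconj
  set S : Set K0 := {g | ∃ x ∈ threePtNine, toPerm x = (g : Equiv.Perm GolayPt)}
  have hv : ∀ {x}, x ∈ threePtNine → valid x = true := fun hx => (threePt_mem (nine_mem hx)).1
  have hpow : ∀ g ∈ S, g ^ 3 = 1 := by
    rintro g ⟨x, hx, he⟩
    refine Subtype.ext ?_
    rw [Subgroup.coe_pow, ← he]
    refine pow_eq_one_of_img (hv hx) fun i hi => ?_
    have := (hmem x hx).2
    simp only [powId, List.all_eq_true, beq_iff_eq] at this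
    exact this i (mem_idx.2 hi)
  have hmul : ∀ a ∈ S, ∀ b ∈ S, a * b ∈ S := by
    rintro a ⟨x, hx, hxe⟩ b ⟨y, hy, hye⟩
    exact ⟨comp x y, hclosed x hx y hy, by
      rw [(comp_spec (hv hx) (hv hy)).2, hxe, hye]; rfl⟩
  let N : Subgroup K0 :=
    { carrier := S
      one_mem' := ⟨idCode, hid, toPerm_idCode⟩
      mul_mem' := fun {a b} ha hb => hmul a ha b hb
      inv_mem' := fun {a} ha => by
        have h3 := hpow a ha
        have : a⁻¹ = a * a := inv_eq_of_mul_eq_one_right (by rw [← h3]; simp [pow_succ, mul_assoc])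
        rw [this]; exact hmul a ha a ha }
  refine ⟨N, ⟨?_⟩, ?_, hpow⟩
  · rintro n ⟨x, hx, hxe⟩ g
    obtain ⟨h, hh, hhe⟩ := K0_listed g
    obtain ⟨x', hx', he⟩ := hconj h hh x hx
    refine ⟨x', hx', ?_⟩
    have e := congrArg toPerm he
    rw [(comp_spec (threePt_mem hh).1 (hv hx)).2, (comp_spec (hv hx') (threePt_mem hh).1).2,
      hxe, hhe] at e
    simp only [Subgroup.coe_mul, Subgroup.coe_inv]
    rw [e]; group
  · rw [← hlen, ← ncard_coded hok (S := Subtype.val '' (N : Set K0)) ?_,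
      Set.ncard_image_of_injective _ Subtype.val_injective, ← Nat.card_coe_set_eq]
    · rfl
    intro y
    constructor
    · rintro ⟨g, hg, rfl⟩; exact hg
    · rintro ⟨x, hx, rfl⟩
      exact ⟨⟨_, (threePt_mem (nine_mem hx)).2⟩, ⟨x, hx, rfl⟩, rfl⟩

/-- The position of an element of the quaternion group in the list. -/
def quatIdx : QuaternionGroup 2 → ℕ
  | .a i => ZMod.val i
  | .xa i => 4 + ZMod.val i

theorem quat_table : ∀ u v : QuaternionGroup 2,
    isComp (threePtQuat.getD (quatIdx u) 0) (threePtQuat.getD (quatIdx v) 0)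
      (threePtQuat.getD (quatIdx (u * v)) 0) = true := by decide +kernel

theorem quat_idx : (∀ u : QuaternionGroup 2, quatIdx u < 8) ∧
    (∀ u v : QuaternionGroup 2, quatIdx u = quatIdx v → u = v) := by
  constructor <;> decide +kernel

theorem quat_hom : ∃ f : QuaternionGroup 2 →* K0, Function.Injective f := by
  obtain ⟨-, -, -, -, -, -, -, -, -, hok, hlen, hmem⟩ := threePt_facts
  simp only [List.all_eq_true, List.elem_eq_mem, decide_eq_true_eq] at hmem
  have hget : ∀ u, threePtQuat.getD (quatIdx u) 0 ∈ threePtQuat := fun u => by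
    rw [List.getD_eq_getElem _ _ (by rw [hlen]; exact quat_idx.1 u)]
    exact List.getElem_mem _
  refine ⟨MonoidHom.mk' (fun u => ⟨toPerm (threePtQuat.getD (quatIdx u) 0),
    (threePt_mem (hmem _ (hget u))).2⟩) (fun u v => Subtype.ext (toPerm_isComp (quat_table u v))),
    fun u v h => quat_idx.2 u v ?_⟩
  have h1 : threePtQuat.getD (quatIdx u) 0 = threePtQuat.getD (quatIdx v) 0 :=
    codedOK_inj hok (hget u) (hget v) (Subtype.ext_iff.1 h)
  simp only [codedOK, Bool.and_eq_true] at hok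
  have hn := nodup_of_distinct hok.1
  rw [List.getD_eq_getElem _ _ (by rw [hlen]; exact quat_idx.1 u),
    List.getD_eq_getElem _ _ (by rw [hlen]; exact quat_idx.1 v)] at h1
  exact (hn.getElem_inj_iff).1 h1

/-- The Sylow subgroups of any copy of the standard group. -/
theorem threePt_sylow {G : Type*} [Group G] (e : G ≃* K0) :
    (∀ Q : Sylow 3 G, (Q : Subgroup G).Normal ∧ Nat.card Q = 9 ∧
      ∀ x ∈ (Q : Subgroup G), x ^ 3 = 1) ∧
    ∀ P : Sylow 2 G, Nonempty (P ≃* QuaternionGroup 2) := by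
  have : Fact (Nat.Prime 3) := ⟨Nat.prime_three⟩
  have : Fact (Nat.Prime 2) := ⟨Nat.prime_two⟩
  have : Finite G := Finite.of_equiv K0 e.symm.toEquiv
  have hG : Nat.card G = 72 := by rw [Nat.card_congr e.toEquiv, K0_card]
  have hf3 : (72 : ℕ).factorization 3 = 2 := by
    have h1 := (Nat.prime_three.pow_dvd_iff_le_factorization (k := 2) (n := 72) (by norm_num)).1
      (by norm_num)
    have h2 := mt (Nat.prime_three.pow_dvd_iff_le_factorization (k := 3) (n := 72) (by norm_num)).2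
      (by norm_num)
    omega
  have hf2 : (72 : ℕ).factorization 2 = 3 := by
    have h1 := (Nat.prime_two.pow_dvd_iff_le_factorization (k := 3) (n := 72) (by norm_num)).1
      (by norm_num)
    have h2 := mt (Nat.prime_two.pow_dvd_iff_le_factorization (k := 4) (n := 72) (by norm_num)).2
      (by norm_num)
    omega
  obtain ⟨N, hN, hN9, hN3⟩ := nine_closed
  let M : Subgroup G := N.map e.symm.toMonoidHom
  have hM : M.Normal := hN.map e.symm.toMonoidHom e.symm.surjective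
  have hM9 : Nat.card M = 9 := by
    rw [Subgroup.card_map_of_injective e.symm.injective, hN9]
  obtain ⟨f, hf⟩ := quat_hom
  let f' : QuaternionGroup 2 →* G := e.symm.toMonoidHom.comp f
  have hf' : Function.Injective f' := e.symm.injective.comp hf
  let R : Subgroup G := f'.range
  have hR8 : Nat.card R = 8 := by
    rw [← Nat.card_congr (MonoidHom.ofInjective hf').toEquiv, Nat.card_eq_fintype_card,
      QuaternionGroup.card]
  refine ⟨fun Q => ?_, fun P => ?_⟩
  · obtain ⟨g, hg⟩ := MulAction.exists_smul_eq G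
      (Sylow.ofCard M (by rw [hM9, hG, hf3]; rfl) : Sylow 3 G) Q
    have hQ : (Q : Subgroup G) = M := by
      rw [← hg, Sylow.coe_subgroup_smul]
      exact hM.conjAct (ConjAct.toConjAct g)
    refine ⟨hQ ▸ hM, ?_, fun x hx => ?_⟩
    · show Nat.card (Q : Subgroup G) = 9
      rw [hQ, hM9]
    · rw [hQ] at hx
      obtain ⟨n, hn, rfl⟩ := Subgroup.mem_map.1 hx
      rw [← map_pow, hN3 n hn, map_one]
  · let S : Sylow 2 G := Sylow.ofCard R (by rw [hR8, hG, hf2]; rfl)
    exact ⟨(Sylow.equiv P S).trans (MonoidHom.ofInjective hf').symm⟩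

end Cfsg.Agent.Lib.Golay
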