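import Cfsg.Agent.Lib.Golay.Families
import Cfsg.Agent.Lib.Golay.FamData
import Cfsg.Agent.Lib.Golay.Search
import Cfsg.Agent.Lib.Golay.TrioStabData

/-! # The structure of the stabiliser of a trio -/

set_option autoImplicit false
set_option maxRecDepth 100000

namespace Cfsg.Agent.Lib.Golay

open Cfsg
open scoped Pointwise Matrix

theorem trioStd_mem : fam tBase ∈ trios := by
  have hc : [5279, 1009728].all (fun m => isCode m && pc m == 8) = true ∧ (5279 &&& 1009728 = 0) ∧
      15762208 = FULL ^^^ (5279 ||| 1009728) := by decide +kernel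
  simp only [List.all_eq_true, Bool.and_eq_true, beq_iff_eq] at hc
  obtain ⟨hoc, hd, he⟩ := hc
  have ho : ∀ m ∈ [5279, 1009728], toSet m ∈ octads := fun m hm =>
    mem_octads.2 ⟨m, mem_octList.2 (hoc m hm), rfl⟩
  have hdis : Disjoint (toSet 5279) (toSet 1009728) := by
    rw [Finset.disjoint_iff_inter_eq_empty, ← toSet_and, hd]
    decide +kernel
  have := trio_mem (ho 5279 (by simp)) (ho 1009728 (by simp)) hdis
  rw [← toSet_or, ← toSet_compl, ← he] at this
  simpa [fam, tBase] using this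

/-! ### Vectors of length three over two elements -/

/-- The number of a vector. -/
def vecCode (v : Fin 3 → ZMod 2) : ℕ := 4 * (v 0).val + 2 * (v 1).val + (v 2).val

/-- The action of a coded matrix on a coded vector. -/
def mvCode (k c : ℕ) : ℕ :=
  (if c / 4 % 2 == 1 then k / 64 else 0) ^^^ (if c / 2 % 2 == 1 then k / 8 % 8 else 0) ^^^
    (if c % 2 == 1 then k % 8 else 0)

/-- The code of a matrix. -/
def keyMat (M : Matrix (Fin 3) (Fin 3) (ZMod 2)) : ℕ :=
  64 * vecCode (fun i => M i 0) + 8 * vecCode (fun i => M i 1) + vecCode (fun i => M i 2)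

/-- The matrix of a code. -/
def matKey (k : ℕ) : Matrix (Fin 3) (Fin 3) (ZMod 2) :=
  Matrix.of fun i j => ((k / 8 ^ (2 - (j : ℕ)) % 8 / 2 ^ (2 - (i : ℕ)) % 2 : ℕ) : ZMod 2)

theorem vecCode_lt (v : Fin 3 → ZMod 2) : vecCode v < 8 := by
  have h : ∀ z : ZMod 2, z.val < 2 := fun z => z.val_lt
  have := h (v 0); have := h (v 1); have := h (v 2)
  simp only [vecCode]; omega

theorem vecCode_inj : Function.Injective vecCode := by
  intro v w h
  have hb : ∀ z : ZMod 2, z.val < 2 := fun z => z.val_lt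
  have := hb (v 0); have := hb (v 1); have := hb (v 2)
  have := hb (w 0); have := hb (w 1); have := hb (w 2)
  simp only [vecCode] at h
  funext i
  refine ZMod.val_injective 2 ?_
  fin_cases i <;> simp <;> omega

theorem vecCode_add (u w : Fin 3 → ZMod 2) : vecCode (u + w) = vecCode u ^^^ vecCode w := by
  have key : ∀ a b c x y z : ZMod 2, 4 * (a + x).val + 2 * (b + y).val + (c + z).val =
      (4 * a.val + 2 * b.val + c.val) ^^^ (4 * x.val + 2 * y.val + z.val) := by decide +kernel
  simpa [vecCode] using key (u 0) (u 1) (u 2) (w 0) (w 1) (w 2)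

theorem mulVec_code (M : Matrix (Fin 3) (Fin 3) (ZMod 2)) (v : Fin 3 → ZMod 2) :
    vecCode (M *ᵥ v) = mvCode (keyMat M) (vecCode v) := by
  have two : ∀ z : ZMod 2, z = 0 ∨ z = 1 := by decide
  have h0 := vecCode_lt fun i => M i 0
  have h1 := vecCode_lt fun i => M i 1
  have h2 := vecCode_lt fun i => M i 2
  have k0 : keyMat M / 64 = vecCode (fun i => M i 0) := by simp only [keyMat]; omega
  have k1 : keyMat M / 8 % 8 = vecCode (fun i => M i 1) := by simp only [keyMat]; omega
  have k2 : keyMat M % 8 = vecCode (fun i => M i 2) := by simp only [keyMat]; omega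
  have hM : M *ᵥ v = v 0 • (fun i => M i 0) + v 1 • (fun i => M i 1) + v 2 • (fun i => M i 2) := by
    funext i
    simp [Matrix.mulVec, dotProduct, Fin.sum_univ_three, mul_comm]
  have hz : vecCode 0 = 0 := rfl
  rw [hM, vecCode_add, vecCode_add]
  simp only [mvCode, k0, k1, k2]
  rcases two (v 0) with e0 | e0 <;> rcases two (v 1) with e1 | e1 <;> rcases two (v 2) with e2 | e2 <;>
    rw [e0, e1, e2] <;>
    simp [vecCode, e0, e1, e2, ZMod.val_one]

theorem keyMat_matKey : ∀ k < 512, keyMat (matKey k) = k := by decide +kernel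

theorem keyMat_inj : Function.Injective keyMat := by
  intro M N h
  have h0 := vecCode_lt fun i => M i 0
  have h1 := vecCode_lt fun i => M i 1
  have h2 := vecCode_lt fun i => M i 2
  have h0' := vecCode_lt fun i => N i 0
  have h1' := vecCode_lt fun i => N i 1
  have h2' := vecCode_lt fun i => N i 2
  simp only [keyMat] at h
  have e0 : (fun i => M i 0) = fun i => N i 0 := vecCode_inj (by omega)
  have e1 : (fun i => M i 1) = fun i => N i 1 := vecCode_inj (by omega)
  have e2 : (fun i => M i 2) = fun i => N i 2 := vecCode_inj (by omega)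
  ext i j
  fin_cases j
  exacts [congrFun e0 i, congrFun e1 i, congrFun e2 i]

/-- A coded matrix is invertible. -/
def keyOK (k : ℕ) : Bool :=
  Nat.blt k 512 && (List.range 8).all fun c => (List.range 8).all fun d =>
    c == d || mvCode k c != mvCode k d

theorem gl_of_key {k : ℕ} (h : keyOK k = true) :
    ∃ g : GL (Fin 3) (ZMod 2), ∀ v, vecCode ((g : Matrix (Fin 3) (Fin 3) (ZMod 2)) *ᵥ v) =
      mvCode k (vecCode v) := by
  haveI : Fact (Nat.Prime 2) := ⟨Nat.prime_two⟩
  simp only [keyOK, Bool.and_eq_true, Nat.blt_eq, List.all_eq_true, List.mem_range,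
    Bool.or_eq_true, beq_iff_eq, bne_iff_ne, ne_eq] at h
  obtain ⟨hk, hinj⟩ := h
  have hu : IsUnit (matKey k) := Matrix.mulVec_injective_iff_isUnit.1 fun v w e => vecCode_inj (by
    have e' := congrArg vecCode e
    rw [mulVec_code, mulVec_code, keyMat_matKey k hk] at e'
    exact (hinj _ (vecCode_lt v) _ (vecCode_lt w)).resolve_right fun hne => hne e')
  exact ⟨hu.unit, fun v => by rw [IsUnit.unit_spec, mulVec_code, keyMat_matKey k hk]⟩

/-! ### The two actions -/

/-- The seven sextets, with the empty family at the zero vector. -/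
def sevS (v : Fin 3 → ZMod 2) : Finset (Finset GolayPt) := fam (trioSeven.getD (vecCode v) [])

/-- The three octads. -/
def triO (i : Fin 3) : Finset GolayPt := toSet (tBase.getD i 0)

/-- The six permutations of three letters. -/
def perms3 : List (Equiv.Perm (Fin 3)) :=
  [1, Equiv.swap 0 1, Equiv.swap 1 2, Equiv.swap 0 2, Equiv.swap 0 1 * Equiv.swap 1 2,
    Equiv.swap 1 2 * Equiv.swap 0 1]

theorem trio_tables : ((List.range 8).all fun c => canon (trioSeven.getD c []) &&
    (List.range 8).all fun d => c == d || trioSeven.getD c [] != trioSeven.getD d []) = true ∧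
    (∀ i j : Fin 3, toSet (tBase.getD i 0) = toSet (tBase.getD j 0) → i = j) ∧
    fam tBase = {triO 0, triO 1, triO 2} := by
  refine ⟨by decide +kernel, ?_, ?_⟩
  · intro i j h
    have hlt : ∀ i : Fin 3, tBase.getD i 0 < 16777216 := by decide
    have key : ∀ i j : Fin 3, tBase.getD i 0 = tBase.getD j 0 → i = j := by decide
    exact key i j (eq_of_toSet_eq (hlt i) (hlt j) h)
  · simp only [fam, tBase, triO, List.map_cons, List.map_nil, List.toFinset_cons,
      List.toFinset_nil]
    rfl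

theorem sevS_inj : Function.Injective sevS := by
  intro v w h
  have ht := trio_tables.1
  simp only [List.all_eq_true, List.mem_range, Bool.and_eq_true, Bool.or_eq_true, beq_iff_eq,
    bne_iff_ne, ne_eq] at ht
  have h1 := ht _ (vecCode_lt v)
  have h2 := ht _ (vecCode_lt w)
  refine vecCode_inj ((h1.2 _ (vecCode_lt w)).resolve_right fun hne => hne ?_)
  exact fam_inj h1.1 h2.1 h

/-- The two actions agree with a matrix and a permutation. -/
def TrioCompat (σ : Equiv.Perm GolayPt) (g : GL (Fin 3) (ZMod 2) × Equiv.Perm (Fin 3)) : Prop :=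
  (∀ v, σ • sevS v = sevS ((g.1 : Matrix (Fin 3) (Fin 3) (ZMod 2)) *ᵥ v)) ∧
    ∀ i, σ • triO i = triO (g.2 i)

theorem TrioCompat.unique {σ : Equiv.Perm GolayPt} {g h : GL (Fin 3) (ZMod 2) × Equiv.Perm (Fin 3)}
    (hg : TrioCompat σ g) (hh : TrioCompat σ h) : g = h := by
  refine Prod.ext (Units.ext ?_) (Equiv.ext fun i => ?_)
  · refine Matrix.ext_of_mulVec_single fun j => sevS_inj ?_
    rw [← hg.1, ← hh.1]
  · exact trio_tables.2.1 _ _ ((hg.2 i).symm.trans (hh.2 i))

theorem TrioCompat.mul {σ τ : Equiv.Perm GolayPt} {g h : GL (Fin 3) (ZMod 2) × Equiv.Perm (Fin 3)}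
    (hg : TrioCompat σ g) (hh : TrioCompat τ h) : TrioCompat (σ * τ) (g * h) :=
  ⟨fun v => by
    rw [mul_smul, hh.1, hg.1, Matrix.mulVec_mulVec]
    rfl, fun i => by rw [mul_smul, hh.2, hg.2]; rfl⟩

theorem TrioCompat.one : TrioCompat 1 1 :=
  ⟨fun v => by simp, fun i => by simp⟩

theorem TrioCompat.inv {σ : Equiv.Perm GolayPt} {g : GL (Fin 3) (ZMod 2) × Equiv.Perm (Fin 3)}
    (hg : TrioCompat σ g) : TrioCompat σ⁻¹ g⁻¹ := by
  refine ⟨fun v => inv_smul_eq_iff.2 ?_, fun i => inv_smul_eq_iff.2 ?_⟩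
  · rw [hg.1, Matrix.mulVec_mulVec]
    simp
  · rw [hg.2]
    simp

/-- The elements of the code's group acting compatibly. -/
def trioC : Subgroup (Equiv.Perm GolayPt) where
  carrier := {σ | σ ∈ M24 ∧ ∃ g, TrioCompat σ g}
  one_mem' := ⟨one_mem _, 1, TrioCompat.one⟩
  mul_mem' := fun ⟨a1, g, a2⟩ ⟨b1, h, b2⟩ => ⟨mul_mem a1 b1, g * h, a2.mul b2⟩
  inv_mem' := fun ⟨a1, g, a2⟩ => ⟨inv_mem a1, g⁻¹, a2.inv⟩

/-- The induced pair. -/
noncomputable def trioRho : trioC →* GL (Fin 3) (ZMod 2) × Equiv.Perm (Fin 3) where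
  toFun σ := σ.2.2.choose
  map_one' := (1 : trioC).2.2.choose_spec.unique TrioCompat.one
  map_mul' σ τ := (σ * τ).2.2.choose_spec.unique (σ.2.2.choose_spec.mul τ.2.2.choose_spec)

theorem trioRho_eq {σ : trioC} {g : GL (Fin 3) (ZMod 2) × Equiv.Perm (Fin 3)}
    (h : TrioCompat σ.1 g) : trioRho σ = g :=
  σ.2.2.choose_spec.unique h

/-- A coded element with its coded images is correct. -/
def trioEntryOK (e : ℕ × ℕ × ℕ) : Bool :=
  inM24 e.1 && keyOK e.2.1 && Nat.blt e.2.2 6 &&
    ((List.range 8).all fun c =>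
      actFam e.1 (trioSeven.getD c []) == trioSeven.getD (mvCode e.2.1 c) []) &&
    decide (∀ i : Fin 3, act e.1 (tBase.getD i 0) = tBase.getD ((perms3.getD e.2.2 1) i : Fin 3) 0)

theorem trioEntry_spec {e : ℕ × ℕ × ℕ} (h : trioEntryOK e = true) :
    toPerm e.1 ∈ trioC ∧ ∃ g : GL (Fin 3) (ZMod 2),
      (∀ v, vecCode ((g : Matrix (Fin 3) (Fin 3) (ZMod 2)) *ᵥ v) = mvCode e.2.1 (vecCode v)) ∧
        TrioCompat (toPerm e.1) (g, perms3.getD e.2.2 1) := by
  simp only [trioEntryOK, Bool.and_eq_true, List.all_eq_true, List.mem_range, beq_iff_eq,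
    decide_eq_true_eq] at h
  obtain ⟨⟨⟨⟨h1, h2⟩, -⟩, h4⟩, h5⟩ := h
  have hv := valid_of_inM24 h1
  obtain ⟨g, hg⟩ := gl_of_key h2
  have hc : TrioCompat (toPerm e.1) (g, perms3.getD e.2.2 1) := by
    refine ⟨fun v => ?_, fun i => ?_⟩
    · show toPerm e.1 • fam _ = fam _
      rw [← fam_actFam hv, h4 _ (vecCode_lt v), hg]
    · show toPerm e.1 • toSet _ = toSet _
      rw [smul_toSet hv, h5]
  exact ⟨⟨toPerm_mem_M24 h1, _, hc⟩, g, hg, hc⟩

theorem trioChain_ok : (trioChain.all fun e => e.2.all trioEntryOK) = true ∧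
    chainOK 0 (trioChain.map fun e => (e.1, e.2.map Prod.fst)) = true ∧
    chainSize (trioChain.map fun e => (e.1, e.2.map Prod.fst)) = 64512 := by
  refine ⟨?_, ?_, ?_⟩ <;> decide +kernel

theorem trioReps_ok : trioReps.all trioEntryOK = true ∧
    ((List.range 3).all fun i => (List.range 3).all fun j => i == j ||
      trioReps.any fun e => e.2.1 == (273 ||| 2 ^ (3 * (2 - j) + (2 - i))) && e.2.2 == 0) = true ∧
    (trioReps.any fun e => e.2.1 == 273 && e.2.2 == 1) = true ∧
    (trioReps.any fun e => e.2.1 == 273 && e.2.2 == 2) = true := by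
  refine ⟨?_, ?_, ?_, ?_⟩ <;> decide +kernel

theorem trioKer_ok : (trioKer.all fun p => trioEntryOK (p, 273, 0) && powId 2 p) = true ∧
    codedOK trioKer = true ∧ trioKer.length = 64 := by
  refine ⟨?_, ?_, ?_⟩ <;> decide +kernel

theorem trio_stab_card {T : Finset (Finset GolayPt)} (hT : T ∈ trios) :
    Nat.card (MulAction.stabilizer M24 T) = 64512 := by
  have h := card_eq_orbit_mul M24 T trios (fun σ hσ => smul_mem_trios hσ hT)
    (fun T' hT' => M24_trans_trios hT hT')
  rw [M24_card, trios_ncard] at h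
  rw [Nat.card_congr (stabEquiv M24 T).toEquiv]
  omega

theorem trioC_eq : trioC = M24 ⊓ MulAction.stabilizer (Equiv.Perm GolayPt) (fam tBase) := by
  obtain ⟨h1, h2, h3⟩ := trioChain_ok
  refine eq_of_chain ?_ h2 ?_ ?_
  · rintro σ ⟨hM, g, hg⟩
    refine ⟨hM, ?_⟩
    show σ • fam tBase = fam tBase
    rw [trio_tables.2.2]
    refine Finset.eq_of_subset_of_card_le ?_ (by rw [Finset.card_smul_finset])
    intro x hx
    obtain ⟨y, hy, rfl⟩ := Finset.mem_smul_finset.1 hx
    simp only [Finset.mem_insert, Finset.mem_singleton] at hy ⊢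
    have key : ∀ j : Fin 3, triO j = triO 0 ∨ triO j = triO 1 ∨ triO j = triO 2 := by
      intro j; fin_cases j <;> simp
    rcases hy with rfl | rfl | rfl <;> rw [hg.2] <;> exact key _
  · intro e he t ht
    obtain ⟨e', he', rfl⟩ := List.mem_map.1 he
    obtain ⟨x, hx, rfl⟩ := List.mem_map.1 ht
    exact (trioEntry_spec (List.all_eq_true.1 (List.all_eq_true.1 h1 e' he') x hx)).1
  · rw [h3, ← Nat.card_congr (stabEquiv M24 (fam tBase)).toEquiv, trio_stab_card trioStd_mem]

theorem vecCode_single_ext {M N : GL (Fin 3) (ZMod 2)}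
    (h : ∀ v, vecCode ((M : Matrix (Fin 3) (Fin 3) (ZMod 2)) *ᵥ v) =
      vecCode ((N : Matrix (Fin 3) (Fin 3) (ZMod 2)) *ᵥ v)) : M = N :=
  Units.ext (Matrix.ext_of_mulVec_single fun _ => vecCode_inj (h _))

theorem key_one : keyMat 1 = 273 := by decide

theorem zmod_two_cases : ∀ z : ZMod 2, z = 0 ∨ z = 1 := by decide

theorem trioRho_surj : Function.Surjective trioRho := by
  obtain ⟨hok, htab, hs1, hs2⟩ := trioReps_ok
  have hfirst : ∀ g : GL (Fin 3) (ZMod 2), (g, 1) ∈ trioRho.range := by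
    intro g
    haveI : Fact (Nat.Prime 2) := ⟨Nat.prime_two⟩
    let P : Matrix (Fin 3) (Fin 3) (ZMod 2) → Prop := fun M =>
      ∀ g : GL (Fin 3) (ZMod 2), (g : Matrix (Fin 3) (Fin 3) (ZMod 2)) = M → (g, 1) ∈ trioRho.range
    refine Matrix.diagonal_transvection_induction_of_det_ne_zero P g
      (IsUnit.ne_zero ((Matrix.isUnit_iff_isUnit_det _).1 g.isUnit)) ?_ ?_ ?_ g rfl
    · intro D hD g hg
      have hD1 : ∀ i, D i = 1 := by
        intro i
        rw [Matrix.det_diagonal, Finset.prod_ne_zero_iff] at hD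
        exact (zmod_two_cases _).resolve_left (hD i (Finset.mem_univ _))
      have : g = 1 := Units.ext (by rw [hg, Units.val_one, ← Matrix.diagonal_one]; congr; funext i; exact hD1 i)
      rw [this]
      exact one_mem _
    · rintro ⟨i, j, hij, c⟩ g hg
      rcases zmod_two_cases c with rfl | rfl
      · have : g = 1 := Units.ext (by
          rw [hg]; simp [Matrix.TransvectionStruct.toMatrix, Matrix.transvection_zero])
        rw [this]
        exact one_mem _
      have h := List.all_eq_true.1 (List.all_eq_true.1 htab i (List.mem_range.2 i.2)) j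
        (List.mem_range.2 j.2)
      simp only [Bool.or_eq_true, beq_iff_eq, List.any_eq_true, Bool.and_eq_true] at h
      obtain ⟨e, he, hek, hep⟩ := h.resolve_left fun e => hij (Fin.ext e)
      obtain ⟨hm, g', hg', hc⟩ := trioEntry_spec (List.all_eq_true.1 hok e he)
      refine ⟨⟨_, hm⟩, trioRho_eq ?_⟩
      rw [hep] at hc
      have hk : keyMat (Matrix.transvection i j (1 : ZMod 2)) =
          273 ||| 2 ^ (3 * (2 - (j : ℕ)) + (2 - (i : ℕ))) := by
        have key : ∀ i j : Fin 3, i ≠ j → keyMat (Matrix.transvection i j (1 : ZMod 2)) =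
            273 ||| 2 ^ (3 * (2 - (j : ℕ)) + (2 - (i : ℕ))) := by
          intro i j hij
          fin_cases i <;> fin_cases j <;> first | exact absurd rfl hij |
            simp [keyMat, vecCode, Matrix.transvection, Matrix.single, ZMod.val_one]
        exact key i j hij
      rwa [show g = g' from vecCode_single_ext fun v => by
        rw [hg', hek, mulVec_code, hg]
        exact congrArg (mvCode · (vecCode v)) hk]
    · intro A B hA hB hPA hPB g hg
      let gA := Matrix.GeneralLinearGroup.mkOfDetNeZero A hA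
      let gB := Matrix.GeneralLinearGroup.mkOfDetNeZero B hB
      have : g = gA * gB := Units.ext (by rw [hg]; rfl)
      rw [this]
      simpa using mul_mem (hPA gA rfl) (hPB gB rfl)
  have hswap : ∀ n ∈ [1, 2], (1, perms3.getD n 1) ∈ trioRho.range := by
    intro n hn
    have h : (trioReps.any fun e => e.2.1 == 273 && e.2.2 == n) = true := by
      simp only [List.mem_cons, List.not_mem_nil, or_false] at hn
      rcases hn with rfl | rfl <;> assumption
    simp only [List.any_eq_true, Bool.and_eq_true, beq_iff_eq] at h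
    obtain ⟨e, he, hek, hep⟩ := h
    obtain ⟨hm, g', hg', hc⟩ := trioEntry_spec (List.all_eq_true.1 hok e he)
    refine ⟨⟨_, hm⟩, trioRho_eq ?_⟩
    rw [hep] at hc
    rwa [show (1 : GL (Fin 3) (ZMod 2)) = g' from vecCode_single_ext fun v => by
      rw [hg', hek, mulVec_code, Units.val_one, key_one]]
  rintro ⟨g, e⟩
  have he : e ∈ Submonoid.closure (Set.range fun i : Fin 2 => Equiv.swap i.castSucc i.succ) := by
    rw [Equiv.Perm.mclosure_swap_castSucc_succ]; trivial
  have hsecond : ((1 : GL (Fin 3) (ZMod 2)), e) ∈ trioRho.range := by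
    induction he using Submonoid.closure_induction with
    | mem x hx =>
      obtain ⟨i, rfl⟩ := hx
      fin_cases i
      · exact hswap 1 (by simp)
      · exact hswap 2 (by simp)
    | one => exact one_mem _
    | mul x y _ _ hx hy => simpa using mul_mem hx hy
  obtain ⟨σ, hσ⟩ := mul_mem (hfirst g) hsecond
  exact ⟨σ, by simpa using hσ⟩

theorem trioRho_ker_card : Nat.card trioRho.ker = 64 := by
  have h := Subgroup.card_mul_index trioRho.ker
  rw [Subgroup.index_ker, MonoidHom.range_eq_top_of_surjective _ trioRho_surj, Subgroup.card_top,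
    Nat.card_prod, Matrix.card_GL_field, Nat.card_perm, Nat.card_eq_fintype_card (α := Fin 3),
    show Nat.card trioC = 64512 by
      rw [trioC_eq, ← Nat.card_congr (stabEquiv M24 (fam tBase)).toEquiv,
        trio_stab_card trioStd_mem]] at h
  have hv : (∏ i : Fin 3, (Fintype.card (ZMod 2) ^ 3 - Fintype.card (ZMod 2) ^ (i : ℕ))) *
      (Fintype.card (Fin 3)).factorial = 1008 := by
    simp only [Fin.prod_univ_three, ZMod.card, Fintype.card_fin]
    rfl
  rw [hv] at h
  omega

theorem trioRho_ker_sq {x : trioC} (hx : x ∈ trioRho.ker) : x * x = 1 := by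
  obtain ⟨hok, hcoded, hlen⟩ := trioKer_ok
  have hin : ∀ p ∈ trioKer, ∃ h : toPerm p ∈ trioC, (⟨toPerm p, h⟩ : trioC) ∈ trioRho.ker ∧
      toPerm p * toPerm p = 1 := by
    intro p hp
    have h := List.all_eq_true.1 hok p hp
    simp only [Bool.and_eq_true] at h
    obtain ⟨hm, g, hg, hc⟩ := trioEntry_spec h.1
    refine ⟨hm, MonoidHom.mem_ker.2 (trioRho_eq (g := 1) ?_), ?_⟩
    · have : g = 1 := vecCode_single_ext fun v => by
        rw [hg, mulVec_code, Units.val_one, key_one]
      rw [this] at hc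
      exact hc
    · have h1 := h.1
      simp only [trioEntryOK, Bool.and_eq_true] at h1
      rw [← pow_two]
      refine pow_eq_one_of_img (valid_of_inM24 h1.1.1.1.1) fun i hi => ?_
      have h2 := h.2
      simp only [powId, List.all_eq_true, beq_iff_eq] at h2
      exact h2 i (mem_idx.2 hi)
  set S : Set (Equiv.Perm GolayPt) := {y | ∃ p ∈ trioKer, toPerm p = y}
  have hS : S.ncard = 64 := (ncard_coded hcoded fun y => Iff.rfl).trans hlen
  have hsub : S ⊆ (Subtype.val '' (trioRho.ker : Set trioC)) := by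
    rintro _ ⟨p, hp, rfl⟩
    obtain ⟨h, hk, -⟩ := hin p hp
    exact ⟨_, hk, rfl⟩
  have heq := Set.eq_of_subset_of_ncard_le hsub (by
    rw [Set.ncard_image_of_injective _ Subtype.val_injective, hS, ← Nat.card_coe_set_eq]
    exact le_of_eq trioRho_ker_card) (Set.toFinite _)
  obtain ⟨p, hp, he⟩ : (x : Equiv.Perm GolayPt) ∈ S := heq ▸ ⟨x, hx, rfl⟩
  obtain ⟨-, -, h2⟩ := hin p hp
  refine Subtype.ext ?_
  rw [Subgroup.coe_mul, ← he, h2]
  rfl

theorem trio_structure {T : Finset (Finset GolayPt)} (hT : T ∈ trios) :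
    (∀ e : Equiv.Perm ↥T, ∃ g ∈ MulAction.stabilizer M24 T, ∀ o : ↥T,
      (g : Equiv.Perm GolayPt) • (o : Finset GolayPt) = ((e o : ↥T) : Finset GolayPt)) ∧
    ∃ (N : Subgroup ↥(MulAction.stabilizer M24 T)) (_ : N.Normal),
      Nat.card N = 64 ∧ (∀ x ∈ N, x * x = 1) ∧
        Nonempty (↥(MulAction.stabilizer M24 T) ⧸ N ≃* GL (Fin 3) (ZMod 2) × Equiv.Perm (Fin 3)) := by
  classical
  obtain ⟨σ, hσ, rfl⟩ := M24_trans_trios trioStd_mem hT
  have hiff : ∀ g : Equiv.Perm GolayPt, g ∈ M24 ∧ g • (σ • fam tBase) = σ • fam tBase ↔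
      σ⁻¹ * g * σ ∈ trioC := by
    intro g
    rw [trioC_eq, Subgroup.mem_inf]
    refine and_congr ⟨fun h => mul_mem (mul_mem (inv_mem hσ) h) hσ, fun h => ?_⟩ ?_
    · simpa [mul_assoc] using mul_mem (mul_mem hσ h) (inv_mem hσ)
    · show _ ↔ (σ⁻¹ * g * σ) • fam tBase = fam tBase
      rw [mul_smul, mul_smul, inv_smul_eq_iff]
  let c : ↥(MulAction.stabilizer M24 (σ • fam tBase)) →* trioC :=
    { toFun := fun g => ⟨σ⁻¹ * (g : M24).1 * σ, (hiff _).1 ⟨g.1.2, g.2⟩⟩
      map_one' := Subtype.ext (by simp)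
      map_mul' := fun g h => Subtype.ext (by simp [mul_assoc]) }
  have hc : Function.Injective c := fun g h e => Subtype.ext (Subtype.ext (mul_left_cancel
    (mul_right_cancel (congrArg (fun z : trioC => (z : Equiv.Perm GolayPt)) e :))))
  have hcs : Function.Surjective c := fun y =>
    have hy := (hiff (σ * y.1 * σ⁻¹)).2 (by simp [mul_assoc])
    ⟨⟨⟨_, hy.1⟩, hy.2⟩, Subtype.ext (by simp [c, mul_assoc])⟩
  set f := trioRho.comp c
  have hf : Function.Surjective f := trioRho_surj.comp hcs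
  refine ⟨fun e => ?_, f.ker, inferInstance, ?_, fun x hx => hc ?_, ?_⟩
  · let j : Fin 3 ≃ ↥(σ • fam tBase) := Equiv.ofBijective
      (fun i => ⟨σ • triO i, Finset.smul_mem_smul_finset (by
        rw [trio_tables.2.2]; fin_cases i <;> simp)⟩) (by
      refine (Fintype.bijective_iff_injective_and_card _).2 ⟨fun a b h => ?_, ?_⟩
      · exact trio_tables.2.1 a b (MulAction.injective σ (congrArg Subtype.val h))
      · rw [Fintype.card_fin, Fintype.card_coe, Finset.card_smul_finset, trioStd_mem.1])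
    obtain ⟨g, hg⟩ := hf (1, (j.trans e).trans j.symm)
    refine ⟨g.1, g.2, fun o => ?_⟩
    obtain ⟨i, rfl⟩ := j.surjective o
    have h1 : (σ⁻¹ * (g.1 : Equiv.Perm GolayPt) * σ) • triO i = triO ((trioRho (c g)).2 i) :=
      (c g).2.2.choose_spec.2 i
    rw [show trioRho (c g) = (1, (j.trans e).trans j.symm) from hg, mul_smul, mul_smul,
      inv_smul_eq_iff] at h1
    show (g.1 : Equiv.Perm GolayPt) • (σ • triO i) = _
    rw [h1]
    show ((j (j.symm (e (j i))) : ↥(σ • fam tBase)) : Finset GolayPt) = _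
    rw [j.apply_symm_apply]
  · rw [← trioRho_ker_card]
    refine Nat.card_congr (Equiv.subtypeEquiv (Equiv.ofBijective c ⟨hc, hcs⟩) fun g => ?_)
    rfl
  · rw [map_mul, map_one]
    exact trioRho_ker_sq hx
  · exact ⟨QuotientGroup.quotientKerEquivOfSurjective f hf⟩

end Cfsg.Agent.Lib.Golay
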